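import Mathlib
import Cfsg.Agent.H84.PslStmt
import Cfsg.Agent.Lib.Helper97.PslAux

set_option autoImplicit false

/-!
# S5163, piece P2: the root elements generate the image of the unitriangular group (helper97)
-/

namespace Cfsg.Agent.Lib.Helper97.PslP2

open Cfsg.Agent.H84.PslDefs Matrix Cfsg.Agent.Lib.Helper97.PslAux

universe u

theorem main : Cfsg.Agent.H84.PslStmt.ClosureXset.{u} := by
  intro n K _ _ p _ _
  have hX : Xset n K = (proj n K) '' (X0 n K) := by
    ext x
    constructor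
    · rintro ⟨i, j, h, c, hc, rfl⟩
      exact ⟨_, ⟨i, j, h, c, hc, rfl⟩, rfl⟩
    · rintro ⟨y, ⟨i, j, h, c, hc, rfl⟩, rfl⟩
      exact ⟨i, j, h, c, hc, rfl⟩
  rw [hX, ← MonoidHom.map_closure, closure_X0]
  rfl

end Cfsg.Agent.Lib.Helper97.PslP2
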