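import Mathlib
import Cfsg.Agent.Lib.Helper37.OrtStmt

set_option autoImplicit false

namespace Cfsg.Agent.Lib.Helper97.OrtCONG

open scoped Kronecker MatrixGroups Matrix
open Polynomial
open Cfsg.Agent.Lib.Helper37.OrtStmt

universe u

/-- a binary diagonal form with nonzero coefficients over a finite field of odd characteristic
represents `1` -/
theorem exists_binary {F : Type u} [Field F] [Fintype F] (h2 : (2 : F) ≠ 0) (a b : F)
    (ha : a ≠ 0) (hb : b ≠ 0) : ∃ x y : F, a * x ^ 2 + b * y ^ 2 = 1 := by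
  have hodd : Fintype.card F % 2 = 1 := by
    apply FiniteField.odd_card_of_char_ne_two
    intro h
    apply h2
    have h1 := ringChar.Nat.cast_ringChar (R := F)
    rw [h] at h1
    exact_mod_cast h1
  have hf : (C a * X ^ 2 : F[X]).degree = 2 := by
    rw [degree_C_mul_X_pow 2 ha]; rfl
  have hg : (C b * X ^ 2 - C 1 : F[X]).degree = 2 := by
    rw [degree_sub_C]
    · rw [degree_C_mul_X_pow 2 hb]; rfl
    · rw [degree_C_mul_X_pow 2 hb]; norm_num
  obtain ⟨x, y, hxy⟩ := FiniteField.exists_root_sum_quadratic hf hg hodd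
  refine ⟨x, y, ?_⟩
  simp only [eval_mul, eval_C, eval_pow, eval_X, eval_sub] at hxy
  linear_combination hxy

/-- a nondegenerate symmetric bilinear form of dimension `≥ 2` over a finite field of odd
characteristic represents `1` -/
theorem exists_self_eq_one {F : Type u} [Field F] [Fintype F] (h2 : (2 : F) ≠ 0) {V : Type u}
    [AddCommGroup V] [Module F V] [FiniteDimensional F V] (B : LinearMap.BilinForm F V)
    (hs : B.IsSymm) (hn : B.Nondegenerate) (hdim : 2 ≤ Module.finrank F V) :
    ∃ v : V, B v v = 1 := by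
  haveI : Invertible (2 : F) := invertibleOfNonzero h2
  obtain ⟨v, hv⟩ := LinearMap.BilinForm.exists_orthogonal_basis
    (LinearMap.BilinForm.isSymm_iff.mp hs)
  obtain ⟨i0, hi0⟩ : ∃ i0 : Fin (Module.finrank F V), i0.val = 0 := ⟨⟨0, by omega⟩, rfl⟩
  obtain ⟨i1, hi1⟩ : ∃ i1 : Fin (Module.finrank F V), i1.val = 1 := ⟨⟨1, by omega⟩, rfl⟩
  have h01 : i0 ≠ i1 := by
    intro h
    rw [h] at hi0
    omega
  have ha := hv.not_isOrtho_basis_self_of_separatingLeft hn.1 i0
  have hb := hv.not_isOrtho_basis_self_of_separatingLeft hn.1 i1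
  obtain ⟨x, y, hxy⟩ := exists_binary h2 _ _ ha hb
  refine ⟨x • v i0 + y • v i1, ?_⟩
  have o1 : B (v i0) (v i1) = 0 := LinearMap.isOrthoᵢ_def.mp hv i0 i1 h01
  have o2 : B (v i1) (v i0) = 0 := LinearMap.isOrthoᵢ_def.mp hv i1 i0 h01.symm
  simp only [map_add, map_smul, LinearMap.add_apply, LinearMap.smul_apply, smul_eq_mul, o1, o2]
  linear_combination hxy

/-- an orthogonal family with Gram matrix `diag(1, …, 1, d)` -/
theorem exists_family {F : Type u} [Field F] [Fintype F] (h2 : (2 : F) ≠ 0) :
    ∀ (n : ℕ) (V : Type u) [AddCommGroup V] [Module F V] [FiniteDimensional F V]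
      (B : LinearMap.BilinForm F V), B.IsSymm → B.Nondegenerate →
      Module.finrank F V = n + 1 →
      ∃ (d : F) (b : Fin (n + 1) → V), d ≠ 0 ∧
        ∀ i j, B (b i) (b j) = if i = j then (if i = Fin.last n then d else 1) else 0 := by
  intro n
  induction n with
  | zero =>
    intro V _ _ _ B hs hn hdim
    haveI : Nontrivial V := Module.nontrivial_of_finrank_pos (R := F) (by omega)
    obtain ⟨v, hv⟩ := exists_ne (0 : V)
    have hspan := (finrank_eq_one_iff_of_nonzero' v hv).mp (by simpa using hdim)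
    have hd : B v v ≠ 0 := by
      intro h0
      apply hv
      apply hn.1 v
      intro y
      obtain ⟨c, rfl⟩ := hspan y
      rw [map_smul, smul_eq_mul, h0, mul_zero]
    refine ⟨B v v, fun _ => v, hd, ?_⟩
    intro i j
    have hi : i = Fin.last 0 := by
      apply Fin.ext
      have := i.2
      simp only [Fin.val_last]
      omega
    have hij : i = j := by
      apply Fin.ext
      have := i.2
      have := j.2
      omega
    rw [if_pos hij, if_pos hi]
  | succ n ih =>
    intro V _ _ _ B hs hn hdim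
    obtain ⟨v, hv⟩ := exists_self_eq_one h2 B hs hn (by omega)
    have hv0 : B v v ≠ 0 := by rw [hv]; exact one_ne_zero
    have hvne : v ≠ 0 := by
      rintro rfl
      simp at hv0
    have hcompl := LinearMap.BilinForm.isCompl_span_singleton_orthogonal hv0
    have hWdim : Module.finrank F ↥(B.orthogonal (F ∙ v)) = n + 1 := by
      have h1 := Submodule.finrank_add_eq_of_isCompl hcompl
      rw [finrank_span_singleton hvne] at h1
      omega
    have hWn := LinearMap.BilinForm.restrict_nondegenerate_orthogonal_spanSingleton B hn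
      hs.isRefl hv0
    obtain ⟨d, b', hd, hb'⟩ := ih ↥(B.orthogonal (F ∙ v)) (B.restrict (B.orthogonal (F ∙ v)))
      (hs.restrict _) hWn hWdim
    have hperp : ∀ i, B v (b' i) = 0 := by
      intro i
      exact LinearMap.BilinForm.mem_orthogonal_iff.mp (b' i).2 v
        (Submodule.mem_span_singleton_self v)
    have hperp' : ∀ i, B (b' i) v = 0 := by
      intro i
      rw [hs.eq]; exact hperp i
    refine ⟨d, Fin.cons v (fun i => (b' i : V)), hd, ?_⟩
    intro i j
    refine Fin.cases ?_ (fun i' => ?_) i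
    · refine Fin.cases ?_ (fun j' => ?_) j
      · rw [Fin.cons_zero, hv, if_pos rfl, if_neg]
        intro h
        have := congrArg Fin.val h
        simp at this
      · rw [Fin.cons_zero, Fin.cons_succ, hperp j', if_neg]
        exact (Fin.succ_ne_zero j').symm
    · refine Fin.cases ?_ (fun j' => ?_) j
      · rw [Fin.cons_zero, Fin.cons_succ, hperp' i', if_neg]
        exact Fin.succ_ne_zero i'
      · rw [Fin.cons_succ, Fin.cons_succ]
        have h1 := hb' i' j'
        have h2 : (B.restrict (B.orthogonal (F ∙ v))) (b' i') (b' j') = B (b' i') (b' j') := rfl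
        rw [← h2, h1]
        by_cases hij : i' = j'
        · subst hij
          rw [if_pos rfl, if_pos rfl]
          by_cases hl : i' = Fin.last n
          · subst hl
            rw [if_pos rfl, if_pos (Fin.succ_last n)]
          · rw [if_neg hl, if_neg]
            intro h
            apply hl
            rw [← Fin.succ_last] at h
            exact Fin.succ_injective _ h
        · rw [if_neg hij, if_neg]
          intro h
          exact hij (Fin.succ_injective _ h)

theorem prod_last {F : Type u} [Field F] (m : ℕ) (d : F) :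
    ∏ i : Fin (m + 1), (if i = Fin.last m then d else 1) = d := by
  rw [Finset.prod_ite_eq' Finset.univ (Fin.last m) (fun _ => d)]
  simp

/-- a symmetric invertible matrix is congruent to `diag(1, …, 1, d)` -/
theorem exists_congr_diag {F : Type u} [Field F] [Fintype F] (h2 : (2 : F) ≠ 0) (m : ℕ)
    (S : Matrix (Fin (m + 1)) (Fin (m + 1)) F) (hS : Sᵀ = S) (hdet : S.det ≠ 0) :
    ∃ (d : F) (P : Matrix (Fin (m + 1)) (Fin (m + 1)) F), d ≠ 0 ∧ P.det ≠ 0 ∧
      Pᵀ * S * P = Matrix.diagonal (fun i => if i = Fin.last m then d else 1) := by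
  have hs : (Matrix.toBilin' S).IsSymm := ⟨fun x y => by
    rw [Matrix.toBilin'_apply', Matrix.toBilin'_apply', Matrix.dotProduct_mulVec,
      ← Matrix.mulVec_transpose, hS, dotProduct_comm]⟩
  have hn : (Matrix.toBilin' S).Nondegenerate :=
    (Matrix.nondegenerate_of_det_ne_zero hdet).toBilin'
  obtain ⟨d, b, hd, hb⟩ := exists_family h2 m (Fin (m + 1) → F) (Matrix.toBilin' S) hs hn
    (Module.finrank_fin_fun F)
  have hP : (Matrix.of (fun i j => b j i))ᵀ * S * (Matrix.of (fun i j => b j i))
      = Matrix.diagonal (fun i => if i = Fin.last m then d else 1) := by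
    ext i j
    rw [Matrix.diagonal_apply, ← hb i j, Matrix.toBilin'_apply', Matrix.dotProduct_mulVec]
    simp [Matrix.mul_apply, dotProduct, Matrix.vecMul]
  refine ⟨d, Matrix.of (fun i j => b j i), hd, ?_, hP⟩
  intro h0
  have h1 := congrArg Matrix.det hP
  rw [Matrix.det_mul, Matrix.det_mul, h0, mul_zero, Matrix.det_diagonal, prod_last] at h1
  exact hd h1.symm

theorem main : Cong.{u} := by
  intro F _ _ h2 n S S' hS hdet hS' μ hμ hdet'
  rcases Nat.eq_zero_or_pos n with rfl | hn
  · refine ⟨1, by simp, ?_⟩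
    ext i
    exact i.elim0
  obtain ⟨m, rfl⟩ : ∃ m, n = m + 1 := ⟨n - 1, by omega⟩
  have hdetS' : S'.det ≠ 0 := by
    rw [hdet']; exact mul_ne_zero hdet (pow_ne_zero 2 hμ)
  obtain ⟨d, P, hd, hPdet, hP⟩ := exists_congr_diag h2 m S hS hdet
  obtain ⟨d', P', hd', hP'det, hP'⟩ := exists_congr_diag h2 m S' hS' hdetS'
  have e1 : P.det ^ 2 * S.det = d := by
    have h1 := congrArg Matrix.det hP
    rw [Matrix.det_mul, Matrix.det_mul, Matrix.det_transpose, Matrix.det_diagonal, prod_last]
      at h1
    rw [← h1]; ring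
  have e2 : P'.det ^ 2 * S'.det = d' := by
    have h1 := congrArg Matrix.det hP'
    rw [Matrix.det_mul, Matrix.det_mul, Matrix.det_transpose, Matrix.det_diagonal, prod_last]
      at h1
    rw [← h1]; ring
  obtain ⟨ν, hνdef⟩ : ∃ ν : F, ν = μ * P'.det / P.det := ⟨_, rfl⟩
  have hν : ν ≠ 0 := by
    rw [hνdef]; exact div_ne_zero (mul_ne_zero hμ hP'det) hPdet
  have hdd : d' = d * ν ^ 2 := by
    rw [← e1, ← e2, hdet', hνdef]
    field_simp
  obtain ⟨E, hEdef⟩ : ∃ E : Matrix (Fin (m + 1)) (Fin (m + 1)) F,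
      E = Matrix.diagonal (fun i : Fin (m + 1) => if i = Fin.last m then ν else 1) := ⟨_, rfl⟩
  have hE : Eᵀ * Matrix.diagonal (fun i => if i = Fin.last m then d else 1) * E
      = Matrix.diagonal (fun i => if i = Fin.last m then d' else 1) := by
    rw [hEdef, Matrix.diagonal_transpose, Matrix.diagonal_mul_diagonal,
      Matrix.diagonal_mul_diagonal]
    congr 1
    funext i
    by_cases hi : i = Fin.last m
    · simp only [hi, if_true, hdd]; ring
    · simp only [hi, if_false]; ring
  have hEdet : E.det = ν := by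
    rw [hEdef, Matrix.det_diagonal, prod_last]
  have hP'u : IsUnit P'.det := isUnit_iff_ne_zero.mpr hP'det
  refine ⟨P * E * P'⁻¹, ?_, ?_⟩
  · rw [Matrix.det_mul, Matrix.det_mul, hEdet, Matrix.det_nonsing_inv, Ring.inverse_eq_inv']
    exact mul_ne_zero (mul_ne_zero hPdet hν) (inv_ne_zero hP'det)
  · rw [Matrix.transpose_mul, Matrix.transpose_mul]
    calc P'⁻¹ᵀ * (Eᵀ * Pᵀ) * S * (P * E * P'⁻¹)
        = P'⁻¹ᵀ * (Eᵀ * (Pᵀ * S * P) * E) * P'⁻¹ := by simp only [Matrix.mul_assoc]
      _ = P'⁻¹ᵀ * (P'ᵀ * S' * P') * P'⁻¹ := by rw [hP, hE, hP']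
      _ = (P'⁻¹ᵀ * P'ᵀ) * S' * (P' * P'⁻¹) := by simp only [Matrix.mul_assoc]
      _ = S' := by
        rw [← Matrix.transpose_mul, Matrix.mul_nonsing_inv _ hP'u, Matrix.transpose_one,
          Matrix.one_mul, Matrix.mul_one]

end Cfsg.Agent.Lib.Helper97.OrtCONG
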