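import Mathlib
import Cfsg.Agent.Lib.Helper45.EPStmt
import Cfsg.Agent.Lib.Helper45.OmegaRank
import Cfsg.Agent.Lib.Helper44.Der3
import Cfsg.Agent.Lib.Helper44.NegPairs

/-!
# S5988 piece PELTE2: a Siegel involution of rank `ρ` in `Omega^+`, characteristic 2

`x = 1 + N`, `N (inl i) (inr j) = 1` iff `i < ρ` and `j` is the partner of `i` (pairs
`{2k, 2k+1}`).  Membership in `Omega` by the Dickson invariant
(`Helper45.OmegaRank.mem_omega_iff_even_rank`).
-/

set_option autoImplicit false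

universe u

open scoped Matrix

namespace Cfsg.Agent.Lib.Helper97.EPPELTE2

open Cfsg.Agent.Lib.Helper94.OPStmt (P NP FxP)

/-- partner index -/
def pr (n : ℕ) : ℕ := if n % 2 = 0 then n + 1 else n - 1

theorem pr_lt {n ρ : ℕ} (hρ : Even ρ) (h : n < ρ) : pr n < ρ := by
  unfold pr
  obtain ⟨k, rfl⟩ := hρ
  split_ifs <;> omega

theorem pr_pr (n : ℕ) : pr (pr n) = n := by
  unfold pr
  by_cases h : n % 2 = 0
  · rw [if_pos h, if_neg (by omega)]; omega
  · rw [if_neg h, if_pos (by omega)]; omega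

theorem pr_ne (n : ℕ) : pr n ≠ n := by
  unfold pr
  split_ifs <;> omega

/-- partner map on `Fin d` -/
def sg (d : ℕ) (i : Fin d) : Fin d := if h : pr i.val < d then ⟨pr i.val, h⟩ else i

theorem sg_val {d ρ : ℕ} (hρ : Even ρ) (hρd : ρ ≤ d) {i : Fin d} (hi : i.val < ρ) :
    (sg d i).val = pr i.val := by
  unfold sg
  rw [dif_pos (lt_of_lt_of_le (pr_lt hρ hi) hρd)]

theorem sg_lt {d ρ : ℕ} (hρ : Even ρ) (hρd : ρ ≤ d) {i : Fin d} (hi : i.val < ρ) :
    (sg d i).val < ρ := by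
  rw [sg_val hρ hρd hi]; exact pr_lt hρ hi

theorem sg_sg {d ρ : ℕ} (hρ : Even ρ) (hρd : ρ ≤ d) {i : Fin d} (hi : i.val < ρ) :
    sg d (sg d i) = i := by
  apply Fin.ext
  rw [sg_val hρ hρd (sg_lt hρ hρd hi), sg_val hρ hρd hi, pr_pr]

theorem sg_ne {d ρ : ℕ} (hρ : Even ρ) (hρd : ρ ≤ d) {i : Fin d} (hi : i.val < ρ) :
    sg d i ≠ i := by
  intro h
  have h1 := congrArg Fin.val h
  rw [sg_val hρ hρd hi] at h1
  exact pr_ne _ h1

variable {F : Type u} [Field F]

/-- the nilpotent part -/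
def Nm (d ρ : ℕ) (F : Type u) [Field F] : Matrix (P d) (P d) F := fun a b =>
  Sum.elim (fun i : Fin d => Sum.elim (fun _ : Fin d => (0 : F))
    (fun j : Fin d => if i.val < ρ ∧ j = sg d i then (1 : F) else 0) b) (fun _ => 0) a

theorem Nm_inl (d ρ : ℕ) (v : P d → F) (i : Fin d) :
    (Nm d ρ F *ᵥ v) (Sum.inl i) = if i.val < ρ then v (Sum.inr (sg d i)) else 0 := by
  simp only [Matrix.mulVec, dotProduct, Fintype.sum_sum_type, Nm, Sum.elim_inl, Sum.elim_inr]
  by_cases hi : i.val < ρ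
  · simp [hi]
  · simp [hi]

theorem Nm_inr (d ρ : ℕ) (v : P d → F) (i : Fin d) :
    (Nm d ρ F *ᵥ v) (Sum.inr i) = 0 := by
  simp [Matrix.mulVec, dotProduct, Nm]

theorem Nm_sq (d ρ : ℕ) : Nm d ρ F * Nm d ρ F = 0 := by
  ext a b
  rw [Matrix.mul_apply]
  apply Finset.sum_eq_zero
  intro c _
  rcases a with i | i <;> rcases c with j | j <;> rcases b with k | k <;> simp [Nm]

theorem M_sq [CharP F 2] (d ρ : ℕ) : (1 + Nm d ρ F) * (1 + Nm d ρ F) = 1 := by
  have h2 : Nm d ρ F + Nm d ρ F = 0 := by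
    ext a b
    exact CharTwo.add_self_eq_zero _
  have e : (1 + Nm d ρ F) * (1 + Nm d ρ F) = 1 + (Nm d ρ F + Nm d ρ F) + Nm d ρ F * Nm d ρ F := by
    noncomm_ring
  rw [e, h2, Nm_sq, add_zero, add_zero]

/-- the Siegel involution -/
def xg [CharP F 2] (d ρ : ℕ) : Matrix.GeneralLinearGroup (P d) F :=
  ⟨1 + Nm d ρ F, 1 + Nm d ρ F, M_sq d ρ, M_sq d ρ⟩

/-- coordinate embedding -/
def Lm (d ρ : ℕ) (F : Type u) [Field F] : (Fin ρ → F) →ₗ[F] (P d → F) where
  toFun u := fun a =>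
    Sum.elim (fun i : Fin d => if h : i.val < ρ then u ⟨i.val, h⟩ else 0) (fun _ => 0) a
  map_add' u w := by
    funext a
    rcases a with i | i
    · simp only [Sum.elim_inl, Pi.add_apply]
      split_ifs <;> simp
    · simp
  map_smul' c u := by
    funext a
    rcases a with i | i
    · simp only [Sum.elim_inl, Pi.smul_apply, RingHom.id_apply]
      split_ifs <;> simp
    · simp

theorem Lm_inj (d ρ : ℕ) (hρd : ρ ≤ d) : Function.Injective (Lm d ρ F) := by
  intro u w h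
  funext k
  have h1 := congrFun h (Sum.inl ⟨k.val, lt_of_lt_of_le k.2 hρd⟩)
  simpa [Lm] using h1

theorem range_eq (d ρ : ℕ) (hρ : Even ρ) (hρd : ρ ≤ d) :
    LinearMap.range (Nm d ρ F).mulVecLin = LinearMap.range (Lm d ρ F) := by
  apply le_antisymm
  · rintro _ ⟨v, rfl⟩
    refine ⟨fun k => v (Sum.inr (sg d ⟨k.val, lt_of_lt_of_le k.2 hρd⟩)), ?_⟩
    funext a
    rcases a with i | i
    · rw [Matrix.mulVecLin_apply, Nm_inl]
      show (if h : i.val < ρ then v (Sum.inr (sg d ⟨i.val, _⟩)) else 0) = _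
      by_cases hi : i.val < ρ
      · rw [dif_pos hi, if_pos hi]
      · rw [dif_neg hi, if_neg hi]
    · rw [Matrix.mulVecLin_apply, Nm_inr]; rfl
  · rintro _ ⟨u, rfl⟩
    refine ⟨fun b => Sum.elim (fun _ => 0)
      (fun j : Fin d => if h : j.val < ρ then u ⟨(sg d j).val, sg_lt hρ hρd h⟩ else 0) b, ?_⟩
    funext a
    rcases a with i | i
    · rw [Matrix.mulVecLin_apply, Nm_inl]
      show _ = (if h : i.val < ρ then u ⟨i.val, h⟩ else 0)
      by_cases hi : i.val < ρ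
      · rw [if_pos hi, dif_pos hi]
        simp only [Sum.elim_inr]
        rw [dif_pos (sg_lt hρ hρd hi)]
        congr 1
        exact Fin.ext (by
          show (sg d (sg d i)).val = i.val
          rw [sg_sg hρ hρd hi])
      · rw [if_neg hi, dif_neg hi]
    · rw [Matrix.mulVecLin_apply, Nm_inr]; rfl

theorem rank_Nm (d ρ : ℕ) (hρ : Even ρ) (hρd : ρ ≤ d) :
    Module.finrank F (LinearMap.range (Nm d ρ F).mulVecLin) = ρ := by
  rw [range_eq d ρ hρ hρd, LinearMap.finrank_range_of_inj (Lm_inj d ρ hρd),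
    Module.finrank_fintype_fun_eq_card, Fintype.card_fin]

theorem main : Cfsg.Agent.Lib.Helper45.EPStmt.PEltE2.{u} := by
  intro F _ _ _ d ρ hd hρ h2 hρd
  have hx : ((xg d ρ : Matrix.GeneralLinearGroup (P d) F) : Matrix (P d) (P d) F)
      = 1 + Nm d ρ F := rfl
  have hNP : ∀ v, NP ((xg d ρ : Matrix.GeneralLinearGroup (P d) F) : Matrix (P d) (P d) F) v
      = Nm d ρ F *ᵥ v := by
    intro v
    unfold NP
    rw [LinearMap.sub_apply, Matrix.toLin'_apply, LinearMap.id_apply, hx, Matrix.add_mulVec,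
      Matrix.one_mulVec, add_sub_cancel_left]
  have hQ : ∀ v, Cfsg.quadFormPlus d F ((1 + Nm d ρ F) *ᵥ v) = Cfsg.quadFormPlus d F v := by
    intro v
    unfold Cfsg.quadFormPlus
    rw [Matrix.add_mulVec, Matrix.one_mulVec]
    simp only [Pi.add_apply, Nm_inl, Nm_inr, add_zero, add_mul, Finset.sum_add_distrib]
    rw [add_eq_left]
    simp only [ite_mul, zero_mul]
    rw [← Finset.sum_filter]
    apply Finset.sum_involution (fun i _ => sg d i)
    · intro i hi
      have hi' := (Finset.mem_filter.mp hi).2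
      rw [sg_sg hρ hρd hi', mul_comm (v (Sum.inr i))]
      exact CharTwo.add_self_eq_zero _
    · intro i hi _
      exact sg_ne hρ hρd (Finset.mem_filter.mp hi).2
    · intro i hi
      exact Finset.mem_filter.mpr ⟨Finset.mem_univ _, sg_lt hρ hρd (Finset.mem_filter.mp hi).2⟩
    · intro i hi
      exact sg_sg hρ hρd (Finset.mem_filter.mp hi).2
  have hmem : (xg d ρ : Matrix.GeneralLinearGroup (P d) F)
      ∈ Cfsg.isometryGroup F (Cfsg.quadFormPlus d F) := fun u _ => hQ u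
  have hS := Cfsg.Agent.Lib.Helper44.NegPairs.sep_plusQ (F := F) d
  have hG : Cfsg.Agent.Lib.Helper44.CD2a.Good (Cfsg.Agent.Lib.Helper44.NegPairs.plusQ d F) :=
    Cfsg.Agent.Lib.Helper44.OMat2.good_of_card' hS (Or.inr (by
      rw [Fintype.card_sum, Fintype.card_fin]; omega))
  have hOm : (xg d ρ : Matrix.GeneralLinearGroup (P d) F)
      ∈ Cfsg.Geo.omegaGL (Cfsg.quadFormPlus d F) := by
    have h1 := (Cfsg.Agent.Lib.Helper44.Der3.mem_omegaGL_iff
      (Cfsg.Agent.Lib.Helper44.NegPairs.plusQ d F) (xg d ρ)).mpr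
      ⟨⟨xg d ρ, hmem⟩, (Cfsg.Agent.Lib.Helper45.OmegaRank.mem_omega_iff_even_rank _ hS hG _).mpr
        (by
          show Even ((1 + Nm d ρ F) - 1).rank
          rw [add_sub_cancel_left]
          have h3 : (Nm d ρ F).rank = ρ := rank_Nm d ρ hρ hρd
          rw [h3]
          exact hρ), rfl⟩
    exact h1
  refine ⟨xg d ρ, hOm, M_sq d ρ, ?_, ?_, ?_, ?_⟩
  · intro z hz
    have h1 := congrFun (congrFun hz (Sum.inl ⟨0, by omega⟩)) (Sum.inr (sg d ⟨0, by omega⟩))
    rw [hx] at h1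
    simp [Nm] at h1
    omega
  · rintro _ ⟨v, rfl⟩
    rw [Cfsg.Agent.Lib.Helper94.OPStmt.mem_FxP, hNP, hx, Matrix.add_mulVec, Matrix.one_mulVec,
      Matrix.mulVec_mulVec, Nm_sq, Matrix.zero_mulVec, add_zero]
  · intro v
    rw [hNP]
    unfold Cfsg.quadFormPlus
    apply Finset.sum_eq_zero
    intro i _
    rw [Nm_inr, mul_zero]
  · have h1 : NP ((xg d ρ : Matrix.GeneralLinearGroup (P d) F) : Matrix (P d) (P d) F)
        = (Nm d ρ F).mulVecLin := LinearMap.ext (fun v => by rw [hNP]; rfl)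
    rw [h1]
    exact rank_Nm d ρ hρ hρd

end Cfsg.Agent.Lib.Helper97.EPPELTE2
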