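import Mathlib
import Cfsg.Agent.Lib.Helper94.OMiPStmt

/-!
# S5991 / MRANK (sub-call by helper94; helper97)

Pure linear algebra: `V = W ⊕ U`, both stable, `dim (x-1)² V ≤ 1`, `dim (x-1) V ≥ d`.
-/

set_option autoImplicit false

universe u

open scoped Matrix

namespace Cfsg.Agent.Lib.Helper97.MRANK

open Cfsg.Agent.Lib.Helper94.OMiPStmt

section gen

variable {F : Type*} [Field F] {V : Type*} [AddCommGroup V] [Module F V] [FiniteDimensional F V]

/-- rank-nullity for the restriction of `N` to `U`. -/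
theorem rank_null (N : V →ₗ[F] V) (U : Submodule F V) :
    Module.finrank F ↥(U.map N) + Module.finrank F ↥(U ⊓ LinearMap.ker N) =
      Module.finrank F ↥U := by
  have h1 := LinearMap.finrank_range_add_finrank_ker (N.domRestrict U)
  have h2 : LinearMap.range (N.domRestrict U) = U.map N := LinearMap.range_domRestrict U N
  have h3 : LinearMap.ker (N.domRestrict U) = (LinearMap.ker N).comap U.subtype :=
    LinearMap.ker_domRestrict U N
  have h4 : Module.finrank F ↥(((LinearMap.ker N).comap U.subtype).map U.subtype) =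
      Module.finrank F ↥((LinearMap.ker N).comap U.subtype) :=
    Submodule.finrank_map_subtype_eq U _
  rw [Submodule.map_comap_subtype] at h4
  rw [h2, h3, ← h4] at h1
  exact h1

/-- `2 rank (N|U) ≤ dim U + rank (N²|U)` for a stable `U`. -/
theorem two_rank_le (N : V →ₗ[F] V) (U : Submodule F V) (hU : U.map N ≤ U) :
    2 * Module.finrank F ↥(U.map N) ≤
      Module.finrank F ↥U + Module.finrank F ↥(U.map (N ∘ₗ N)) := by
  have h1 := rank_null N U
  have h2 := rank_null N (U.map N)
  have h3 : (U.map N).map N = U.map (N ∘ₗ N) := (Submodule.map_comp N N U).symm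
  rw [h3] at h2
  have h4 : Module.finrank F ↥(U.map N ⊓ LinearMap.ker N) ≤
      Module.finrank F ↥(U ⊓ LinearMap.ker N) :=
    Submodule.finrank_mono (inf_le_inf_right _ hU)
  omega

/-- ranks add over a direct decomposition into stable subspaces. -/
theorem rank_add (N : V →ₗ[F] V) (W U : Submodule F V) (hW : W.map N ≤ W) (hU : U.map N ≤ U)
    (hinf : W ⊓ U = ⊥) (hsup : W ⊔ U = ⊤) :
    Module.finrank F ↥(LinearMap.range N) =
      Module.finrank F ↥(W.map N) + Module.finrank F ↥(U.map N) := by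
  have h1 : LinearMap.range N = W.map N ⊔ U.map N := by
    rw [LinearMap.range_eq_map, ← hsup, Submodule.map_sup]
  have h2 : W.map N ⊓ U.map N = ⊥ := by
    rw [eq_bot_iff, ← hinf]
    exact inf_le_inf hW hU
  have h := Submodule.finrank_sup_add_finrank_inf_eq (W.map N) (U.map N)
  rw [h2, finrank_bot, add_zero] at h
  rw [h1, h]

end gen

theorem main : MRank.{u} := by
  intro F _ d x W U hW hU hinf hsup hdim h2 h1
  classical
  obtain ⟨N, hN⟩ : ∃ N : (Mi d → F) →ₗ[F] (Mi d → F), N = NM x := ⟨_, rfl⟩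
  rw [← hN] at h2 h1 ⊢
  have stab : ∀ Y : Submodule F (Mi d → F), StabM x Y → Y.map N ≤ Y := by
    intro Y hY
    rintro _ ⟨y, hy, rfl⟩
    have h : N y = Matrix.toLin' x y - y := by
      rw [hN]; rfl
    rw [h]
    exact Y.sub_mem (hY ⟨y, hy, rfl⟩) hy
  have hWN := stab W hW
  have hUN := stab U hU
  have hWN2 : W.map (N ∘ₗ N) ≤ W := by
    rw [Submodule.map_comp]
    exact le_trans (Submodule.map_mono hWN) hWN
  have hUN2 : U.map (N ∘ₗ N) ≤ U := by
    rw [Submodule.map_comp]
    exact le_trans (Submodule.map_mono hUN) hUN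
  have e1 := rank_add N W U hWN hUN hinf hsup
  have e2 := rank_add (N ∘ₗ N) W U hWN2 hUN2 hinf hsup
  have e3 := two_rank_le N W hWN
  have e4 := two_rank_le N U hUN
  have key : ∀ Y : Submodule F (Mi d → F), Module.finrank F ↥(Y.map (N ∘ₗ N)) = 0 →
      ∀ v ∈ Y, N (N v) = 0 := by
    intro Y hY v hv
    have hb : Y.map (N ∘ₗ N) = ⊥ := Submodule.finrank_eq_zero.mp hY
    have : (N ∘ₗ N) v ∈ Y.map (N ∘ₗ N) := ⟨v, hv, rfl⟩
    rw [hb] at this
    exact (Submodule.mem_bot F).mp this
  by_cases hc : Module.finrank F ↥(W.map (N ∘ₗ N)) = 0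
  · left
    refine ⟨key W hc, ?_⟩
    omega
  · right
    have hc' : Module.finrank F ↥(U.map (N ∘ₗ N)) = 0 := by omega
    refine ⟨key U hc', ?_⟩
    omega

end Cfsg.Agent.Lib.Helper97.MRANK
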