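import Mathlib
import Cfsg.Agent.Lib.Helper94.OMiPStmt
import Cfsg.Agent.Lib.Helper44.WittND2
import Cfsg.Agent.Lib.Helper44.NegPairs
import Cfsg.Agent.Lib.Helper44.FinSq

/-!
# S5991 / MSPLIT (sub-call by helper94; helper97)

Orthogonal complement of a stable nondegenerate subspace for the standard minus form.
-/

set_option autoImplicit false

universe u

open scoped Matrix

namespace Cfsg.Agent.Lib.Helper97.MSPLIT

open Cfsg.Agent.Lib.Helper94.OMiPStmt
open Cfsg.Agent.Lib.Helper44.QSpace Cfsg.Agent.Lib.Helper44.NegPairs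
open Cfsg.Agent.Lib.Helper44.WittND Cfsg.Agent.Lib.Helper44.WittND2
open QuadraticMap

theorem main : MSplit.{u} := by
  intro F _ _ hodd d hd a b hab x hx G hG hst
  classical
  have h2 : (2 : F) ≠ 0 := Cfsg.Agent.Lib.Helper44.FinSq.two_ne_zero_of_odd_card hodd
  have hS : Sep (minusQ (d - 1) F a b) := sep_minusQ h2 (d - 1) a b hab
  have hinf : G ⊓ LinearMap.BilinForm.orthogonal (polarBilin (minusQ (d - 1) F a b)) G = ⊥ := by
    rw [eq_bot_iff]
    intro v hv
    obtain ⟨hv1, hv2⟩ := Submodule.mem_inf.1 hv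
    by_contra hv0
    have hv0' : v ≠ 0 := fun h => hv0 ((Submodule.mem_bot F).2 h)
    obtain ⟨⟨y, hy, hyv⟩, -⟩ := hG v hv1 hv0'
    exact hyv (hv2 y hy)
  have h1 : Module.finrank F ↥(LinearMap.BilinForm.orthogonal (polarBilin (minusQ (d - 1) F a b)) G)
      = Module.finrank F (Mi d → F) - Module.finrank F ↥G :=
    LinearMap.BilinForm.finrank_orthogonal (nondegenerate_of_sep hS) G
  have h3 : Module.finrank F (Mi d → F) = 2 * d := by
    rw [Module.finrank_pi]
    simp
    omega
  have h4 : Module.finrank F ↥G ≤ Module.finrank F (Mi d → F) := Submodule.finrank_le G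
  rw [h3] at h1 h4
  have hdim : Module.finrank F ↥G +
      Module.finrank F ↥(LinearMap.BilinForm.orthogonal (polarBilin (minusQ (d - 1) F a b)) G)
      = 2 * d := by
    rw [h1]
    omega
  refine ⟨LinearMap.BilinForm.orthogonal (polarBilin (minusQ (d - 1) F a b)) G, ?_, ?_, ?_, hinf,
    ?_, hdim⟩
  · intro v
    constructor
    · intro hv g hg
      exact hv g hg
    · intro hv g hg
      exact hv g hg
  · have hQ : ∀ u : Mi d → F, Cfsg.quadFormMinus (d - 1) F a b
        ((x : Matrix (Mi d) (Mi d) F) *ᵥ u) = Cfsg.quadFormMinus (d - 1) F a b u :=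
      fun u => hx u u
    have hinj : Function.Injective (Matrix.toLin' (x : Matrix (Mi d) (Mi d) F)) := by
      intro u v huv
      rw [Matrix.toLin'_apply, Matrix.toLin'_apply] at huv
      have h5 := congrArg (fun z => ((x⁻¹ : Matrix.GeneralLinearGroup (Mi d) F) :
        Matrix (Mi d) (Mi d) F) *ᵥ z) huv
      simp only [Matrix.mulVec_mulVec] at h5
      have h6 : ((x⁻¹ : Matrix.GeneralLinearGroup (Mi d) F) : Matrix (Mi d) (Mi d) F)
          * (x : Matrix (Mi d) (Mi d) F) = 1 := by
        rw [← Units.val_mul, inv_mul_cancel, Units.val_one]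
      rw [h6, Matrix.one_mulVec, Matrix.one_mulVec] at h5
      exact h5
    have hmap : G.map (Matrix.toLin' (x : Matrix (Mi d) (Mi d) F)) = G := by
      apply Submodule.eq_of_le_of_finrank_le hst
      rw [← (Submodule.equivMapOfInjective _ hinj G).finrank_eq]
    rintro _ ⟨y, hy, rfl⟩
    intro g hg
    rw [← hmap] at hg
    obtain ⟨g', hg', rfl⟩ := hg
    have h7 : polar (minusQ (d - 1) F a b) g' y = 0 := hy g' hg'
    show polar (Cfsg.quadFormMinus (d - 1) F a b)
      (Matrix.toLin' (x : Matrix (Mi d) (Mi d) F) g')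
      (Matrix.toLin' (x : Matrix (Mi d) (Mi d) F) y) = 0
    have h8 : polar (Cfsg.quadFormMinus (d - 1) F a b) g' y = 0 := h7
    unfold polar at h8 ⊢
    rw [← map_add, Matrix.toLin'_apply, Matrix.toLin'_apply, Matrix.toLin'_apply, hQ, hQ, hQ]
    exact h8
  · have hnd := ndsub_orth hS hinf
    intro w hw hw0
    have h1' : ∃ y ∈ LinearMap.BilinForm.orthogonal (polarBilin (minusQ (d - 1) F a b)) G,
        polar (minusQ (d - 1) F a b) w y ≠ 0 := by
      by_contra hcon
      push Not at hcon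
      exact hw0 (hnd w hw hcon)
    obtain ⟨y, hy, hwy⟩ := h1'
    refine ⟨⟨y, hy, ?_⟩, ⟨y, hy, hwy⟩⟩
    have h3' : polar (minusQ (d - 1) F a b) y w = polar (minusQ (d - 1) F a b) w y :=
      polar_comm _ _ _
    intro h4'
    exact hwy (h3' ▸ h4')
  · apply Submodule.eq_top_of_finrank_eq
    have h := Submodule.finrank_sup_add_finrank_inf_eq G
      (LinearMap.BilinForm.orthogonal (polarBilin (minusQ (d - 1) F a b)) G)
    rw [hinf, finrank_bot, add_zero] at h
    rw [h, hdim, h3]

end Cfsg.Agent.Lib.Helper97.MSPLIT
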