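import Mathlib
import Cfsg.Agent.Lib.Helper96.AltStmt2

/-!
# S5165 piece ALT (helper97): from `Perm α` to the alternating group (`p` odd)
-/

set_option autoImplicit false

namespace Cfsg.Agent.Lib.Helper97.AltALT

open Equiv Cfsg.Agent.Lib.Helper96.AltStmt Cfsg.Agent.Lib.Helper96.AltModel
  Cfsg.Agent.Lib.Helper96.AltStmt2

theorem sign_eq_one_of_pow {α : Type} [DecidableEq α] [Fintype α] {p : ℕ} (hp : p.Prime)
    (hp2 : p ≠ 2) (x : Perm α) (k : ℕ) (h : x ^ p ^ k = 1) : Perm.sign x = 1 := by
  have h1 : Perm.sign x ^ p ^ k = 1 := by rw [← map_pow, h, map_one]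
  rcases Int.units_eq_one_or (Perm.sign x) with h2 | h2
  · exact h2
  · rw [h2] at h1
    have hodd : Odd (p ^ k) := (hp.eq_two_or_odd'.resolve_left hp2).pow
    rw [hodd.neg_one_pow] at h1
    exact absurd h1 (by decide)

theorem mem_normalizer_subgroupOf {G : Type*} [Group G] (A R : Subgroup G) (hR : R ≤ A) (n : A) :
    n ∈ Subgroup.normalizer ((R.subgroupOf A : Subgroup A) : Set A) ↔
      (n : G) ∈ Subgroup.normalizer (R : Set G) := by
  rw [Subgroup.mem_normalizer_iff, Subgroup.mem_normalizer_iff]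
  constructor
  · intro h x
    constructor
    · intro hx
      have h1 := (h ⟨x, hR hx⟩).1 (by rw [Subgroup.mem_subgroupOf]; exact hx)
      rw [Subgroup.mem_subgroupOf] at h1
      simpa using h1
    · intro hx
      have hxA : x ∈ A := by
        have h1 : (n : G) * x * (n : G)⁻¹ ∈ A := hR hx
        have h2 : x = (n : G)⁻¹ * ((n : G) * x * (n : G)⁻¹) * (n : G) := by group
        rw [h2]
        exact A.mul_mem (A.mul_mem (A.inv_mem n.2) h1) n.2
      have h3 := (h ⟨x, hxA⟩).2 (by rw [Subgroup.mem_subgroupOf]; simpa using hx)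
      rw [Subgroup.mem_subgroupOf] at h3
      exact h3
  · intro h x
    rw [Subgroup.mem_subgroupOf, Subgroup.mem_subgroupOf]
    have h1 := h (x : G)
    simpa using h1

theorem main : AltOfPerm := by
  intro α _ _ p hp hp2 S hS hgen
  have hpp : p.Prime := hp.out
  obtain ⟨A, hA⟩ : ∃ A : Subgroup (Perm α), A = alternatingGroup α := ⟨_, rfl⟩
  have hmemA : ∀ x : Perm α, x ∈ A ↔ Perm.sign x = 1 := fun x => by
    rw [hA]
    exact Perm.mem_alternatingGroup
  rw [← hA]
  have hSA : S ≤ A := by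
    intro x hx
    obtain ⟨k, hk⟩ := hS ⟨x, hx⟩
    have hk' : x ^ p ^ k = 1 := by
      have := congrArg Subtype.val hk
      simpa using this
    exact (hmemA x).2 (sign_eq_one_of_pow hpp hp2 x k hk')
  intro g hg
  have hg' : (g : Perm α) ∈ Subgroup.normalizer (S : Set (Perm α)) :=
    (mem_normalizer_subgroupOf A S hSA g).1 hg
  have hsg : Perm.sign (g : Perm α) = 1 := (hmemA _).1 g.2
  have h1 := hgen (g : Perm α) hg' hsg
  have hle : Subgroup.closure {h : Perm α | h ∈ Subgroup.normalizer (S : Set (Perm α)) ∧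
        Perm.sign h = 1 ∧ ∃ R : Subgroup (Perm α), RC' p S R ∧ h ∈ Opp p R} ≤
      (Subgroup.closure {h : A | h ∈ Subgroup.normalizer ((S.subgroupOf A : Subgroup A) : Set A) ∧
        ∃ R : Subgroup A, RC p (S.subgroupOf A) R ∧ h ∈ Opp p R}).map A.subtype := by
    rw [Subgroup.closure_le]
    rintro h ⟨hn, hs, R, hRC, hO⟩
    have hhA : h ∈ A := (hmemA h).2 hs
    obtain ⟨hRS, hC, hOp, hM⟩ := hRC
    have hRA : R ≤ A := hRS.trans hSA
    refine ⟨⟨h, hhA⟩, Subgroup.subset_closure ⟨?_, R.subgroupOf A, ?_, ?_⟩, rfl⟩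
    · exact (mem_normalizer_subgroupOf A S hSA _).2 hn
    · refine ⟨?_, ?_, ?_, ?_⟩
      · intro x hx
        rw [Subgroup.mem_subgroupOf] at hx ⊢
        exact hRS hx
      · intro x hx
        rw [Subgroup.mem_subgroupOf]
        apply hC (x : Perm α) ((hmemA _).1 x.2)
        intro r hr
        have h2 := hx ⟨r, hRA hr⟩ (by rw [Subgroup.mem_subgroupOf]; exact hr)
        exact congrArg Subtype.val h2
      · intro P hP hPN hPinv
        have hP' : IsPGroup p (P.map A.subtype) := hP.map _
        have hPN' : P.map A.subtype ≤ Subgroup.normalizer (R : Set (Perm α)) := by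
          rintro _ ⟨x, hx, rfl⟩
          exact (mem_normalizer_subgroupOf A R hRA x).1 (hPN hx)
        have hle2 : P.map A.subtype ≤ R := by
          apply hOp _ hP' hPN'
          rintro n hn hns _ ⟨x, hx, rfl⟩
          have hnA : n ∈ A := (hmemA n).2 hns
          have h2 := hPinv ⟨n, hnA⟩ ((mem_normalizer_subgroupOf A R hRA _).2 hn) x hx
          exact ⟨_, h2, rfl⟩
        intro x hx
        rw [Subgroup.mem_subgroupOf]
        exact hle2 ⟨x, hx, rfl⟩
      · intro P hP hPN hSP
        have hP' : IsPGroup p (P.map A.subtype) := hP.map _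
        have hPN' : P.map A.subtype ≤ Subgroup.normalizer (R : Set (Perm α)) := by
          rintro _ ⟨x, hx, rfl⟩
          exact (mem_normalizer_subgroupOf A R hRA x).1 (hPN hx)
        have hle2 : P.map A.subtype ≤ S := by
          apply hM _ hP' hPN'
          rintro x ⟨hxS, hxN⟩
          have hxA : x ∈ A := hSA hxS
          have h2 := hSP (show (⟨x, hxA⟩ : A) ∈ S.subgroupOf A ⊓
              Subgroup.normalizer ((R.subgroupOf A : Subgroup A) : Set A) from
            Subgroup.mem_inf.2 ⟨Subgroup.mem_subgroupOf.2 hxS,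
              (mem_normalizer_subgroupOf A R hRA _).2 hxN⟩)
          exact ⟨_, h2, rfl⟩
        intro x hx
        rw [Subgroup.mem_subgroupOf]
        exact hle2 ⟨x, hx, rfl⟩
    · have hle3 : Opp p R ≤ (Opp p (R.subgroupOf A)).map A.subtype := by
        unfold Opp
        rw [Subgroup.closure_le]
        rintro k ⟨hkN, e, hke⟩
        have hkA : k ∈ A := (hmemA k).2 (sign_eq_one_of_pow hpp hp2 k e (by
          rw [← hke]
          exact pow_orderOf_eq_one k))
        refine ⟨⟨k, hkA⟩, Subgroup.subset_closure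
          ⟨(mem_normalizer_subgroupOf A R hRA _).2 hkN, e, ?_⟩, rfl⟩
        rw [← hke]
        exact Subgroup.orderOf_mk k hkA
      obtain ⟨h', hh', hh'eq⟩ := hle3 hO
      have h3 : h' = ⟨h, hhA⟩ := Subtype.ext hh'eq
      rw [← h3]
      exact hh'
  obtain ⟨g', hg'mem, hg'eq⟩ := hle h1
  have h4 : g' = g := Subtype.ext hg'eq
  rw [← h4]
  exact hg'mem

end Cfsg.Agent.Lib.Helper97.AltALT
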