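import Mathlib
import Cfsg.Agent.Lib.Helper96.AltStmt2

/-!
# S5165 piece CA (helper97): the centralizer of the translations
-/

set_option autoImplicit false

namespace Cfsg.Agent.Lib.Helper97.AltCA

open Equiv Cfsg.Agent.Lib.Helper96.AltStmt Cfsg.Agent.Lib.Helper96.AltModel
  Cfsg.Agent.Lib.Helper96.AltStmt2

theorem main : CentTr := by
  intro hNF p _ β δ _ _ _ _ _ g hg
  have hnorm : g ∈ Subgroup.normalizer (Tr p β δ : Set (Perm (β × ZMod p ⊕ δ))) := by
    rw [Subgroup.mem_normalizer_iff]
    intro h
    constructor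
    · intro hh
      rw [hg h hh, mul_inv_cancel_right]
      exact hh
    · intro hh
      have h1 := hg _ hh
      have h2 : g * h * g⁻¹ = h := by
        have h3 : g * (g * h * g⁻¹) = g * h := by
          rw [h1]
          group
        exact mul_left_cancel h3
      rw [← h2]
      exact hh
  obtain ⟨σ, t, b, ρ, rfl⟩ := hNF p β δ g hnorm
  have hρ : inrPerm p β ρ = 1 := by
    ext x
    rcases x with x | d
    · simp
    · simp [Subsingleton.elim (ρ d) d]
  rw [hρ, mul_one] at hg ⊢
  have key : ∀ i, σ i = i ∧ t i = 1 := by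
    intro i
    have h1 := hg (mk p δ 1 (fun _ => 1) (fun k => if k = i then 1 else 0)) ⟨_, rfl⟩
    rw [mk_mul, mk_mul, mk_eq_iff] at h1
    obtain ⟨-, -, h3⟩ := h1
    have h4 := congrFun h3 i
    simp only [Perm.coe_one, id_eq, if_true, mul_one, Units.val_one, one_mul] at h4
    by_cases hσ : σ i = i
    · rw [if_pos hσ] at h4
      refine ⟨hσ, Units.ext ?_⟩
      have h5 : (t i : ZMod p) = 1 := by linear_combination h4
      simpa using h5
    · rw [if_neg hσ] at h4
      exfalso
      have h5 : (t i : ZMod p) = 0 := by linear_combination h4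
      exact (t i).ne_zero h5
  refine ⟨b, ?_⟩
  rw [mk_eq_iff]
  exact ⟨Equiv.ext fun i => (key i).1, funext fun i => (key i).2, rfl⟩

end Cfsg.Agent.Lib.Helper97.AltCA
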