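-- helper97: Frobenius-type averaging lemma, invariant Sylow subgroups under a p-element,
-- and lifting Sylow subgroups of quotients.
import Mathlib

set_option autoImplicit false

namespace Cfsg.Agent.Lib.Helper97.Avg

open scoped Pointwise

/-- Averaging lemma: let `Γ` act on the abelian group `V`, let `K ≤ Γ` be finite and normalized by
`c`, where no nontrivial element of `K` commutes with `c ^ i` unless `m ∣ i`.  If the "norm"
`∏_{i<m} c^i` annihilates `V` and `V` has no `|K|`-torsion, then `K` acts trivially on `V`. -/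
theorem avg {Γ V : Type*} [Group Γ] [CommGroup V] (ρ : Γ → V →* V)
    (hmul : ∀ g h v, ρ (g * h) v = ρ g (ρ h v)) (hone : ∀ v, ρ 1 v = v)
    (K : Subgroup Γ) [Finite K] (c : Γ) (hc : c ∈ Subgroup.normalizer (K : Set Γ)) (m : ℕ) (hm : 0 < m)
    (hfrob : ∀ i : ℕ, ¬ m ∣ i → ∀ k ∈ K, k * c ^ i = c ^ i * k → k = 1)
    (hnorm : ∀ v, ∏ i ∈ Finset.range m, ρ (c ^ i) v = 1)
    (htor : ∀ v : V, v ^ Nat.card K = 1 → v = 1) :
    ∀ k ∈ K, ∀ v, ρ k v = v := by
  classical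
  let _ : Fintype K := Fintype.ofFinite K
  have h1 : ∀ i : ℕ, ¬ m ∣ i → ∀ v,
      ∏ k : K, ρ ((k : Γ)⁻¹ * c ^ i * k) v = ρ (c ^ i) (∏ k : K, ρ (k : Γ) v) := by
    intro i hi v
    have hci : c ^ i ∈ Subgroup.normalizer (K : Set Γ) := pow_mem hc i
    have hmem : ∀ k : K, (c ^ i)⁻¹ * (k : Γ)⁻¹ * c ^ i * k ∈ K := by
      intro k
      have h := (Subgroup.mem_normalizer_iff.mp (inv_mem hci) (k : Γ)⁻¹).mp (inv_mem k.2)
      rw [inv_inv] at h
      exact K.mul_mem h k.2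
    let φ : K → K := fun k => ⟨(c ^ i)⁻¹ * (k : Γ)⁻¹ * c ^ i * k, hmem k⟩
    have hinj : Function.Injective φ := by
      intro k k' hkk
      have h2 : (c ^ i)⁻¹ * (k : Γ)⁻¹ * c ^ i * k = (c ^ i)⁻¹ * (k' : Γ)⁻¹ * c ^ i * k' :=
        congrArg Subtype.val hkk
      have h3 : (k : Γ)⁻¹ * c ^ i * k = (k' : Γ)⁻¹ * c ^ i * k' := by
        have := congrArg (fun z => c ^ i * z) h2
        simpa [mul_assoc] using this
      have h4 : ((k' : Γ) * (k : Γ)⁻¹) * c ^ i = c ^ i * ((k' : Γ) * (k : Γ)⁻¹) := by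
        have := congrArg (fun z => (k' : Γ) * z * (k : Γ)⁻¹) h3
        simpa [mul_assoc] using this
      have h5 := hfrob i hi _ (K.mul_mem k'.2 (inv_mem k.2)) h4
      have h6 : (k' : Γ) = k := by
        have := mul_inv_eq_one.mp h5
        exact this
      exact Subtype.ext h6.symm
    have hbij : Function.Bijective φ := ⟨hinj, Finite.injective_iff_surjective.mp hinj⟩
    have h7 : ∀ k : K, ρ ((k : Γ)⁻¹ * c ^ i * k) v = ρ (c ^ i) (ρ ((φ k : K) : Γ) v) := by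
      intro k
      rw [← hmul]
      congr 2
      show (k : Γ)⁻¹ * c ^ i * k = c ^ i * ((c ^ i)⁻¹ * (k : Γ)⁻¹ * c ^ i * k)
      group
    rw [Finset.prod_congr rfl (fun k _ => h7 k), map_prod]
    exact Fintype.prod_bijective φ hbij _ _ (fun k => rfl)
  have h2 : ∀ v, ∏ k : K, ∏ i ∈ Finset.range m, ρ ((k : Γ)⁻¹ * c ^ i * k) v = 1 := by
    intro v
    apply Finset.prod_eq_one
    intro k _
    have h3 : ∀ i ∈ Finset.range m, ρ ((k : Γ)⁻¹ * c ^ i * k) v
        = ρ ((k : Γ)⁻¹) (ρ (c ^ i) (ρ (k : Γ) v)) := by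
      intro i _
      rw [hmul, hmul]
    rw [Finset.prod_congr rfl h3, ← map_prod, hnorm, map_one]
  have h3 : ∀ v, (∏ k : K, ρ (k : Γ) v) = 1 → v = 1 := by
    intro v hv
    have h4 := h2 v
    rw [Finset.prod_comm] at h4
    obtain ⟨m', rfl⟩ : ∃ m', m = m' + 1 := ⟨m - 1, by omega⟩
    rw [Finset.prod_range_succ'] at h4
    have h5 : ∀ i ∈ Finset.range m', ∏ k : K, ρ ((k : Γ)⁻¹ * c ^ (i + 1) * k) v = 1 := by
      intro i hi
      have hi' : ¬ (m' + 1) ∣ (i + 1) := by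
        intro hd
        have := Nat.le_of_dvd (Nat.succ_pos i) hd
        have := Finset.mem_range.mp hi
        omega
      rw [h1 (i + 1) hi' v, hv, map_one]
    rw [Finset.prod_eq_one h5, one_mul] at h4
    have h6 : ∀ k : K, ρ ((k : Γ)⁻¹ * c ^ 0 * k) v = v := by
      intro k
      rw [pow_zero, mul_one, inv_mul_cancel, hone]
    rw [Finset.prod_congr rfl (fun k _ => h6 k), Finset.prod_const, Finset.card_univ,
      ← Nat.card_eq_fintype_card] at h4
    exact htor v h4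
  intro k₀ hk₀ v
  have h4 : (∏ k : K, ρ (k : Γ) (ρ k₀ v * v⁻¹)) = 1 := by
    have h5 : ∀ k : K, ρ (k : Γ) (ρ k₀ v * v⁻¹) = ρ ((k * ⟨k₀, hk₀⟩ : K) : Γ) v * (ρ (k : Γ) v)⁻¹ := by
      intro k
      rw [map_mul, map_inv, ← hmul]
      rfl
    rw [Finset.prod_congr rfl (fun k _ => h5 k), Finset.prod_mul_distrib, Finset.prod_inv_distrib]
    have h6 : ∏ k : K, ρ ((k * ⟨k₀, hk₀⟩ : K) : Γ) v = ∏ k : K, ρ (k : Γ) v :=
      Fintype.prod_bijective (fun k : K => k * ⟨k₀, hk₀⟩) (Group.mulRight_bijective _) _ _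
        (fun k => rfl)
    rw [h6, mul_inv_cancel]
  exact mul_inv_eq_one.mp (h3 _ h4)

/-- A `p`-element `x` normalizes some Sylow `q`-subgroup of a normal `p'`-subgroup `K`. -/
theorem exists_invariant_sylow {H : Type*} [Group H] [Finite H] (K : Subgroup H) [hKn : K.Normal]
    (p : ℕ) [Fact p.Prime] (hK : (Nat.card K).Coprime p) (x : H) (hx : ∃ j : ℕ, x ^ p ^ j = 1)
    (q : ℕ) [Fact q.Prime] :
    ∃ R : Sylow q K, ∀ r : K, r ∈ R → (⟨x * r * x⁻¹, hKn.conj_mem r r.2 x⟩ : K) ∈ R := by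
  classical
  have hp : p.Prime := Fact.out
  let Z : Subgroup (ConjAct H) := Subgroup.zpowers (ConjAct.toConjAct x)
  have hZ : IsPGroup p Z := by
    obtain ⟨j, hj⟩ := hx
    rintro ⟨g, hg⟩
    obtain ⟨z, rfl⟩ := Subgroup.mem_zpowers_iff.mp hg
    refine ⟨j, ?_⟩
    apply Subtype.ext
    show (ConjAct.toConjAct x ^ z) ^ p ^ j = 1
    rw [← zpow_natCast, ← zpow_mul, mul_comm, zpow_mul, zpow_natCast, ← map_pow, hj, map_one,
      one_zpow]
  have hcard : ¬ p ∣ Nat.card (Sylow q K) := by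
    intro hd
    obtain ⟨R⟩ : Nonempty (Sylow q K) := inferInstance
    have h1 : Nat.card (Sylow q K) ∣ Nat.card K :=
      (Sylow.card_dvd_index R).trans (Subgroup.index_dvd_card _)
    have h2 : p ∣ Nat.card K := hd.trans h1
    have h3 := Nat.Coprime.eq_one_of_dvd hK.symm h2
    exact hp.one_lt.ne' h3
  obtain ⟨R, hR⟩ := hZ.nonempty_fixed_point_of_prime_not_dvd_card (Sylow q K) hcard
  refine ⟨R, fun r hr => ?_⟩
  have h1 : (⟨ConjAct.toConjAct x, Subgroup.mem_zpowers _⟩ : Z) • R = R := hR _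
  have h2 : (ConjAct.toConjAct x) • R = R := h1
  have h3 : (ConjAct.toConjAct x) • r ∈ ((ConjAct.toConjAct x) • R : Sylow q K) := by
    show (ConjAct.toConjAct x) • r ∈ (ConjAct.toConjAct x) • (R : Subgroup K)
    exact Subgroup.smul_mem_pointwise_smul _ _ _ hr
  rw [h2] at h3
  have h4 : (⟨x * r * x⁻¹, hKn.conj_mem r r.2 x⟩ : K) = (ConjAct.toConjAct x) • r := by
    apply Subtype.ext
    rw [ConjAct.Subgroup.val_conj_smul, ConjAct.smul_def, ConjAct.ofConjAct_toConjAct]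
  rw [h4]
  exact h3

/-- Every Sylow `q`-subgroup of `G ⧸ N` is the image of a Sylow `q`-subgroup of `G`. -/
theorem sylow_quot_lift {G : Type*} [Group G] [Finite G] (N : Subgroup G) [N.Normal]
    (q : ℕ) [Fact q.Prime] (Q : Sylow q (G ⧸ N)) :
    ∃ S : Sylow q G, ∀ y ∈ Q, ∃ s ∈ S, (s : G ⧸ N) = y := by
  obtain ⟨S, rfl⟩ := Sylow.mapSurjective_surjective (QuotientGroup.mk'_surjective N) q Q
  refine ⟨S, fun y hy => ?_⟩
  have hy' : y ∈ (S : Subgroup G).map (QuotientGroup.mk' N) := hy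
  obtain ⟨s, hs, rfl⟩ := Subgroup.mem_map.mp hy'
  exact ⟨s, hs, rfl⟩

end Cfsg.Agent.Lib.Helper97.Avg
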