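import Mathlib
import Cfsg.Agent.Lib.Helper16.BFStmt

/-!
# S4700 piece NFREL (helper97): the degree equation (arithmetic)
-/

set_option autoImplicit false

namespace Cfsg.Agent.Lib.Helper97.BFNFREL

open Cfsg.Agent.Lib.Helper16.BFStmt

theorem main : NFRel := by
  intro p e t n a b1 b2 f δ hp hpe he hn hab hb2 hδ hf heq hm hpl
  have hp2 := hp.two_le
  have ht : 1 ≤ t := by
    rcases Nat.eq_zero_or_pos t with h | h
    · subst h
      omega
    · exact h
  -- integer versions
  have hpZ : (p : ℤ) = (e : ℤ) * (t : ℤ) + 1 := by exact_mod_cast hpe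
  have habZ : (a : ℤ) + b1 + b2 + 1 = e := by exact_mod_cast hab
  have ha0 : (0 : ℤ) ≤ a := Int.natCast_nonneg a
  have hb10 : (0 : ℤ) ≤ b1 := Int.natCast_nonneg b1
  have hb20 : (0 : ℤ) ≤ b2 := Int.natCast_nonneg b2
  have hn1 : (1 : ℤ) ≤ n := by exact_mod_cast hn
  have he2 : (2 : ℤ) ≤ e := by exact_mod_cast he
  have ht1 : (1 : ℤ) ≤ t := by exact_mod_cast ht
  have hf0 : (0 : ℤ) < f := by exact_mod_cast hf
  have hp2Z : (2 : ℤ) ≤ p := by exact_mod_cast hp2
  obtain ⟨N, hN⟩ : ∃ N : ℤ, N = 1 + (n : ℤ) * (p : ℤ) := ⟨_, rfl⟩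
  have hnp : (1 : ℤ) * 2 ≤ (n : ℤ) * (p : ℤ) :=
    mul_le_mul hn1 hp2Z (by norm_num) (by linarith)
  have hN3 : 3 ≤ N := by linarith
  have hq : (p : ℤ) - 1 = e * t := by linarith
  rw [hq, ← hN] at heq
  have hmZ : δ = -1 → (t : ℤ) * f = N := fun h => by
    have := hm h
    rw [hN]
    exact_mod_cast this
  have hplZ : δ = 1 → (f : ℤ) = e ∨ (f : ℤ) = e * N := fun h => by
    rcases hpl h with h' | h'
    · left
      exact_mod_cast h'
    · right
      rw [hN]
      exact_mod_cast h'
  have he0 : (0 : ℤ) ≤ e := by linarith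
  have hN0 : (0 : ℤ) ≤ N := by linarith
  have heN0 : (0 : ℤ) ≤ e * N := mul_nonneg he0 hN0
  have hb2z : b2 = 0 := by
    by_contra hne
    have hb21 : 1 ≤ b2 := Nat.pos_of_ne_zero hne
    have hb21Z : (1 : ℤ) ≤ b2 := by exact_mod_cast hb21
    have hep := hb2 hb21
    have hepZ : (e : ℤ) = p - 1 := by omega
    have ht1' : (t : ℤ) = 1 := by
      have : (e : ℤ) * t = e * 1 := by linarith
      exact mul_left_cancel₀ (by linarith) this
    rw [ht1', mul_one] at heq
    have h1 : (e : ℤ) * N ≤ b2 * (e * N) := le_mul_of_one_le_left heN0 hb21Z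
    have h2 : (a : ℤ) * N ≤ (e - 2) * N := mul_le_mul_of_nonneg_right (by linarith) hN0
    have h3 : (0 : ℤ) ≤ b1 * e := by positivity
    rcases hδ with hd | hd
    · subst hd
      linarith
    · subst hd
      have hfN : (f : ℤ) = N := by
        have := hmZ rfl
        rw [ht1', one_mul] at this
        exact this
      linarith
  subst hb2z
  simp only [Nat.cast_zero, zero_mul, sub_zero, add_zero] at heq habZ
  have hb1pos : 1 ≤ b1 := by
    by_contra hne
    have hb10' : b1 = 0 := by omega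
    subst hb10'
    simp only [Nat.cast_zero, zero_mul, sub_zero, add_zero] at heq habZ
    rcases hδ with hd | hd
    · subst hd
      rcases hplZ rfl with h' | h'
      · -- e = 1 + (e - 1) N
        have : ((e : ℤ) - 1) * (N - 1) = 0 := by
          have ha : (a : ℤ) = e - 1 := by linarith
          rw [ha, h'] at heq
          linarith
        rcases mul_eq_zero.1 this with h | h <;> linarith
      · have ha : (a : ℤ) = e - 1 := by linarith
        rw [ha, h'] at heq
        linarith
    · subst hd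
      have : (0 : ℤ) ≤ a * N := mul_nonneg ha0 hN0
      linarith
  have hb11 : (1 : ℤ) ≤ b1 := by exact_mod_cast hb1pos
  have hfe : δ = 1 → f = e := by
    intro hd
    subst hd
    rcases hplZ rfl with h' | h'
    · exact_mod_cast h'
    · exfalso
      have ha : (a : ℤ) = e - 1 - b1 := by linarith
      have h3 : (0 : ℤ) ≤ b1 * (e * t) := by positivity
      have h4 : (0 : ℤ) ≤ b1 * N := mul_nonneg hb10 hN0
      rw [ha, h'] at heq
      linarith
  refine ⟨rfl, hb1pos, hfe, ?_⟩
  intro ht1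
  subst ht1
  simp only [Nat.cast_one, mul_one, one_mul] at heq hpZ hmZ
  have hb1e : (b1 : ℤ) = e - 1 - a := by linarith
  have hpe' : p = e + 1 := by omega
  have hcanc : ∀ c : ℤ, ((e : ℤ) + 1) * (e - 1) = ((e : ℤ) + 1) * (c * (n + 1)) →
      (e : ℤ) - 1 = c * (n + 1) := fun c h => mul_left_cancel₀ (by linarith) h
  have hfin : ∀ c : ℕ, (e : ℤ) - 1 = c * (n + 1) → (n + 1) ∣ (p - 2) := by
    intro c h
    refine ⟨c, ?_⟩
    have h' : ((p - 2 : ℕ) : ℤ) = (((n + 1) * c : ℕ) : ℤ) := by
      rw [Nat.cast_sub hp2]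
      push_cast
      rw [hpZ]
      linarith
    exact_mod_cast h'
  rcases hδ with hd | hd
  · subst hd
    have hfe' : (f : ℤ) = e := by exact_mod_cast hfe rfl
    apply hfin a
    exact hcanc a (by
      linear_combination heq - hfe' - (e : ℤ) * hb1e + (a : ℤ) * hN + (a : ℤ) * n * hpZ)
  · subst hd
    have hfN : (f : ℤ) = N := hmZ rfl
    apply hfin (a + 1)
    have := hcanc (a + 1) (by
      linear_combination heq + hfN - (e : ℤ) * hb1e + ((a : ℤ) + 1) * hN
        + ((a : ℤ) + 1) * n * hpZ)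
    push_cast
    exact this

end Cfsg.Agent.Lib.Helper97.BFNFREL
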