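import Mathlib
import Cfsg.Agent.Lib.Helper16.BFStmt

/-!
# S4700 piece NFY (helper97): the degree of the exceptional characters (arithmetic)
-/

set_option autoImplicit false

namespace Cfsg.Agent.Lib.Helper97.BFNFY

open Cfsg.Agent.Lib.Helper16.BFStmt

theorem coreA (p n x : ℕ) (hp : p.Prime) (hF : ¬ FForm n p)
    (hx : x ∣ (p - 1) * (1 + n * p)) (hx1 : x % p = 1) (hne : x ≠ 1) : x = 1 + n * p := by
  obtain ⟨q, rfl⟩ : ∃ q, p = q + 1 := ⟨p - 1, by have := hp.two_le; omega⟩
  have hq : 1 ≤ q := by have := hp.two_le; omega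
  obtain ⟨y, hy⟩ := hx
  obtain ⟨u, hu⟩ : ∃ u, x = 1 + u * (q + 1) :=
    ⟨x / (q + 1), by
      have := Nat.div_add_mod x (q + 1)
      rw [hx1] at this
      linarith [mul_comm (q + 1) (x / (q + 1))]⟩
  have hu1 : 1 ≤ u := by
    rcases Nat.eq_zero_or_pos u with h | h
    · subst h
      simp at hu
      exact absurd hu hne
    · exact h
  subst hu
  simp only [Nat.add_sub_cancel] at hy
  have hdvd : (q + 1) ∣ y + 1 := by
    have h1 : (q + 1) ∣ (1 + u * (q + 1)) * y + (1 + n * (q + 1)) := by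
      rw [← hy]
      exact ⟨1 + n * (q + 1), by ring⟩
    have h2 : (1 + u * (q + 1)) * y + (1 + n * (q + 1)) = (y + 1) + (q + 1) * (u * y + n) := by
      ring
    rw [h2] at h1
    exact (Nat.dvd_add_left (Dvd.intro _ rfl)).1 h1
  obtain ⟨h, hh⟩ := hdvd
  have hh1 : 1 ≤ h := by
    rcases Nat.eq_zero_or_pos h with h0 | h0
    · subst h0
      simp at hh
    · exact h0
  have key : h * (1 + u * (q + 1)) = 1 + u + n * q := by
    have h3 : (1 + u * (q + 1)) * (y + 1) = (q + 1) * (1 + u + n * q) := by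
      have : (1 + u * (q + 1)) * (y + 1) = (1 + u * (q + 1)) * y + (1 + u * (q + 1)) := by ring
      rw [this, ← hy]
      ring
    rw [hh] at h3
    have h4 : (q + 1) * (h * (1 + u * (q + 1))) = (q + 1) * (1 + u + n * q) := by
      rw [← h3]
      ring
    exact Nat.eq_of_mul_eq_mul_left (Nat.succ_pos q) h4
  obtain ⟨h'', rfl⟩ : ∃ h'', h = h'' + 1 := ⟨h - 1, by omega⟩
  rcases Nat.eq_zero_or_pos h'' with h0 | h0
  · subst h0
    have h5 : u * q = n * q := by
      have : (0 + 1) * (1 + u * (q + 1)) = 1 + u + u * q := by ring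
      rw [this] at key
      omega
    have : u = n := Nat.eq_of_mul_eq_mul_right hq h5
    rw [this]
  · exfalso
    have e1 : h'' * (1 + u) + (h'' * u * q + u * q) = n * q := by
      have : (h'' + 1) * (1 + u * (q + 1)) = h'' * (1 + u) + (h'' * u * q + u * q) + (1 + u) := by
        ring
      rw [this] at key
      omega
    have hqd : q ∣ h'' * (1 + u) := by
      have h6 : q ∣ h'' * (1 + u) + (h'' * u * q + u * q) := by
        rw [e1]
        exact Dvd.intro_left _ rfl
      have h7 : q ∣ h'' * u * q + u * q := ⟨h'' * u + u, by ring⟩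
      exact (Nat.dvd_add_left h7).1 h6
    obtain ⟨k, hk⟩ := hqd
    have hk1 : 1 ≤ k := by
      rcases Nat.eq_zero_or_pos k with k0 | k0
      · subst k0
        have : 0 < h'' * (1 + u) := Nat.mul_pos h0 (by omega)
        omega
      · exact k0
    have e2 : k + h'' * u + u = n := by
      have : q * (k + h'' * u + u) = q * n := by
        have : q * (k + h'' * u + u) = q * k + (h'' * u * q + u * q) := by ring
        rw [this, ← hk, e1, mul_comm]
      exact Nat.eq_of_mul_eq_mul_left hq this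
    apply hF
    refine ⟨k, u, hk1, hu1, ?_⟩
    rw [← e2]
    have h8 : h'' * u * (u + 1) = u * (q * k) := by
      rw [← hk]
      ring
    have : (k + h'' * u + u) * (u + 1) = k * (u + 1) + h'' * u * (u + 1) + u * (u + 1) := by ring
    rw [this, h8]
    ring

theorem coreB (p n x : ℕ) (hp : p.Prime) (hF : ¬ FForm n p)
    (hx : x ∣ (p - 1) * (1 + n * p)) (hx1 : x % p = p - 1) :
    x = p - 1 ∨ x = (p - 1) * (1 + n * p) := by
  obtain ⟨q, rfl⟩ : ∃ q, p = q + 1 := ⟨p - 1, by have := hp.two_le; omega⟩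
  have hq : 1 ≤ q := by have := hp.two_le; omega
  obtain ⟨y, hy⟩ := hx
  simp only [Nat.add_sub_cancel] at hy hx1 ⊢
  -- y ≡ 1 mod p
  have hy1 : y % (q + 1) = 1 := by
    have h1 : (x * y) % (q + 1) = q % (q + 1) := by
      rw [← hy]
      have : q * (1 + n * (q + 1)) = q + (q + 1) * (q * n) := by ring
      rw [this, Nat.add_mul_mod_self_left]
    rw [Nat.mul_mod, hx1, Nat.mod_eq_of_lt (Nat.lt_succ_self q)] at h1
    -- (q * (y % (q+1))) % (q+1) = q
    set r := y % (q + 1) with hr
    have hrlt : r < q + 1 := Nat.mod_lt _ (Nat.succ_pos q)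
    -- q * r ≡ q → (q+1) ∣ q * r + r - ... use q ≡ -1
    have h2 : (q + 1) ∣ q * r + 1 := by
      have : (q * r + 1) % (q + 1) = 0 := by
        rw [Nat.add_mod, h1, Nat.mod_eq_of_lt (show 1 < q + 1 by omega)]
        exact Nat.mod_self _
      exact Nat.dvd_of_mod_eq_zero this
    -- q r + 1 = (q+1) r - (r - 1)
    have h3 : (q + 1) ∣ (q * r + 1) + (q + 1) * (q + 1 - r) := Dvd.dvd.add h2 (Dvd.intro _ rfl)
    obtain ⟨c, hc⟩ := h2
    -- q r + 1 = (q+1) c, so r ≡ 1: r - 1 = (q+1)(r - c)
    have h4 : r + (q + 1) * c = 1 + (q + 1) * r := by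
      have : (q + 1) * r = q * r + r := by ring
      omega
    have hcr : c = r := by
      by_contra hne
      rcases Nat.lt_or_gt_of_ne hne with hlt | hgt
      · have : (q + 1) * (c + 1) ≤ (q + 1) * r := Nat.mul_le_mul_left _ hlt
        have : (q + 1) * (c + 1) = (q + 1) * c + (q + 1) := by ring
        omega
      · have : (q + 1) * (r + 1) ≤ (q + 1) * c := Nat.mul_le_mul_left _ hgt
        have : (q + 1) * (r + 1) = (q + 1) * r + (q + 1) := by ring
        omega
    subst hcr
    omega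
  by_cases hy' : y = 1
  · right
    subst hy'
    rw [hy, mul_one]
  · left
    have hyd : y ∣ (q + 1 - 1) * (1 + n * (q + 1)) := by
      simp only [Nat.add_sub_cancel]
      exact ⟨x, by rw [hy, mul_comm]⟩
    have := coreA (q + 1) n y hp hF hyd hy1 hy'
    subst this
    have hpos : 0 < 1 + n * (q + 1) := by omega
    exact (Nat.eq_of_mul_eq_mul_right hpos hy).symm

theorem main : NFY := by
  intro p e t n f δ hp hpe he hn hF hf hf1 hfd hmod hδ
  have hp2 := hp.two_le
  have ht : 1 ≤ t := by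
    rcases Nat.eq_zero_or_pos t with h | h
    · subst h
      omega
    · exact h
  have hp1 : p - 1 = t * e := by rw [hpe, Nat.add_sub_cancel, mul_comm]
  have hxd : t * f ∣ (p - 1) * (1 + n * p) := by
    rw [hp1, mul_assoc]
    exact Nat.mul_dvd_mul_left t hfd
  refine ⟨fun hd => ?_, fun hd => ?_⟩
  · subst hd
    -- p ∣ f + e
    have h1 : (p : ℤ) ∣ -1 * (e : ℤ) - (f : ℤ) := hmod.dvd
    have h2 : (p : ℤ) ∣ ((f + e : ℕ) : ℤ) := by
      have : ((f + e : ℕ) : ℤ) = -(-1 * (e : ℤ) - (f : ℤ)) := by push_cast; ring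
      rw [this]
      exact (dvd_neg).2 h1
    have h3 : p ∣ f + e := Int.natCast_dvd_natCast.1 h2
    have h4 : (t * f) % p = 1 := by
      obtain ⟨c, hc⟩ := h3
      have hc1 : 1 ≤ c := by
        rcases Nat.eq_zero_or_pos c with h | h
        · subst h
          omega
        · exact h
      obtain ⟨c', rfl⟩ : ∃ c', c = c' + 1 := ⟨c - 1, by omega⟩
      have h5 : t * f + t * e = t * (p * (c' + 1)) := by rw [← hc]; ring
      have h6 : t * f = 1 + p * (t * c' + (t - 1)) := by
        obtain ⟨t', rfl⟩ : ∃ t', t = t' + 1 := ⟨t - 1, by omega⟩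
        have h7 : (t' + 1) * e + 1 = p := by rw [hpe]; ring
        have h8 : (t' + 1) * (p * (c' + 1)) = p * ((t' + 1) * c' + (t' + 1 - 1)) + p := by
          simp only [Nat.add_sub_cancel]
          ring
        omega
      rw [h6, Nat.add_mul_mod_self_left]
      exact Nat.mod_eq_of_lt (by omega)
    have hne : t * f ≠ 1 := by
      intro h
      have : f ∣ 1 := ⟨t, by rw [← h, mul_comm]⟩
      exact hf1 (Nat.dvd_one.1 this)
    exact coreA p n (t * f) hp hF hxd h4 hne
  · subst hd
    have h1 : (f : ℤ) ≡ (e : ℤ) [ZMOD (p : ℤ)] := by simpa using hmod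
    have h2 : f ≡ e [MOD p] := Int.natCast_modEq_iff.1 h1
    have h4 : (t * f) % p = p - 1 := by
      have h5 : t * f ≡ t * e [MOD p] := Nat.ModEq.mul_left t h2
      rw [← hp1] at h5
      have h6 : (t * f) % p = (p - 1) % p := h5
      rw [h6]
      exact Nat.mod_eq_of_lt (by omega)
    rcases coreB p n (t * f) hp hF hxd h4 with h | h
    · left
      rw [hp1] at h
      exact Nat.eq_of_mul_eq_mul_left ht h
    · right
      rw [hp1, mul_assoc] at h
      exact Nat.eq_of_mul_eq_mul_left ht h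

end Cfsg.Agent.Lib.Helper97.BFNFY
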