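import Mathlib
import Cfsg.Agent.Lib.Helper80.BTStmt
import Cfsg.Agent.Lib.Helper75.BlockOrth
import Cfsg.Agent.Lib.CT.Ops

/-!
# S0997, piece BTO: block orthogonality for two primes (Brauer-Tuan)
-/

open Cfsg.Agent.Lib.Helper77.LocalRing Cfsg.Agent.Lib.CT.Wedderburn
open scoped ComplexConjugate

set_option autoImplicit false
open Cfsg

namespace Cfsg.Agent.Lib.Helper97.BTBTO

universe u

theorem main : Cfsg.Agent.Lib.Helper80.BTStmt.BTO.{u} := by
  intro G _ _ p q _ _ Mp Mq hMp hMq hreg B B' hB hB' x y hx hy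
  classical
  have := Fintype.ofFinite G
  have := finite_irrCharacter G
  have := Fintype.ofFinite (IrrCharacter G)
  set cp : IrrCharacter G → ℂ := fun χ =>
    if χ ∈ B then conj ((χ : G → ℂ) x) else 0 with hcp
  set cq : IrrCharacter G → ℂ := fun χ =>
    if χ ∈ B' then conj ((χ : G → ℂ) y) else 0 with hcq
  have hfp : ∀ g : G, ¬ p ∣ orderOf g → ∑ χ : IrrCharacter G, cp χ * (χ : G → ℂ) g = 0 := by
    intro g hg
    have h := Cfsg.Agent.Lib.Helper75.BlockOrth.weak_block_orthogonality p Mp hMp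
      B hB g x hg hx
    rw [finsum_mem_def, finsum_eq_sum_of_fintype] at h
    rw [← h]
    refine Finset.sum_congr rfl fun χ _ => ?_
    rw [hcp]
    simp only
    by_cases hmem : χ ∈ B
    · rw [Set.indicator_of_mem hmem, if_pos hmem]
      ring
    · rw [Set.indicator_of_notMem hmem, if_neg hmem, zero_mul]
  have hfq : ∀ g : G, ¬ q ∣ orderOf g → ∑ χ : IrrCharacter G, cq χ * (χ : G → ℂ) g = 0 := by
    intro g hg
    have h := Cfsg.Agent.Lib.Helper75.BlockOrth.weak_block_orthogonality q Mq hMq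
      B' hB' g y hg hy
    rw [finsum_mem_def, finsum_eq_sum_of_fintype] at h
    rw [← h]
    refine Finset.sum_congr rfl fun χ _ => ?_
    rw [hcq]
    simp only
    by_cases hmem : χ ∈ B'
    · rw [Set.indicator_of_mem hmem, if_pos hmem]
      ring
    · rw [Set.indicator_of_notMem hmem, if_neg hmem, zero_mul]
  have key : ∑ g : G, (∑ χ : IrrCharacter G, cp χ * (χ : G → ℂ) g) *
      conj (∑ ψ : IrrCharacter G, cq ψ * (ψ : G → ℂ) g) = 0 := by
    refine Finset.sum_eq_zero fun g _ => ?_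
    rcases hreg g with h | h
    · rw [hfp g h, zero_mul]
    · rw [hfq g h, map_zero, mul_zero]
  have horth : ∀ χ ψ : IrrCharacter G, ∑ g : G, (χ : G → ℂ) g * conj ((ψ : G → ℂ) g) =
      if χ = ψ then (Nat.card G : ℂ) else 0 := by
    intro χ ψ
    have h := irr_orthonormal χ ψ
    unfold classInner at h
    have hne : (Nat.card G : ℂ) ≠ 0 := Nat.cast_ne_zero.mpr Nat.card_pos.ne'
    by_cases hχψ : χ = ψ
    · rw [if_pos hχψ] at h ⊢
      field_simp at h
      exact h
    · rw [if_neg hχψ] at h ⊢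
      rcases mul_eq_zero.mp h with h | h
      · exact absurd (inv_eq_zero.mp h) hne
      · exact h
  have key2 : ∑ g : G, (∑ χ : IrrCharacter G, cp χ * (χ : G → ℂ) g) *
      conj (∑ ψ : IrrCharacter G, cq ψ * (ψ : G → ℂ) g) =
      (Nat.card G : ℂ) * ∑ χ : IrrCharacter G, cp χ * conj (cq χ) := by
    have e1 : ∀ g : G, (∑ χ : IrrCharacter G, cp χ * (χ : G → ℂ) g) *
        conj (∑ ψ : IrrCharacter G, cq ψ * (ψ : G → ℂ) g) =
        ∑ χ : IrrCharacter G, ∑ ψ : IrrCharacter G,
          cp χ * conj (cq ψ) * ((χ : G → ℂ) g * conj ((ψ : G → ℂ) g)) := by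
      intro g
      rw [map_sum, Finset.sum_mul_sum]
      refine Finset.sum_congr rfl fun χ _ => Finset.sum_congr rfl fun ψ _ => ?_
      rw [map_mul]
      ring
    rw [Finset.sum_congr rfl (fun g _ => e1 g), Finset.sum_comm, Finset.mul_sum]
    refine Finset.sum_congr rfl fun χ _ => ?_
    rw [Finset.sum_comm]
    have e2 : ∀ ψ : IrrCharacter G, ∑ g : G,
        cp χ * conj (cq ψ) * ((χ : G → ℂ) g * conj ((ψ : G → ℂ) g)) =
        if χ = ψ then (Nat.card G : ℂ) * (cp χ * conj (cq χ)) else 0 := by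
      intro ψ
      rw [← Finset.mul_sum, horth]
      by_cases hχψ : χ = ψ
      · subst hχψ
        rw [if_pos rfl, if_pos rfl]
        ring
      · rw [if_neg hχψ, if_neg hχψ, mul_zero]
    rw [Finset.sum_congr rfl (fun ψ _ => e2 ψ), Finset.sum_ite_eq Finset.univ χ]
    simp
  rw [key2] at key
  have hne : (Nat.card G : ℂ) ≠ 0 := Nat.cast_ne_zero.mpr Nat.card_pos.ne'
  have hsum : ∑ χ : IrrCharacter G, cp χ * conj (cq χ) = 0 := by
    rcases mul_eq_zero.mp key with h | h
    · exact absurd h hne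
    · exact h
  rw [finsum_mem_def, finsum_eq_sum_of_fintype, ← hsum]
  refine Finset.sum_congr rfl fun χ _ => ?_
  rw [hcp, hcq]
  simp only
  by_cases h1 : χ ∈ B
  · by_cases h2 : χ ∈ B'
    · rw [Set.indicator_of_mem (Set.mem_inter h1 h2), if_pos h1, if_pos h2]
      simp
    · rw [Set.indicator_of_notMem (fun h => h2 h.2), if_neg h2, map_zero, mul_zero]
  · rw [Set.indicator_of_notMem (fun h => h1 h.1), if_neg h1, zero_mul]

end Cfsg.Agent.Lib.Helper97.BTBTO
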