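import Mathlib
import Cfsg.Agent.Lib.Helper80.BTStmt
import Cfsg.Agent.Lib.Helper69.InvDet
import Cfsg.Agent.Lib.CT.Wedderburn

/-!
# S0997, piece NIB: a character of odd degree is not in the `2`-block of a character vanishing
at an involution of odd class size
-/

set_option autoImplicit false
open Cfsg

namespace Cfsg.Agent.Lib.Helper97.BTNIB

open Cfsg.Agent.Lib.CT.Wedderburn Polynomial

universe u

/-- A complex matrix with `A * A = 1` has trace `n - 2k`. -/
theorem matrix_invol2 {n : ℕ} (A : Matrix (Fin n) (Fin n) ℂ) (hA : A * A = 1) :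
    ∃ k : ℕ, A.trace = (n : ℂ) - 2 * k := by
  have hroots : ∀ r ∈ A.charpoly.roots, r = 1 ∨ r = -1 := by
    intro r hr
    have hr' : IsRoot A.charpoly r := isRoot_of_mem_roots hr
    have hs : r ∈ spectrum ℂ A := Matrix.mem_spectrum_iff_isRoot_charpoly.mpr hr'
    by_contra hne
    push Not at hne
    have hr2 : r ^ 2 - 1 ≠ 0 := by
      intro h0
      have h1 : (r - 1) * (r + 1) = 0 := by linear_combination h0
      rcases mul_eq_zero.mp h1 with h | h
      · exact hne.1 (by linear_combination h)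
      · exact hne.2 (by linear_combination h)
    apply (spectrum.mem_iff.mp hs)
    rw [Algebra.algebraMap_eq_smul_one]
    have h1 : (r • (1 : Matrix (Fin n) (Fin n) ℂ) - A) * (r • (1 : Matrix (Fin n) (Fin n) ℂ) + A)
        = (r ^ 2 - 1) • (1 : Matrix (Fin n) (Fin n) ℂ) := by
      simp only [sub_mul, mul_add, smul_mul_assoc, mul_smul_comm, one_mul, mul_one, hA]
      module
    have h2 : (r • (1 : Matrix (Fin n) (Fin n) ℂ) + A) * (r • (1 : Matrix (Fin n) (Fin n) ℂ) - A)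
        = (r ^ 2 - 1) • (1 : Matrix (Fin n) (Fin n) ℂ) := by
      simp only [add_mul, mul_sub, smul_mul_assoc, mul_smul_comm, one_mul, mul_one, hA]
      module
    refine ⟨⟨r • (1 : Matrix (Fin n) (Fin n) ℂ) - A,
      (r ^ 2 - 1)⁻¹ • (r • (1 : Matrix (Fin n) (Fin n) ℂ) + A), ?_, ?_⟩, rfl⟩
    · rw [mul_smul_comm, h1, smul_smul, inv_mul_cancel₀ hr2, one_smul]
    · rw [smul_mul_assoc, h2, smul_smul, inv_mul_cancel₀ hr2, one_smul]
  obtain ⟨k, hk1, hk2⟩ := Cfsg.Agent.Lib.Helper69.InvDet.multiset_pm _ hroots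
  have hcard : Multiset.card A.charpoly.roots = n := by
    rw [splits_iff_card_roots.mp (IsAlgClosed.splits A.charpoly), Matrix.charpoly_natDegree_eq_dim,
      Fintype.card_fin]
  refine ⟨k, ?_⟩
  rw [Matrix.trace_eq_sum_roots_charpoly, hk2, hcard]

/-- `χ s = χ 1 - 2 k` for a character `χ` and `s * s = 1`. -/
theorem char_invol2 {G : Type u} [Group G] {χ : G → ℂ}
    (hχ : IsCharacter G χ) (s : G) (hs : s * s = 1) : ∃ k : ℕ, χ s = χ 1 - 2 * k := by
  obtain ⟨n, ρ, rfl⟩ := hχ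
  have hA : LinearMap.toMatrix' (ρ s) * LinearMap.toMatrix' (ρ s) = 1 := by
    rw [← LinearMap.toMatrix'_mul, ← map_mul, hs, map_one, LinearMap.toMatrix'_one]
  obtain ⟨k, hk⟩ := matrix_invol2 _ hA
  refine ⟨k, ?_⟩
  rw [Representation.char_one, Module.finrank_fin_fun]
  show LinearMap.trace ℂ (Fin n → ℂ) (ρ s) = _
  rw [LinearMap.trace_eq_matrix_trace ℂ (Pi.basisFun ℂ (Fin n)), LinearMap.toMatrix_eq_toMatrix', hk]

theorem main : Cfsg.Agent.Lib.Helper80.BTStmt.NIB.{u} := by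
  intro G _ _ M hM χ₀ ψ z hz hodd hχ₀z hψodd hmem
  have hMprime : M.IsPrime := hM.2.1.isPrime
  have h2M : (2 : AlgInt) ∈ M := by
    have := hM.2.2
    simpa using this
  have h1M : (1 : AlgInt) ∉ M := fun h => hM.2.1.ne_top ((Ideal.eq_top_iff_one M).mpr h)
  have hoddM : ∀ n : ℤ, Odd n → ((n : ℤ) : AlgInt) ∉ M := by
    rintro n ⟨m, hm⟩ hn
    apply h1M
    have h1 : (1 : AlgInt) = ((n : ℤ) : AlgInt) - (2 : AlgInt) * ((m : ℤ) : AlgInt) := by
      rw [hm]; push_cast; ring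
    rw [h1]
    exact M.sub_mem hn (M.mul_mem_right _ h2M)
  obtain ⟨a, b, ha, hb, hab⟩ := hmem z
  have hψchar : IsCharacter G (ψ : G → ℂ) := isCharacter_of_irr ψ.2
  have hzz : z * z = 1 := by rw [← pow_two, ← hz, pow_orderOf_eq_one]
  obtain ⟨k, hk⟩ := char_invol2 hψchar z hzz
  have hdeg : (charDegree (ψ : G → ℂ) : ℂ) = (ψ : G → ℂ) 1 := char_natCast_charDegree hψchar
  have hd0 : (ψ : G → ℂ) 1 ≠ 0 := irr_apply_one_ne_zero ψ.2
  obtain ⟨d, hd⟩ : ∃ d : ℕ, d = charDegree (ψ : G → ℂ) := ⟨_, rfl⟩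
  obtain ⟨idx, hidx⟩ : ∃ idx : ℕ, idx = (Subgroup.centralizer ({z} : Set G)).index := ⟨_, rfl⟩
  rw [← hd] at hdeg hψodd
  rw [← hidx] at hodd
  have hb0 : (b : ℂ) ≠ 0 := by
    intro h0
    apply hb
    have hb' : b = 0 := Subtype.ext h0
    rw [hb']
    exact M.zero_mem
  have hd0' : (d : ℂ) ≠ 0 := by rw [hdeg]; exact hd0
  have hC : (a : ℂ) * (d : ℂ) = -((idx : ℂ) * ((d : ℂ) - 2 * (k : ℂ)) * (b : ℂ)) := by
    unfold centralChar at hab
    rw [hχ₀z, hk, ← hdeg, ← hidx] at hab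
    field_simp at hab
    linear_combination hab
  have hA : a * ((d : ℤ) : AlgInt) =
      -(((idx : ℤ) : AlgInt) * (((d : ℤ) - 2 * (k : ℤ) : ℤ) : AlgInt) * b) := by
    apply Subtype.ext
    push_cast
    exact hC
  have hmemM : ((idx : ℤ) : AlgInt) * (((d : ℤ) - 2 * (k : ℤ) : ℤ) : AlgInt) * b ∈ M := by
    have h1 : a * ((d : ℤ) : AlgInt) ∈ M := M.mul_mem_right _ ha
    rw [hA] at h1
    exact neg_mem_iff.mp h1
  rcases hMprime.mem_or_mem hmemM with h | h
  · rcases hMprime.mem_or_mem h with h | h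
    · exact hoddM _ (by exact_mod_cast hodd) h
    · refine hoddM _ ?_ h
      obtain ⟨m, hm⟩ := hψodd
      exact ⟨(m : ℤ) - k, by rw [hm]; push_cast; ring⟩
  · exact hb h

end Cfsg.Agent.Lib.Helper97.BTNIB
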