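import Mathlib
import Cfsg.Agent.Lib.Helper28.DxStmt

/-!
# S1615 piece DELTASQ (helper97): `SrgSq` for the commuting graph of `D`
-/

set_option autoImplicit false

namespace Cfsg.Agent.Lib.Helper97.DxDELTASQ

open Cfsg Cfsg.Agent.Lib.Helper21.W3Class Cfsg.Agent.Lib.Helper28 Cfsg.Agent.Lib.Helper28.DxStmt

universe u

theorem card_filter_val {G : Type u} (D : Set G) [Fintype ↥D] (P : G → Prop)
    [DecidablePred fun u : ↥D => P u.1] :
    (Finset.univ.filter (fun u : ↥D => P u.1)).card = {y : G | y ∈ D ∧ P y}.ncard := by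
  rw [← Set.ncard_coe_finset]
  have h : {y : G | y ∈ D ∧ P y} =
      Subtype.val '' ((Finset.univ.filter (fun u : ↥D => P u.1) : Finset ↥D) : Set ↥D) := by
    ext y
    constructor
    · rintro ⟨hy, hp⟩
      exact ⟨⟨y, hy⟩, by simpa using hp, rfl⟩
    · rintro ⟨⟨y', hy'⟩, hmem, rfl⟩
      exact ⟨hy', by simpa using hmem⟩
  rw [h, Set.ncard_image_of_injective _ Subtype.val_injective]

theorem main : DeltaSqPiece.{u} := by
  intro hS G _ _ D T hTri k μ hk hμ hev hcount hμk hk0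
  classical
  haveI : Fintype ↥D := Fintype.ofFinite _
  have hcard : Fintype.card ↥D = D.ncard := by
    rw [← Nat.card_eq_fintype_card, Nat.card_coe_set_eq]
  refine hS (V := ↥D) (fun a b => a ≠ b ∧ Commute a.1 b.1) k μ ?_ ?_ ?_ ?_ ?_ ?_ ?_ hμk hk0
  · rintro a b ⟨h1, h2⟩
    exact ⟨h1.symm, h2.symm⟩
  · rintro a ⟨h1, -⟩
    exact h1 rfl
  · intro a
    have h1 := card_filter_val D (fun y => y ≠ a.1 ∧ Commute a.1 y)
    rw [← hk a.1 a.2]
    rw [show Pt D a.1 = {y : G | y ∈ D ∧ (y ≠ a.1 ∧ Commute a.1 y)} from rfl, ← h1]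
    congr 1
    ext u
    simp only [Finset.mem_filter, Finset.mem_univ, true_and]
    constructor
    · rintro ⟨h1, h2⟩
      exact ⟨fun h => h1 (Subtype.ext h.symm), h2⟩
    · rintro ⟨h1, h2⟩
      exact ⟨fun h => h1 (by rw [h]), h2⟩
  · rintro a b hab ⟨-, hcab⟩ u ⟨⟨hau, hcau⟩, ⟨hbu, hcbu⟩⟩
    exact hTri u.1 u.2 a.1 ⟨a.2, fun h => hau (Subtype.ext h), hcau.symm⟩ b.1
      ⟨b.2, fun h => hbu (Subtype.ext h), hcbu.symm⟩ (fun h => hab (Subtype.ext h)) hcab
  · intro a b hab hnR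
    have hnc : ¬ Commute a.1 b.1 := fun h => hnR ⟨hab, h⟩
    rw [← hμ a.1 a.2 b.1 b.2 hnc]
    have h1 := card_filter_val D (fun y => Commute a.1 y ∧ Commute b.1 y)
    rw [show Mu D a.1 b.1 = {y : G | y ∈ D ∧ (Commute a.1 y ∧ Commute b.1 y)} from rfl, ← h1]
    congr 1
    ext u
    simp only [Finset.mem_filter, Finset.mem_univ, true_and]
    constructor
    · rintro ⟨⟨-, h1⟩, ⟨-, h2⟩⟩
      exact ⟨h1, h2⟩
    · rintro ⟨h1, h2⟩
      refine ⟨⟨?_, h1⟩, ⟨?_, h2⟩⟩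
      · rintro rfl
        exact hnc h2.symm
      · rintro rfl
        exact hnc h1
  · rw [hcard]
    exact hev
  · rw [hcard]
    exact hcount

end Cfsg.Agent.Lib.Helper97.DxDELTASQ
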