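import Mathlib
import Cfsg.Agent.Lib.Helper41.EMStmt
import Cfsg.Agent.Lib.Helper41.TMStmt
import Cfsg.Agent.Lib.Helper97.SiegelMinusTwo
import Cfsg.Agent.Lib.Helper33.HPC2DER
import Cfsg.Agent.Lib.Helper77.OPPFIXA

/-!
# S5990 piece C2DER (minus form, characteristic 2, `d` odd, `4 ∣ m`)

`x` = the Siegel involution of rank `d - 1` of `Helper97.SiegelMinusTwo.siegel_minus`.
For an invariant nondegenerate `W` with complement `Y` (hypothesis `TMStmt.Perp`):
`2 ρ_W ≤ dim W`, `2 ρ_Y ≤ dim Y`, `ρ_W + ρ_Y ≥ d - 1`, `ρ_W` even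
(`Helper33.HPC2DER.even_rank_alt`), so `4 ∣ dim W` forces `2 ρ_W = dim W`: `W` is of plus type.
-/

set_option autoImplicit false
set_option maxHeartbeats 400000

namespace Cfsg.Agent.Lib.Helper97.EMC2DER

open Module QuadraticMap
open Cfsg.Agent.Lib.Helper44.QSpace Cfsg.Agent.Lib.Helper44.NegPairs
open Cfsg.Agent.Lib.Helper44.WittND Cfsg.Agent.Lib.Helper44.WittND2
open Cfsg.Agent.Lib.Helper45.OMiStmt (M Aniso FxM NDegM StabM)
open Cfsg.Agent.Lib.Helper41.EMStmt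

universe u

theorem main (hPerp : Cfsg.Agent.Lib.Helper41.TMStmt.Perp.{u}) : C2Der.{u} := by
  intro F _ _ a₀ b₀ hab _ d m hd hodd hm hm4 hmd
  obtain ⟨k, hk⟩ := hodd
  obtain ⟨x, hxΩ, hxx, hns, -, -, hQ0, hrk⟩ :=
    Cfsg.Agent.Lib.Helper97.SiegelMinusTwo.siegel_minus (F := F) (d - 1) (d - 1) a₀ b₀ hab
      ⟨k, by omega⟩ (by omega) le_rfl
  have hx : x ∈ Cfsg.isometryGroup F (Cfsg.quadFormMinus (d - 1) F a₀ b₀) := by
    unfold Cfsg.Geo.omegaGL at hxΩ
    obtain ⟨y, _, rfl⟩ := Subgroup.mem_map.mp hxΩ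
    exact y.2
  refine ⟨x, hxΩ, hxx, hns, ?_⟩
  intro W hWE hStab
  obtain ⟨hWm, hND, hnp⟩ := hWE
  apply hnp
  obtain ⟨Y₀, hWY₀, hNDY₀, hinf₀, hdim₀, hYst₀⟩ := hPerp F a₀ b₀ hab d (by omega) W hND
  obtain ⟨Y, hYdef⟩ : ∃ Y : Submodule F (M d → F), Y = Y₀ := ⟨Y₀, rfl⟩
  have hNDY : NDegM d F a₀ b₀ Y := by
    rw [hYdef]
    exact hNDY₀
  have hinf : W ⊓ Y = ⊥ := by
    rw [hYdef]
    exact hinf₀
  have hdim : finrank F ↥W + finrank F ↥Y = 2 * d := by
    rw [hYdef]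
    exact hdim₀
  have hStabY : StabM (x : Matrix (M d) (M d) F) Y := by
    rw [hYdef]
    exact hYst₀ x hx hStab
  obtain ⟨N, hNdef⟩ : ∃ N : (M d → F) →ₗ[F] (M d → F),
      N = (Matrix.toLin' (x : Matrix (M d) (M d) F) - LinearMap.id :
        (M d → F) →ₗ[F] (M d → F)) := ⟨_, rfl⟩
  rw [← hNdef] at hQ0 hrk
  have hNap : ∀ v, N v = Matrix.toLin' (x : Matrix (M d) (M d) F) v - v := by
    intro v
    rw [hNdef, LinearMap.sub_apply, LinearMap.id_apply]
  have hstab : ∀ (U : Submodule F (M d → F)), StabM (x : Matrix (M d) (M d) F) U →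
      U.map N ≤ U := by
    intro U hU t ht
    obtain ⟨w, hw, rfl⟩ := Submodule.mem_map.mp ht
    rw [hNap]
    exact U.sub_mem (hU (Submodule.mem_map_of_mem hw)) hw
  have hsing : ∀ (U : Submodule F (M d → F)), ∀ t ∈ U.map N, minusQ (d - 1) F a₀ b₀ t = 0 := by
    intro U t ht
    obtain ⟨w, -, rfl⟩ := Submodule.mem_map.mp ht
    exact hQ0 w
  have hnd : ∀ (U : Submodule F (M d → F)), NDegM d F a₀ b₀ U →
      NDsub (minusQ (d - 1) F a₀ b₀) U := by
    intro U hU y hy hyz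
    by_contra hy0
    obtain ⟨-, z, hz, hz0⟩ := hU y hy hy0
    exact hz0 (hyz z hz)
  have h1 : 2 * finrank F ↥(W.map N) ≤ finrank F ↥W :=
    Cfsg.Agent.Lib.Helper77.OPPFIXA.ts_half (minusQ (d - 1) F a₀ b₀) (hnd W hND)
      (hstab W hStab) (hsing W)
  have h2 : 2 * finrank F ↥(Y.map N) ≤ finrank F ↥Y :=
    Cfsg.Agent.Lib.Helper77.OPPFIXA.ts_half (minusQ (d - 1) F a₀ b₀) (hnd Y hNDY)
      (hstab Y hStabY) (hsing Y)
  have hV : finrank F (M d → F) = 2 * d := by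
    rw [Module.finrank_fintype_fun_eq_card, Fintype.card_sum, Fintype.card_sum, Fintype.card_fin,
      Fintype.card_fin]
    omega
  have hsup : W ⊔ Y = ⊤ := by
    apply Submodule.eq_top_of_finrank_eq
    have h3 := Submodule.finrank_sup_add_finrank_inf_eq W Y
    rw [hinf, finrank_bot] at h3
    omega
  have hle : LinearMap.range N ≤ W.map N ⊔ Y.map N := by
    rintro t ht1
    obtain ⟨v, rfl⟩ := LinearMap.mem_range.mp ht1
    have hv : v ∈ W ⊔ Y := by rw [hsup]; exact Submodule.mem_top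
    obtain ⟨w, hw, w', hw', rfl⟩ := Submodule.mem_sup.mp hv
    rw [map_add]
    exact Submodule.add_mem_sup (Submodule.mem_map_of_mem hw) (Submodule.mem_map_of_mem hw')
  have hd1 : finrank F ↥(LinearMap.range N) ≤ finrank F ↥(W.map N ⊔ Y.map N) :=
    Submodule.finrank_mono hle
  have hd2 : finrank F ↥(W.map N ⊔ Y.map N) ≤ finrank F ↥(W.map N) + finrank F ↥(Y.map N) :=
    Submodule.finrank_add_le_finrank_add_finrank (W.map N) (Y.map N)
  have halt : ∀ u ∈ W, polar (minusQ (d - 1) F a₀ b₀) (N u) u = 0 := by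
    intro u _
    have e1 : minusQ (d - 1) F a₀ b₀ (u + N u) = minusQ (d - 1) F a₀ b₀ u
        + minusQ (d - 1) F a₀ b₀ (N u) + polar (minusQ (d - 1) F a₀ b₀) u (N u) :=
      QuadraticMap.map_add (minusQ (d - 1) F a₀ b₀) u (N u)
    have e2 : minusQ (d - 1) F a₀ b₀ (u + N u) = minusQ (d - 1) F a₀ b₀ u := by
      have e3 : u + N u = Matrix.toLin' (x : Matrix (M d) (M d) F) u := by
        rw [hNap]; abel
      rw [e3, Matrix.toLin'_apply]
      exact hx u u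
    have e4 : minusQ (d - 1) F a₀ b₀ (N u) = 0 := hQ0 u
    rw [polar_comm]
    rw [e2, e4] at e1
    linear_combination -e1
  have hev : Even (finrank F ↥(W.map N)) :=
    Cfsg.Agent.Lib.Helper33.HPC2DER.even_rank_alt (minusQ (d - 1) F a₀ b₀) N W (hnd W hND)
      (fun w hw => hstab W hStab (Submodule.mem_map_of_mem hw)) halt
  obtain ⟨j, hj⟩ := hev
  have hrk' : finrank F ↥(LinearMap.range N) = d - 1 := hrk
  have hkey : 2 * finrank F ↥(W.map N) = finrank F ↥W := by omega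
  exact ⟨W.map N, hstab W hStab, hsing W, hkey⟩

end Cfsg.Agent.Lib.Helper97.EMC2DER
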