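import Mathlib
import Cfsg.Agent.Lib.Helper37.EluStmt

/-!
# S5958 piece LINEDEC (helper97): from the generators of [CYCGEN] with `c = r - 1` and `s ≤ m`
to a decomposition into lines permuted by `φ`.
-/

set_option autoImplicit false

namespace Cfsg.Agent.Lib.Helper97.EluLINEDEC

open Cfsg.Agent.Lib.Helper37.EluStmt

universe u

theorem main : LineDec.{u} := by
  intro F _ V _ _ _ φ r hr hr0 hφr m s v u hsm hdim hv hu hspan t ht
  classical
  -- `φ` is injective
  have hφinj : Function.Injective φ := by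
    have h : (φ ^ (r - 1)) * φ = 1 := by
      rw [← pow_succ, Nat.sub_add_cancel hr.one_le, hφr]
    exact Function.LeftInverse.injective (g := (φ ^ (r - 1)))
      (fun x => by have := congrArg (fun f : Module.End F V => f x) h; simpa using this)
  have hpowv : ∀ (j : ℕ) (i : Fin m), (φ ^ j) (v i) = v i := by
    intro j i
    induction j with
    | zero => simp
    | succ j ih => rw [pow_succ, Module.End.mul_apply, hv, ih]
  have hpowmod : ∀ (j : ℕ) (w : V), (φ ^ j) w = (φ ^ (j % r)) w := by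
    intro j w
    rw [pow_eq_pow_mod j hφr]
  -- the index type and the basis
  obtain ⟨b, hbl, hbr⟩ : ∃ b : (Fin s × Fin r) ⊕ Fin (m - s) → V,
      (∀ (i : Fin s) (j : Fin r), b (Sum.inl (i, j)) = (φ ^ (j : ℕ)) (u i + v (Fin.castLE hsm i))) ∧
      (∀ k : Fin (m - s), b (Sum.inr k) = v ⟨s + k, by have := k.2; omega⟩) :=
    ⟨Sum.elim (fun ij => (φ ^ (ij.2 : ℕ)) (u ij.1 + v (Fin.castLE hsm ij.1)))
      (fun k => v ⟨s + k, by have := k.2; omega⟩), fun i j => rfl, fun k => rfl⟩
  obtain ⟨π, hπl, hπr⟩ : ∃ π : (Fin s × Fin r) ⊕ Fin (m - s) → (Fin s × Fin r) ⊕ Fin (m - s),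
      (∀ (i : Fin s) (j : Fin r), π (Sum.inl (i, j)) =
        Sum.inl (i, ⟨((j : ℕ) + 1) % r, Nat.mod_lt _ hr.pos⟩)) ∧
      (∀ k : Fin (m - s), π (Sum.inr k) = Sum.inr k) :=
    ⟨Sum.elim (fun ij => Sum.inl (ij.1, ⟨((ij.2 : ℕ) + 1) % r, Nat.mod_lt _ hr.pos⟩))
      (fun k => Sum.inr k), fun i j => rfl, fun k => rfl⟩
  have hπinj : Function.Injective π := by
    rintro (⟨i, j⟩ | k) (⟨i', j'⟩ | k') h
    · rw [hπl, hπl] at h
      have h1 := Sum.inl.inj h
      have h2 : i = i' := (Prod.mk.inj h1).1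
      have h3 : ((j : ℕ) + 1) % r = ((j' : ℕ) + 1) % r := congrArg Fin.val (Prod.mk.inj h1).2
      have h4 : (j : ℕ) ≡ (j' : ℕ) [MOD r] := Nat.ModEq.add_right_cancel' 1 h3
      have h5 : (j : ℕ) = (j' : ℕ) := Nat.ModEq.eq_of_lt_of_lt h4 j.2 j'.2
      rw [h2, Fin.ext h5]
    · rw [hπl, hπr] at h
      exact absurd h (by simp)
    · rw [hπl, hπr] at h
      exact absurd h (by simp)
    · rw [hπr, hπr] at h
      exact h
  have hxb : ∀ x, φ (b x) = (1 : F) • b (π x) := by
    rintro (⟨i, j⟩ | k)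
    · rw [hπl, hbl, hbl, one_smul, ← Module.End.mul_apply, ← pow_succ']
      exact hpowmod _ _
    · rw [hπr, hbr, one_smul, hv]
  -- the span
  have hvmem : ∀ i : Fin m, v i ∈ Submodule.span F (Set.range b) := by
    intro i
    by_cases hi : (i : ℕ) < s
    · have e1 : i = Fin.castLE hsm ⟨i, hi⟩ := Fin.ext rfl
      have h1 : ∑ j : Fin r, b (Sum.inl ((⟨i, hi⟩ : Fin s), j)) = (r : F) • v i := by
        have h2 : ∑ j : Fin r, b (Sum.inl ((⟨i, hi⟩ : Fin s), j)) =
            ∑ j ∈ Finset.range r, (φ ^ j) (u ⟨i, hi⟩ + v i) := by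
          rw [← Fin.sum_univ_eq_sum_range (fun j => (φ ^ j) (u ⟨i, hi⟩ + v i)) r]
          refine Finset.sum_congr rfl (fun j _ => ?_)
          rw [hbl, ← e1]
        rw [h2]
        simp only [map_add, Finset.sum_add_distrib, hu, zero_add, hpowv, Finset.sum_const,
          Finset.card_range]
        rw [Nat.cast_smul_eq_nsmul]
      have h3 : (r : F) • v i ∈ Submodule.span F (Set.range b) := by
        rw [← h1]
        exact Submodule.sum_mem _ (fun j _ => Submodule.subset_span ⟨_, rfl⟩)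
      have h4 := Submodule.smul_mem _ (r : F)⁻¹ h3
      rwa [smul_smul, inv_mul_cancel₀ hr0, one_smul] at h4
    · have hk : (i : ℕ) - s < m - s := by have := i.2; omega
      have e1 : i = ⟨s + ((⟨(i : ℕ) - s, hk⟩ : Fin (m - s)) : ℕ), by
          have := i.2; show s + ((i : ℕ) - s) < m; omega⟩ := by
        apply Fin.ext
        show (i : ℕ) = s + ((i : ℕ) - s)
        omega
      rw [e1, ← hbr]
      exact Submodule.subset_span ⟨_, rfl⟩
  have hspanb : Submodule.span F (Set.range b) = ⊤ := by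
    rw [eq_top_iff, ← hspan, Submodule.span_le]
    rintro x (⟨i, rfl⟩ | ⟨⟨i, j⟩, rfl⟩)
    · exact hvmem i
    · show (φ ^ (j : ℕ)) (u i) ∈ Submodule.span F (Set.range b)
      have h1 : (φ ^ (j : ℕ)) (u i) = b (Sum.inl (i, j)) - v (Fin.castLE hsm i) := by
        rw [hbl, map_add, hpowv, add_sub_cancel_right]
      rw [h1]
      exact Submodule.sub_mem _ (Submodule.subset_span ⟨_, rfl⟩) (hvmem _)
  -- cardinality
  have hcard : Fintype.card ((Fin s × Fin r) ⊕ Fin (m - s)) = Module.finrank F V := by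
    rw [Fintype.card_sum, Fintype.card_prod, Fintype.card_fin, Fintype.card_fin, Fintype.card_fin,
      ← hdim]
    have h1 : s * r = (r - 1) * s + s := by
      have h0 : r - 1 + 1 = r := Nat.sub_add_cancel hr.one_le
      calc s * r = s * (r - 1 + 1) := by rw [h0]
        _ = (r - 1) * s + s := by ring
    omega
  have hli : LinearIndependent F b :=
    linearIndependent_of_top_le_span_of_card_eq_finrank hspanb.ge hcard
  obtain ⟨e⟩ : Nonempty (Fin t ≃ ((Fin s × Fin r) ⊕ Fin (m - s))) :=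
    ⟨(Fintype.equivFinOfCardEq (hcard.trans ht.symm)).symm⟩
  exact of_blocks φ hφinj b π (fun _ => 1) hli hspanb hπinj hxb 1 t le_rfl (fun k => {e k})
    (fun k => Finset.card_singleton _)
    (fun k l hkl => Finset.disjoint_singleton.mpr (fun h => hkl (e.injective h)))
    (fun i => ⟨e.symm i, by simp⟩)
    (fun k => ⟨e.symm (π (e k)), by simp⟩)

end Cfsg.Agent.Lib.Helper97.EluLINEDEC
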