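import Mathlib
import Cfsg.Agent.Lib.Helper37.EluStmt
import Cfsg.Agent.Lib.Helper40.InvDims

/-!
# S5958 piece PEEL (helper97): a semisimple endomorphism whose characteristic polynomial is
`(X - 1) ^ E * ∏ M`, all members of `M` monic of degree `c`, with `a = c b + l`,
`E = t l + c J`, `J + |M| = t b`, has a decomposition into `t` invariant subspaces of dimension
`a`.  Induction on `t`, peeling off one invariant subspace of dimension `a` at a time.
-/

set_option autoImplicit false

namespace Cfsg.Agent.Lib.Helper97.EluPEEL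

open Polynomial Cfsg.Agent.Lib.Helper37.EluStmt Cfsg.Agent.Lib.Helper40.InvDims
  Cfsg.Agent.Lib.Helper40.SSConj

universe u

/-- degree of `(X - 1) ^ n * ∏ M` -/
theorem natDegree_shape {F : Type u} [Field F] (c n : ℕ) (M : Multiset F[X])
    (hM : ∀ P ∈ M, P.Monic ∧ P.natDegree = c) :
    ((X - C (1 : F)) ^ n * M.prod).Monic ∧
      ((X - C (1 : F)) ^ n * M.prod).natDegree = n + c * Multiset.card M := by
  have h1 : ((X - C (1 : F)) ^ n).Monic := (monic_X_sub_C 1).pow n
  have h2 : M.prod.Monic := by
    have := monic_multiset_prod_of_monic M id (fun P hP => (hM P hP).1)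
    rwa [Multiset.map_id] at this
  refine ⟨h1.mul h2, ?_⟩
  rw [h1.natDegree_mul h2, (monic_X_sub_C (1 : F)).natDegree_pow, natDegree_X_sub_C, mul_one,
    natDegree_multiset_prod_of_monic M (fun P hP => (hM P hP).1)]
  congr 1
  rw [Multiset.map_congr rfl (fun P hP => (hM P hP).2), Multiset.map_const', Multiset.sum_replicate,
    smul_eq_mul, mul_comm]

theorem peel_aux {F : Type u} [Field F] (c a b l : ℕ) (hab : a = c * b + l) :
    ∀ (t : ℕ) (V : Type u) [AddCommGroup V] [Module F V] [FiniteDimensional F V]
      (φ : Module.End F V), φ.IsSemisimple → ∀ (E J : ℕ) (M : Multiset F[X]),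
      φ.charpoly = (X - C 1) ^ E * M.prod → (∀ P ∈ M, P.Monic ∧ P.natDegree = c) →
      E = t * l + c * J → J + Multiset.card M = t * b →
      ∃ D : Fin t → Submodule F V, (∀ j, ∀ v ∈ D j, φ v ∈ D j) ∧
        (∀ j, Module.finrank F (D j) = a) ∧ iSupIndep D ∧ iSup D = ⊤ := by
  classical
  intro t
  induction t with
  | zero =>
    intro V _ _ _ φ hs E J M hchar hM hE hJ
    have hJ0 : J = 0 := by omega
    have hM0 : M = 0 := Multiset.card_eq_zero.mp (by omega)
    have hE0 : E = 0 := by rw [hE, hJ0]; simp
    have hfr : Module.finrank F V = 0 := by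
      rw [← LinearMap.charpoly_natDegree φ, hchar, hE0, hM0]
      simp
    have hsub : Subsingleton V := Module.finrank_zero_iff.mp hfr
    refine ⟨fun j => j.elim0, fun j => j.elim0, fun j => j.elim0, fun j => j.elim0, ?_⟩
    exact Subsingleton.elim _ _
  | succ t ih =>
    intro V _ _ _ φ hs E J M hchar hM hE hJ
    -- the first summand
    obtain ⟨J1, hJ1def⟩ : ∃ J1 : ℕ, J1 = min J b := ⟨_, rfl⟩
    have hJ1J : J1 ≤ J := by rw [hJ1def]; exact min_le_left _ _
    have hJ1b : J1 ≤ b := by rw [hJ1def]; exact min_le_right _ _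
    have hsucc : (t + 1) * b = t * b + b := by ring
    have hsuccl : (t + 1) * l = t * l + l := by ring
    have hbM : b - J1 ≤ Multiset.card M := by
      rcases le_total J b with h | h
      · have : J1 = J := by rw [hJ1def]; exact min_eq_left h
        omega
      · have : J1 = b := by rw [hJ1def]; exact min_eq_right h
        omega
    obtain ⟨M1, hM1le, hM1card⟩ := exists_le_card M (b - J1) hbM
    have hM1 : ∀ P ∈ M1, P.Monic ∧ P.natDegree = c := fun P hP => hM P (Multiset.mem_of_le hM1le hP)
    have hcJ : c * (J - J1) + c * J1 = c * J := by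
      rw [← Nat.mul_add, Nat.sub_add_cancel hJ1J]
    have hcb : c * J1 + c * (b - J1) = c * b := by
      rw [← Nat.mul_add, Nat.add_sub_cancel' hJ1b]
    have hle : l + c * J1 ≤ E := by omega
    obtain ⟨hD1mon, hD1deg⟩ := natDegree_shape c (l + c * J1) M1 hM1
    have hdvd : (X - C (1 : F)) ^ (l + c * J1) * M1.prod ∣ φ.charpoly := by
      rw [hchar]
      exact mul_dvd_mul (pow_dvd_pow _ hle) (Multiset.prod_dvd_prod_of_le hM1le)
    obtain ⟨W, hW, hassoc⟩ := exists_invt_of_dvd (Module.finrank F V) φ rfl hs _ hdvd
    have hWchar : (LinearMap.restrict φ hW).charpoly = (X - C (1 : F)) ^ (l + c * J1) * M1.prod :=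
      eq_of_monic_of_associated (LinearMap.charpoly_monic _) hD1mon hassoc
    have hWfr : Module.finrank F W = a := by
      rw [← LinearMap.charpoly_natDegree (LinearMap.restrict φ hW), hWchar, hD1deg, hM1card]
      omega
    -- the complement
    obtain ⟨W', hW', hc⟩ := (Module.End.isSemisimple_iff.mp hs) W hW
    have hmul := charpoly_eq_mul φ W W' hW hW' hc
    have hM' : ∀ P ∈ M - M1, P.Monic ∧ P.natDegree = c :=
      fun P hP => hM P (Multiset.mem_of_le (Multiset.sub_le_self M M1) hP)
    have hW'char : (LinearMap.restrict φ hW').charpoly =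
        (X - C (1 : F)) ^ (E - (l + c * J1)) * (M - M1).prod := by
      have h1 : φ.charpoly = ((X - C (1 : F)) ^ (l + c * J1) * M1.prod) *
          ((X - C (1 : F)) ^ (E - (l + c * J1)) * (M - M1).prod) := by
        rw [hchar]
        have h2 : M = M1 + (M - M1) := (add_tsub_cancel_of_le hM1le).symm
        have h3 : E = (l + c * J1) + (E - (l + c * J1)) := by omega
        conv_lhs => rw [h2, h3, Multiset.prod_add, pow_add]
        ring
      rw [hmul, hWchar] at h1
      exact mul_left_cancel₀ hD1mon.ne_zero h1
    have hs' : Module.End.IsSemisimple (LinearMap.restrict φ hW') :=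
      Module.End.IsSemisimple.restrict hW' hs
    have hE' : E - (l + c * J1) = t * l + c * (J - J1) := by omega
    have hJ' : (J - J1) + Multiset.card (M - M1) = t * b := by
      rw [Multiset.card_sub hM1le, hM1card]
      omega
    obtain ⟨D', hD'inv, hD'fr, hD'ind, hD'top⟩ :=
      ih W' (LinearMap.restrict φ hW') hs' (E - (l + c * J1)) (J - J1) (M - M1) hW'char hM' hE' hJ'
    have hWinv : ∀ v ∈ W, φ v ∈ W := fun v hv => (Module.End.mem_invtSubmodule φ).mp hW hv
    have hWW' : W ⊓ W' = ⊥ := hc.inf_eq_bot
    refine ⟨Fin.cons W (fun j => (D' j).map W'.subtype), ?_, ?_, ?_, ?_⟩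
    · intro j
      refine Fin.cases ?_ (fun k => ?_) j
      · intro v hv
        rw [Fin.cons_zero] at hv ⊢
        exact hWinv v hv
      · intro v hv
        rw [Fin.cons_succ] at hv ⊢
        obtain ⟨w, hw, rfl⟩ := hv
        exact ⟨LinearMap.restrict φ hW' w, hD'inv k w hw, rfl⟩
    · intro j
      refine Fin.cases ?_ (fun k => ?_) j
      · rw [Fin.cons_zero]
        exact hWfr
      · rw [Fin.cons_succ, Submodule.finrank_map_subtype_eq]
        exact hD'fr k
    · intro j
      refine Fin.cases ?_ (fun k => ?_) j
      · rw [Fin.cons_zero]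
        have h1 : (⨆ (i : Fin (t + 1)) (_ : i ≠ 0),
            (Fin.cons W (fun j => (D' j).map W'.subtype) : Fin (t + 1) → Submodule F V) i) ≤ W' := by
          refine iSup₂_le (fun i hi => ?_)
          revert hi
          refine Fin.cases ?_ (fun k => ?_) i
          · intro hi
            exact absurd rfl hi
          · intro _
            rw [Fin.cons_succ]
            exact Submodule.map_subtype_le _ _
        exact hc.disjoint.mono_right h1
      · rw [Fin.cons_succ]
        have h1 : (⨆ (i : Fin (t + 1)) (_ : i ≠ k.succ),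
            (Fin.cons W (fun j => (D' j).map W'.subtype) : Fin (t + 1) → Submodule F V) i) ≤
            W ⊔ (⨆ (k' : Fin t) (_ : k' ≠ k), D' k').map W'.subtype := by
          refine iSup₂_le (fun i hi => ?_)
          revert hi
          refine Fin.cases ?_ (fun k' => ?_) i
          · intro _
            rw [Fin.cons_zero]
            exact le_sup_left
          · intro hi
            rw [Fin.cons_succ]
            have hk' : k' ≠ k := fun h => hi (by rw [h])
            exact le_trans (Submodule.map_mono (le_iSup₂ (f := fun (k' : Fin t) (_ : k' ≠ k) => D' k')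
              k' hk')) le_sup_right
        rw [Submodule.disjoint_def]
        intro x hx hx2
        obtain ⟨x0, hx0, rfl⟩ := hx
        obtain ⟨w, hw, y, hy, hwy⟩ := Submodule.mem_sup.mp (h1 hx2)
        obtain ⟨y0, hy0, rfl⟩ := hy
        have hw' : w ∈ W' := by
          have e : w = W'.subtype x0 - W'.subtype y0 := by rw [← hwy]; abel
          rw [e]
          exact W'.sub_mem x0.2 y0.2
        have hw0 : w = 0 := by
          have : w ∈ W ⊓ W' := ⟨hw, hw'⟩
          rw [hWW'] at this
          exact (Submodule.mem_bot F).mp this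
        rw [hw0, zero_add] at hwy
        have hxy : y0 = x0 := Subtype.ext hwy
        rw [hxy] at hy0
        have h2 : x0 ∈ D' k ⊓ ⨆ (k' : Fin t) (_ : k' ≠ k), D' k' := ⟨hx0, hy0⟩
        rw [(hD'ind k).eq_bot] at h2
        have h3 : x0 = 0 := (Submodule.mem_bot F).mp h2
        rw [h3]
        rfl
    · rw [eq_top_iff, ← hc.sup_eq_top]
      apply sup_le
      · exact le_iSup_of_le 0 (by rw [Fin.cons_zero])
      · have h1 : (⨆ k, D' k).map W'.subtype = W' := by
          rw [hD'top, Submodule.map_subtype_top]
        have h2 : (⨆ k, D' k).map W'.subtype ≤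
            iSup (Fin.cons W (fun j => (D' j).map W'.subtype) : Fin (t + 1) → Submodule F V) := by
          rw [Submodule.map_iSup]
          refine iSup_le (fun k => ?_)
          exact le_iSup_of_le k.succ (by rw [Fin.cons_succ])
        exact le_of_eq_of_le h1.symm h2

theorem main : Peel.{u} := by
  intro F _ V _ _ _ φ hs c a t b l E J M hchar hM hab hE hJ
  exact peel_aux c a b l hab t V φ hs E J M hchar hM hE hJ

end Cfsg.Agent.Lib.Helper97.EluPEEL
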