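import Mathlib
import Cfsg.Agent.Lib.Helper24.ExStmt

/-!
# S5877 piece CASEB (helper97): the coprime case, from the pieces BASA, EIG, INN, KEY, SYMP
-/

set_option autoImplicit false

namespace Cfsg.Agent.Lib.Helper97.ExCASEB

open Cfsg Cfsg.Agent.Lib.Helper24.ExStmt

universe u

theorem main (hBA : BasA.{u}) (hEig : EigBound.{u}) (hInn : Inner.{u}) (hKey : Key.{u})
    (hSymp : SympCoprime.{u}) : CaseB.{u} := by
  intro F _ _ n r R S g hg hns ϖ hϖ hord h2 hne c
  obtain ⟨hcent, hcomm, hpow⟩ := hBA F n r R S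
  have hr2 : 2 ≤ r := S.hr.two_le
  by_cases hK : ∃ y ∈ R ⊔ Sc n F, ∃ i : ℕ,
      cm y g * (g ^ i * cm y g * (g ^ i)⁻¹) ≠ (g ^ i * cm y g * (g ^ i)⁻¹) * cm y g
  · obtain ⟨y, hy, i, hyi⟩ := hK
    exact hKey F n r R S g hg y hy i hyi c
  · push Not at hK
    -- scalars are central
    have hsc : ∀ z ∈ Sc n F, ∀ h : GLn n F, z * h = h * z := by
      rintro _ ⟨s, rfl⟩ h
      apply Units.ext
      show Matrix.scalar (Fin n) (s : F) * (h : Matrix (Fin n) (Fin n) F) =
        (h : Matrix (Fin n) (Fin n) F) * Matrix.scalar (Fin n) (s : F)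
      exact (Matrix.scalar_commute (s : F) (fun _ => Commute.all _ _) _).eq
    have hnorm : ∀ h ∈ R ⊔ Sc n F, g * h * g⁻¹ ∈ R ⊔ Sc n F := by
      intro h hh
      exact (Subgroup.mem_normalizer_iff.mp hg h).mp hh
    have hgz : ∀ z ∈ Sc n F, g * z * g⁻¹ = z := by
      intro z hz
      rw [← hsc z hz g, mul_assoc, mul_inv_cancel, mul_one]
    have hgϖ : g ^ ϖ = 1 := by rw [← hord]; exact pow_orderOf_eq_one g
    have hodd : Odd ϖ := hϖ.odd_of_ne_two h2
    have hcop : Nat.Coprime ϖ r := (Nat.coprime_primes hϖ S.hr).mpr hne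
    have key := hSymp (GLn n F) (R ⊔ Sc n F) (Sc n F) g ϖ r le_sup_right
      (fun z hz h _ => hsc z hz h) (fun a ha b hb => (hcomm a ha b hb).1) hpow hcop hodd hgϖ
      hnorm hgz hK
    have hgR : g ∈ R ⊔ Sc n F := by
      apply hInn F n r R S g
      intro y hy
      apply hcent
      intro x hx
      exact key y (Subgroup.mem_sup_left hy) x (Subgroup.mem_sup_left hx)
    have h1 := hEig F n r R S g hgR hns c
    calc 2 * eDim g c ≤ r * eDim g c := Nat.mul_le_mul_right _ hr2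
      _ ≤ n := h1

end Cfsg.Agent.Lib.Helper97.ExCASEB
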