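import Mathlib
import Cfsg.Agent.Lib.Helper24.ExStmt

/-!
# S5877 piece TWO (helper97): `orderOf g = r`, a non-scalar `a' ∈ R` commuting with `g` and `a''`
commuting with `a'` with `g a'' g⁻¹ = a' a''` give `r² d ≤ (2 r - 1) n`.

Pure linear algebra core `two_core`: the `c`-eigenspace `W` of `g` is the sum of the
`W ⊓ V_j`, `V_j` the `ζ^j`-eigenspace of `a'`; `dim V_j ≤ n / r`, and for `j ≠ 0` the powers of
`a''` carry `W ⊓ V_j` into the `r` independent subspaces `V_j ⊓ ker (g - ζ^(j k) c)`.
-/

set_option autoImplicit false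

namespace Cfsg.Agent.Lib.Helper97.ExTWO

open Cfsg Cfsg.Agent.Lib.Helper24.ExStmt

universe u

section linalg

variable {K : Type*} {V : Type*} [Field K] [AddCommGroup V] [Module K V]

theorem finrank_sup_le_sum [FiniteDimensional K V] {ι : Type*} (f : ι → Submodule K V)
    (s : Finset ι) :
    Module.finrank K ↥(s.sup f) ≤ ∑ i ∈ s, Module.finrank K ↥(f i) := by
  classical
  induction s using Finset.induction_on with
  | empty => simp
  | insert a s ha ih =>
    rw [Finset.sup_insert, Finset.sum_insert ha]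
    exact (Submodule.finrank_add_le_finrank_add_finrank _ _).trans (Nat.add_le_add_left ih _)

theorem sum_finrank_le_of_indep [FiniteDimensional K V] {ι : Type*} (f : ι → Submodule K V)
    (hf : iSupIndep f) (U : Submodule K V) (hU : ∀ i, f i ≤ U) (s : Finset ι) :
    ∑ i ∈ s, Module.finrank K ↥(f i) ≤ Module.finrank K ↥U := by
  classical
  have key : ∑ i ∈ s, Module.finrank K ↥(f i) = Module.finrank K ↥(s.sup f) := by
    induction s using Finset.induction_on with
    | empty =>
      rw [Finset.sum_empty, Finset.sup_empty]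
      exact (finrank_bot K V).symm
    | insert a s ha ih =>
      rw [Finset.sum_insert ha, Finset.sup_insert, ih]
      have hd : Disjoint (f a) (s.sup f) :=
        (hf.supIndep' (insert a s)) (Finset.subset_insert a s) (Finset.mem_insert_self a s) ha
      have h1 := Submodule.finrank_sup_add_finrank_inf_eq (f a) (s.sup f)
      rw [disjoint_iff.mp hd] at h1
      simpa using h1.symm
  rw [key]
  exact Submodule.finrank_mono (Finset.sup_le (fun i _ => hU i))

theorem decomp (r : ℕ) (hr : r.Prime) (ζ : K) (hζ : IsPrimitiveRoot ζ r)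
    (A G : Module.End K V) (hAr : A ^ r = 1) (hGA : G * A = A * G) (c : K)
    (v : V) (hv : v ∈ Module.End.eigenspace G c) :
    v ∈ (Finset.range r).sup
      (fun j => Module.End.eigenspace A (ζ ^ j) ⊓ Module.End.eigenspace G c) := by
  classical
  have : NeZero r := ⟨hr.ne_zero⟩
  have hr0 : (r : K) ≠ 0 := (hζ.neZero').ne
  obtain ⟨ξ, hξdef⟩ : ∃ ξ : K, ξ = ζ ^ (r - 1) := ⟨_, rfl⟩
  have hξζ : ξ * ζ = 1 := by
    rw [hξdef, ← pow_succ, Nat.sub_add_cancel hr.one_le, hζ.pow_eq_one]
  have hξr : ξ ^ r = 1 := by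
    rw [hξdef, ← pow_mul, mul_comm, pow_mul, hζ.pow_eq_one, one_pow]
  have hGv : G v = c • v := Module.End.mem_eigenspace_iff.mp hv
  have hGAi : ∀ i : ℕ, G ((A ^ i) v) = c • (A ^ i) v := by
    intro i
    have h1 : G * A ^ i = A ^ i * G := (Commute.pow_right (show Commute G A from hGA) i).eq
    have h2 : G ((A ^ i) v) = (A ^ i) (G v) := by
      have := congrArg (fun f : Module.End K V => f v) h1
      simpa using this
    rw [h2, hGv, map_smul]
  obtain ⟨p, hp⟩ : ∃ p : ℕ → V, ∀ j, p j = ∑ i ∈ Finset.range r, (ξ ^ (i * j)) • (A ^ i) v :=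
    ⟨fun j => ∑ i ∈ Finset.range r, (ξ ^ (i * j)) • (A ^ i) v, fun j => rfl⟩
  have hp1 : ∀ j, A (p j) = ζ ^ j • p j := by
    intro j
    obtain ⟨g, hg⟩ : ∃ g : ℕ → V, ∀ i, g i = (ζ ^ j * ξ ^ (i * j)) • (A ^ i) v :=
      ⟨fun i => (ζ ^ j * ξ ^ (i * j)) • (A ^ i) v, fun i => rfl⟩
    have e1 : A (p j) = ∑ i ∈ Finset.range r, g (i + 1) := by
      rw [hp, map_sum]
      refine Finset.sum_congr rfl (fun i _ => ?_)
      rw [map_smul, hg, pow_succ' A i, Module.End.mul_apply]
      congr 1
      have h : ζ ^ j * ξ ^ ((i + 1) * j) = ξ ^ (i * j) := by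
        calc ζ ^ j * ξ ^ ((i + 1) * j) = ξ ^ (i * j) * (ξ * ζ) ^ j := by ring
          _ = ξ ^ (i * j) := by rw [hξζ, one_pow, mul_one]
      exact h.symm
    have e2 : ζ ^ j • p j = ∑ i ∈ Finset.range r, g i := by
      rw [hp, Finset.smul_sum]
      refine Finset.sum_congr rfl (fun i _ => ?_)
      rw [hg, smul_smul]
    have e3 : g r = g 0 := by
      have hx : ξ ^ (r * j) = 1 := by rw [pow_mul, hξr, one_pow]
      rw [hg r, hg 0, hAr, hx, zero_mul, pow_zero, pow_zero]
    have e4 := Finset.sum_range_succ g r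
    have e5 := Finset.sum_range_succ' g r
    rw [e1, e2]
    rw [e5, e3] at e4
    exact add_right_cancel e4
  have hp2 : ∀ j, G (p j) = c • p j := by
    intro j
    rw [hp, map_sum, Finset.smul_sum]
    refine Finset.sum_congr rfl (fun i _ => ?_)
    rw [map_smul, hGAi, smul_comm]
  have hsum : ∑ j ∈ Finset.range r, p j = (r : K) • v := by
    have e1 : ∑ j ∈ Finset.range r, p j =
        ∑ i ∈ Finset.range r, (∑ j ∈ Finset.range r, ξ ^ (i * j)) • (A ^ i) v := by
      simp only [hp]
      rw [Finset.sum_comm]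
      refine Finset.sum_congr rfl (fun i _ => ?_)
      rw [Finset.sum_smul]
    rw [e1, Finset.sum_eq_single_of_mem 0 (Finset.mem_range.mpr hr.pos)]
    · simp
    · intro i hi hi0
      have hi' : i < r := Finset.mem_range.mp hi
      have hx1 : ξ ^ i ≠ 1 := by
        intro h
        have h' : ζ ^ i = 1 := by
          calc ζ ^ i = (ξ * ζ) ^ i := by rw [mul_pow, h, one_mul]
            _ = 1 := by rw [hξζ, one_pow]
        exact hζ.pow_ne_one_of_pos_of_lt hi0 hi' h'
      have hxr : (ξ ^ i) ^ r = 1 := by rw [← pow_mul, mul_comm, pow_mul, hξr, one_pow]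
      have hz : ∑ j ∈ Finset.range r, ξ ^ (i * j) = 0 := by
        have h1 := mul_geom_sum (ξ ^ i) r
        rw [hxr, sub_self] at h1
        have h2 : ∑ j ∈ Finset.range r, (ξ ^ i) ^ j = 0 :=
          (mul_eq_zero.mp h1).resolve_left (sub_ne_zero.mpr hx1)
        rw [← h2]
        exact Finset.sum_congr rfl (fun j _ => pow_mul ξ i j)
      rw [hz, zero_smul]
  have hv' : v = (r : K)⁻¹ • ∑ j ∈ Finset.range r, p j := by
    rw [hsum, smul_smul, inv_mul_cancel₀ hr0, one_smul]
  rw [hv']
  refine Submodule.smul_mem _ _ (Submodule.sum_mem _ (fun j hj => ?_))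
  have hmem : p j ∈ Module.End.eigenspace A (ζ ^ j) ⊓ Module.End.eigenspace G c :=
    ⟨Module.End.mem_eigenspace_iff.mpr (hp1 j), Module.End.mem_eigenspace_iff.mpr (hp2 j)⟩
  exact (Finset.le_sup
    (f := fun j => Module.End.eigenspace A (ζ ^ j) ⊓ Module.End.eigenspace G c) hj) hmem

theorem two_core [FiniteDimensional K V] (r : ℕ) (hr : r.Prime) (ζ : K)
    (hζ : IsPrimitiveRoot ζ r) (A G B : Module.End K V) (hB : Function.Injective B)
    (hG : Function.Injective G) (hAr : A ^ r = 1) (hGA : G * A = A * G) (hAB : A * B = B * A)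
    (hGB : G * B = A * B * G) (m : ℕ)
    (hE : ∀ μ : K, r * Module.finrank K ↥(Module.End.eigenspace A μ) ≤ m) (c : K) :
    r ^ 2 * Module.finrank K ↥(Module.End.eigenspace G c) ≤ (2 * r - 1) * m := by
  classical
  by_cases hc : c = 0
  · have h0 : Module.End.eigenspace G c = ⊥ := by
      rw [hc, Module.End.eigenspace_zero]
      exact LinearMap.ker_eq_bot.mpr hG
    rw [h0]
    simp
  obtain ⟨E, hEdef⟩ : ∃ E : ℕ → Submodule K V,
      ∀ j, E j = Module.End.eigenspace A (ζ ^ j) ⊓ Module.End.eigenspace G c :=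
    ⟨fun j => Module.End.eigenspace A (ζ ^ j) ⊓ Module.End.eigenspace G c, fun j => rfl⟩
  have h1 : Module.finrank K ↥(Module.End.eigenspace G c) ≤
      ∑ j ∈ Finset.range r, Module.finrank K ↥(E j) := by
    refine le_trans (Submodule.finrank_mono ?_) (finrank_sup_le_sum E (Finset.range r))
    intro v hv
    have h := decomp r hr ζ hζ A G hAr hGA c v hv
    have hfun : (fun j => Module.End.eigenspace A (ζ ^ j) ⊓ Module.End.eigenspace G c) = E :=
      funext (fun j => (hEdef j).symm)
    rwa [hfun] at h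
  have h3 : r * Module.finrank K ↥(E 0) ≤ m := by
    refine le_trans (Nat.mul_le_mul_left r (Submodule.finrank_mono ?_)) (hE (ζ ^ 0))
    rw [hEdef]
    exact inf_le_left
  have h4 : ∀ j, 0 < j → j < r → r * (r * Module.finrank K ↥(E j)) ≤ m := by
    intro j hj0 hjr
    have hmap : ∀ k : ℕ, ∀ v ∈ E j, (B ^ k) v ∈
        Module.End.eigenspace A (ζ ^ j) ⊓ Module.End.eigenspace G (ζ ^ (j * k) * c) := by
      intro k
      induction k with
      | zero =>
        intro v hv
        rw [hEdef] at hv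
        simpa using hv
      | succ k ih =>
        intro v hv
        have ha : (B ^ k) v ∈ Module.End.eigenspace A (ζ ^ j) := (ih v hv).1
        have hg : (B ^ k) v ∈ Module.End.eigenspace G (ζ ^ (j * k) * c) := (ih v hv).2
        rw [Module.End.mem_eigenspace_iff] at ha hg
        have hAB' : A (B ((B ^ k) v)) = B (A ((B ^ k) v)) := by
          have := congrArg (fun f : Module.End K V => f ((B ^ k) v)) hAB
          simpa using this
        have hGB' : G (B ((B ^ k) v)) = A (B (G ((B ^ k) v))) := by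
          have := congrArg (fun f : Module.End K V => f ((B ^ k) v)) hGB
          simpa using this
        have e : (B ^ (k + 1)) v = B ((B ^ k) v) := by rw [pow_succ', Module.End.mul_apply]
        rw [e]
        have hA1 : A (B ((B ^ k) v)) = ζ ^ j • B ((B ^ k) v) := by rw [hAB', ha, map_smul]
        refine ⟨Module.End.mem_eigenspace_iff.mpr hA1, Module.End.mem_eigenspace_iff.mpr ?_⟩
        rw [hGB', hg, map_smul, map_smul, hA1, smul_smul]
        congr 1
        ring
    have hdim : ∀ k : ℕ, Module.finrank K ↥(E j) ≤ Module.finrank K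
        ↥(Module.End.eigenspace A (ζ ^ j) ⊓ Module.End.eigenspace G (ζ ^ (j * k) * c)) := by
      intro k
      have hBk : Function.Injective (B ^ k) := by
        rw [Module.End.coe_pow]
        exact hB.iterate k
      exact LinearMap.finrank_le_finrank_of_injective (f := (B ^ k).restrict (hmap k))
        (fun x y hxy => Subtype.ext (hBk (congrArg Subtype.val hxy)))
    have hindep : iSupIndep
        (fun μ : K => Module.End.eigenspace A (ζ ^ j) ⊓ Module.End.eigenspace G μ) :=
      (Module.End.eigenspaces_iSupIndep G).mono (fun μ => inf_le_right)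
    have hprim : IsPrimitiveRoot (ζ ^ j) r :=
      hζ.pow_of_coprime j (Nat.coprime_of_lt_prime hj0.ne' hjr hr).symm
    have hinj : ∀ k ∈ Finset.range r, ∀ l ∈ Finset.range r,
        ζ ^ (j * k) * c = ζ ^ (j * l) * c → k = l := by
      intro k hk l hl hkl
      have hk' : k < r := Finset.mem_range.mp hk
      have hl' : l < r := Finset.mem_range.mp hl
      have h5 : (ζ ^ j) ^ k = (ζ ^ j) ^ l := by
        have h6 := mul_right_cancel₀ hc hkl
        rwa [pow_mul, pow_mul] at h6
      exact hprim.pow_inj hk' hl' h5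
    have hsum := sum_finrank_le_of_indep _ hindep (Module.End.eigenspace A (ζ ^ j))
      (fun μ => inf_le_left) ((Finset.range r).image (fun k : ℕ => ζ ^ (j * k) * c))
    rw [Finset.sum_image (fun k hk l hl h => hinj k hk l hl h)] at hsum
    have h5 : r * Module.finrank K ↥(E j) ≤
        Module.finrank K ↥(Module.End.eigenspace A (ζ ^ j)) := by
      refine le_trans ?_ hsum
      calc r * Module.finrank K ↥(E j) = ∑ k ∈ Finset.range r, Module.finrank K ↥(E j) := by
            simp
        _ ≤ _ := Finset.sum_le_sum (fun k _ => hdim k)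
    exact le_trans (Nat.mul_le_mul_left r h5) (hE (ζ ^ j))
  obtain ⟨r', rfl⟩ : ∃ r', r = r' + 1 := ⟨r - 1, (Nat.sub_add_cancel hr.one_le).symm⟩
  rw [Finset.sum_range_succ'] at h1
  have h6 : (r' + 1) ^ 2 * ∑ j ∈ Finset.range r', Module.finrank K ↥(E (j + 1)) ≤ r' * m := by
    rw [Finset.mul_sum]
    calc ∑ j ∈ Finset.range r', (r' + 1) ^ 2 * Module.finrank K ↥(E (j + 1))
        ≤ ∑ j ∈ Finset.range r', m :=
          Finset.sum_le_sum (fun j hj => by
            have h := h4 (j + 1) (Nat.succ_pos j) (by have := Finset.mem_range.mp hj; omega)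
            calc (r' + 1) ^ 2 * Module.finrank K ↥(E (j + 1))
                = (r' + 1) * ((r' + 1) * Module.finrank K ↥(E (j + 1))) := by ring
              _ ≤ m := h)
      _ = r' * m := by simp
  have h7 : (r' + 1) ^ 2 * Module.finrank K ↥(E 0) ≤ (r' + 1) * m := by
    calc (r' + 1) ^ 2 * Module.finrank K ↥(E 0)
        = (r' + 1) * ((r' + 1) * Module.finrank K ↥(E 0)) := by ring
      _ ≤ (r' + 1) * m := Nat.mul_le_mul_left _ h3
  calc (r' + 1) ^ 2 * Module.finrank K ↥(Module.End.eigenspace G c)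
      ≤ (r' + 1) ^ 2 * (∑ j ∈ Finset.range r', Module.finrank K ↥(E (j + 1)) +
          Module.finrank K ↥(E 0)) := Nat.mul_le_mul_left _ h1
    _ = (r' + 1) ^ 2 * ∑ j ∈ Finset.range r', Module.finrank K ↥(E (j + 1)) +
          (r' + 1) ^ 2 * Module.finrank K ↥(E 0) := by ring
    _ ≤ r' * m + (r' + 1) * m := Nat.add_le_add h6 h7
    _ = (2 * (r' + 1) - 1) * m := by
        have h8 : 2 * (r' + 1) - 1 = r' + (r' + 1) := by omega
        rw [h8]
        ring

end linalg

theorem main (hBA : BasA.{u}) (hBB : BasB.{u}) (hEig : EigBound.{u}) : Two.{u} := by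
  intro F _ _ n r R S hodd g a' a'' hord ha' ha's hcomm hga' hga'' c
  classical
  rcases Nat.eq_zero_or_pos n with hn | hn
  · subst hn
    have h0 : eDim g c = 0 := by
      unfold eDim
      have h := Submodule.finrank_le
        (Module.End.eigenspace (Matrix.toLin' (g : Matrix (Fin 0) (Fin 0) F)) c)
      simpa using h
    rw [h0]
    simp
  obtain ⟨hcent, -, -⟩ := hBA F n r R S
  obtain ⟨-, -, hpowR, -⟩ := hBB F n r R S
  have hr : r.Prime := S.hr
  -- a primitive `r`-th root of unity
  obtain ⟨ζ, hζ⟩ : ∃ ζ : F, IsPrimitiveRoot ζ r := by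
    have hcard : Nat.card (Subgroup.center R) = r := S.hZ
    have : Finite (Subgroup.center R) :=
      Nat.finite_of_card_ne_zero (by rw [hcard]; exact hr.ne_zero)
    have hnt : Nontrivial (Subgroup.center R) :=
      Finite.one_lt_card_iff_nontrivial.mp (by rw [hcard]; exact hr.one_lt)
    obtain ⟨z, hz1⟩ := exists_ne (1 : Subgroup.center R)
    have hzR : ((z : R) : GLn n F) ∈ R := (z : R).2
    have hzc : ∀ y ∈ R, ((z : R) : GLn n F) * y = y * ((z : R) : GLn n F) := by
      intro y hy
      have h := Subgroup.mem_center_iff.mp z.2 ⟨y, hy⟩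
      exact (congrArg Subtype.val h).symm
    obtain ⟨s, hs⟩ := (Cfsg.Geo.mem_scalars_iff _).mp (hcent _ hzc)
    have hzr : (((z : R) : GLn n F)) ^ r = 1 := hpowR hodd _ hzR
    have hm : ((s : F) • (1 : Matrix (Fin n) (Fin n) F)) ^ r = 1 := by
      rw [← hs, ← Units.val_pow_eq_pow_val, hzr]
      rfl
    rw [smul_pow, one_pow] at hm
    have hsr : (s : F) ^ r = 1 := by
      have h := congrFun (congrFun hm ⟨0, hn⟩) ⟨0, hn⟩
      simpa using h
    have hs1 : (s : F) ≠ 1 := by
      intro h
      apply hz1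
      apply Subtype.ext
      apply Subtype.ext
      apply Units.ext
      rw [hs, h, one_smul]
      rfl
    have hord' : orderOf (s : F) = r := by
      have h1 : orderOf (s : F) ∣ r := orderOf_dvd_of_pow_eq_one hsr
      rcases (Nat.dvd_prime hr).mp h1 with h | h
      · exact absurd (orderOf_eq_one_iff.mp h) hs1
      · exact h
    exact ⟨(s : F), hord' ▸ IsPrimitiveRoot.orderOf (s : F)⟩
  have hAr : (Matrix.toLin' (a' : Matrix (Fin n) (Fin n) F) : Module.End F (Fin n → F)) ^ r = 1 := by
    rw [← Matrix.toLin'_pow, ← Units.val_pow_eq_pow_val, hpowR hodd a' ha', Units.val_one,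
      Matrix.toLin'_one]
    rfl
  have hGA : (Matrix.toLin' (g : Matrix (Fin n) (Fin n) F) : Module.End F (Fin n → F)) *
      Matrix.toLin' (a' : Matrix (Fin n) (Fin n) F) =
      Matrix.toLin' (a' : Matrix (Fin n) (Fin n) F) *
        Matrix.toLin' (g : Matrix (Fin n) (Fin n) F) := by
    rw [Module.End.mul_eq_comp, Module.End.mul_eq_comp, ← Matrix.toLin'_mul, ← Matrix.toLin'_mul,
      ← Units.val_mul, ← Units.val_mul, hga']
  have hAB : (Matrix.toLin' (a' : Matrix (Fin n) (Fin n) F) : Module.End F (Fin n → F)) *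
      Matrix.toLin' (a'' : Matrix (Fin n) (Fin n) F) =
      Matrix.toLin' (a'' : Matrix (Fin n) (Fin n) F) *
        Matrix.toLin' (a' : Matrix (Fin n) (Fin n) F) := by
    rw [Module.End.mul_eq_comp, Module.End.mul_eq_comp, ← Matrix.toLin'_mul, ← Matrix.toLin'_mul,
      ← Units.val_mul, ← Units.val_mul, hcomm]
  have hga3 : g * a'' = a' * a'' * g := by
    rw [← hga'']
    group
  have hGB : (Matrix.toLin' (g : Matrix (Fin n) (Fin n) F) : Module.End F (Fin n → F)) *
      Matrix.toLin' (a'' : Matrix (Fin n) (Fin n) F) =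
      Matrix.toLin' (a' : Matrix (Fin n) (Fin n) F) *
        Matrix.toLin' (a'' : Matrix (Fin n) (Fin n) F) *
        Matrix.toLin' (g : Matrix (Fin n) (Fin n) F) := by
    rw [Module.End.mul_eq_comp, Module.End.mul_eq_comp, Module.End.mul_eq_comp,
      ← Matrix.toLin'_mul, ← Matrix.toLin'_mul, ← Matrix.toLin'_mul,
      ← Units.val_mul, ← Units.val_mul, ← Units.val_mul, hga3]
  have hinjU : ∀ u : GLn n F, Function.Injective
      (Matrix.toLin' (u : Matrix (Fin n) (Fin n) F) : Module.End F (Fin n → F)) := by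
    intro u
    have h : Matrix.toLin' ((u⁻¹ : GLn n F) : Matrix (Fin n) (Fin n) F) ∘ₗ
        Matrix.toLin' (u : Matrix (Fin n) (Fin n) F) = LinearMap.id := by
      rw [← Matrix.toLin'_mul, ← Units.val_mul, inv_mul_cancel, Units.val_one, Matrix.toLin'_one]
    exact Function.LeftInverse.injective
      (g := Matrix.toLin' ((u⁻¹ : GLn n F) : Matrix (Fin n) (Fin n) F))
      (fun v => by have := LinearMap.congr_fun h v; simpa using this)
  have hE : ∀ μ : F, r * Module.finrank F
      ↥(Module.End.eigenspace (Matrix.toLin' (a' : Matrix (Fin n) (Fin n) F)) μ) ≤ n :=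
    fun μ => hEig F n r R S a' (Subgroup.mem_sup_left ha') ha's μ
  exact two_core r hr ζ hζ _ _ _ (hinjU a'') (hinjU g) hAr hGA hAB hGB n hE c

end Cfsg.Agent.Lib.Helper97.ExTWO
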