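import Mathlib
import Cfsg.Agent.Lib.Helper98.CExt
import Cfsg.Agent.Lib.Helper98.SplitN
import Cfsg.Agent.Lib.Helper98.Torus

set_option autoImplicit false

/-!
# Symbols of commuting elementary matrices in a central extension of `SL_n(F)` (helper97)

Additivity of `kap (x_ij a) (x_kl b)` for commuting root elements, the action of a torus
element, and the vanishing of the symbol when a torus element fixes one root subgroup and
moves the other.
-/

open scoped commutatorElement

namespace Cfsg.Agent.Lib.Helper97.KapTorus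

open Matrix
open Cfsg.Agent.Lib.Helper98.CExt Cfsg.Agent.Lib.Helper98.StN Cfsg.Agent.Lib.Helper98.SplitN
  Cfsg.Agent.Lib.Helper98.Torus

variable {n : ℕ} {F : Type*} [Field F] {Y : Type*} [Group Y]
  (φ : Y →* Matrix.SpecialLinearGroup (Fin n) F) (hφ : Function.Surjective φ)
  (hc : φ.ker ≤ Subgroup.center Y)

include hc in
lemma kap_add_left {i j k l : Fin n} (hij : i ≠ j) (hkl : k ≠ l) (hil : i ≠ l) (hjk : j ≠ k)
    (a a' b : F) :
    kap φ hφ (SpecialLinearGroup.transvection hij (a + a'))
        (SpecialLinearGroup.transvection hkl b) =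
      kap φ hφ (SpecialLinearGroup.transvection hij a) (SpecialLinearGroup.transvection hkl b) *
        kap φ hφ (SpecialLinearGroup.transvection hij a')
          (SpecialLinearGroup.transvection hkl b) := by
  rw [← tv_add hij a a']
  exact kap_mul_left φ hc hφ (tv_comm hij hkl hil hjk a' b)

include hc in
lemma kap_add_right {i j k l : Fin n} (hij : i ≠ j) (hkl : k ≠ l) (hil : i ≠ l) (hjk : j ≠ k)
    (a b b' : F) :
    kap φ hφ (SpecialLinearGroup.transvection hij a)
        (SpecialLinearGroup.transvection hkl (b + b')) =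
      kap φ hφ (SpecialLinearGroup.transvection hij a) (SpecialLinearGroup.transvection hkl b) *
        kap φ hφ (SpecialLinearGroup.transvection hij a)
          (SpecialLinearGroup.transvection hkl b') := by
  rw [← tv_add hkl b b']
  exact kap_mul_right φ hc hφ (tv_comm hij hkl hil hjk a b')

include hc in
/-- conjugation of a symbol by a lift of a diagonal matrix -/
lemma conj_kap_dg (d : Fin n → F) (hd : ∏ m, d m = 1) {w : Y} (hw : φ w = dg d hd)
    {i j k l : Fin n} (hij : i ≠ j) (hkl : k ≠ l) (a b : F) :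
    w * kap φ hφ (SpecialLinearGroup.transvection hij a)
        (SpecialLinearGroup.transvection hkl b) * w⁻¹ =
      kap φ hφ (SpecialLinearGroup.transvection hij (d i * (d j)⁻¹ * a))
        (SpecialLinearGroup.transvection hkl (d k * (d l)⁻¹ * b)) := by
  rw [conj_kap φ hc hφ, hw, dg_conj, dg_conj]

include hc in
/-- the symbol of two commuting root elements vanishes when a torus element fixes the first
root subgroup and moves the second -/
theorem kap_eq_one_of_torus [Finite F] {i j k l : Fin n} (hij : i ≠ j) (hkl : k ≠ l)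
    (hil : i ≠ l) (hjk : j ≠ k) (d : Fin n → F) (hd : ∏ m, d m = 1) (h1 : d i = d j)
    (h2 : d k ≠ d l) (a b : F) :
    kap φ hφ (SpecialLinearGroup.transvection hij a)
      (SpecialLinearGroup.transvection hkl b) = 1 := by
  obtain ⟨w, hw⟩ := hφ (dg d hd)
  have hl0 := dg_ne_zero d hd l
  have hk0 := dg_ne_zero d hd k
  have hj0 := dg_ne_zero d hd j
  refine principle (fun b => kap φ hφ (SpecialLinearGroup.transvection hij a)
      (SpecialLinearGroup.transvection hkl b))
    (fun b b' => kap_add_right φ hφ hc hij hkl hil hjk a b b') (d k * (d l)⁻¹)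
    (mul_ne_zero hk0 (inv_ne_zero hl0)) ?_ ?_ b
  · intro h
    apply h2
    have h' : d k * (d l)⁻¹ * d l = 1 * d l := by rw [h]
    rwa [inv_mul_cancel_right₀ hl0, one_mul] at h'
  · intro ν
    have h := conj_kap_dg φ hφ hc d hd hw hij hkl a ν
    rw [h1, mul_inv_cancel₀ hj0, one_mul] at h
    show kap φ hφ (SpecialLinearGroup.transvection hij a)
      (SpecialLinearGroup.transvection hkl (d k * (d l)⁻¹ * ν)) = _
    rw [← h]
    have hz := kap_comm_all φ hc hφ (tv_comm hij hkl hil hjk a ν) w
    rw [hz]
    group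

include hφ hc in
/-- lifts of two commuting root elements commute when a torus element fixes the first root
subgroup and moves the second -/
theorem comm_of_torus [Finite F] {i j k l : Fin n} (hij : i ≠ j) (hkl : k ≠ l)
    (hil : i ≠ l) (hjk : j ≠ k) (d : Fin n → F) (hd : ∏ m, d m = 1) (h1 : d i = d j)
    (h2 : d k ≠ d l) (a b : F) {y₁ y₂ : Y}
    (hy₁ : φ y₁ = SpecialLinearGroup.transvection hij a)
    (hy₂ : φ y₂ = SpecialLinearGroup.transvection hkl b) : y₁ * y₂ = y₂ * y₁ :=
  commute_of_kap φ hc hφ (kap_eq_one_of_torus φ hφ hc hij hkl hil hjk d hd h1 h2 a b) hy₁ hy₂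

include hφ hc in
/-- the same with the roles exchanged -/
theorem comm_of_torus' [Finite F] {i j k l : Fin n} (hij : i ≠ j) (hkl : k ≠ l)
    (hil : i ≠ l) (hjk : j ≠ k) (d : Fin n → F) (hd : ∏ m, d m = 1) (h1 : d k = d l)
    (h2 : d i ≠ d j) (a b : F) {y₁ y₂ : Y}
    (hy₁ : φ y₁ = SpecialLinearGroup.transvection hij a)
    (hy₂ : φ y₂ = SpecialLinearGroup.transvection hkl b) : y₁ * y₂ = y₂ * y₁ :=
  (comm_of_torus φ hφ hc hkl hij hjk.symm hil.symm d hd h1 h2 b a hy₂ hy₁).symm

/-- a nonzero element of a finite field whose `k`-th power is not one -/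
lemma exists_pow_ne_one {K : Type*} [Field K] [Fintype K] (k : ℕ)
    (hk : ¬ (Fintype.card K - 1 ∣ k)) : ∃ e : K, e ≠ 0 ∧ e ^ k ≠ 1 := by
  classical
  obtain ⟨g, hg⟩ : IsCyclic Kˣ := inferInstance
  refine ⟨g, Units.ne_zero g, fun h => hk ?_⟩
  have h1 : g ^ k = 1 := Units.ext (by simpa using h)
  have h2 : orderOf g = Nat.card Kˣ := orderOf_eq_card_of_forall_mem_zpowers hg
  rw [Nat.card_eq_fintype_card, Fintype.card_units] at h2
  rw [← h2]
  exact orderOf_dvd_of_pow_eq_one h1

end Cfsg.Agent.Lib.Helper97.KapTorus
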