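import Mathlib
import Cfsg.Agent.Lib.Helper98.CExt
import Cfsg.Agent.Lib.Helper98.SplitN
import Cfsg.Agent.Lib.Helper98.Torus
import Cfsg.Agent.Lib.Helper97.KapTorus

set_option autoImplicit false

/-!
# Lifts of root elements on four distinct indices commute in `SL_4(F)`, `|F| ≠ 2` (helper97)

`f1_four`: for a surjection `φ : Y →* SL_4(F)` with central kernel, lifts of `x_ij(t)` and
`x_kl(v)` with `i, j, k, l` distinct commute.  For `|F| ≥ 4` a torus element does it; for
`|F| = 3` two identities for the symbol are compared.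
-/

open scoped commutatorElement

namespace Cfsg.Agent.Lib.Helper97.F1Four

open Matrix
open Cfsg.Agent.Lib.Helper98.CExt Cfsg.Agent.Lib.Helper98.StN Cfsg.Agent.Lib.Helper98.SplitN
  Cfsg.Agent.Lib.Helper98.Torus Cfsg.Agent.Lib.Helper97.KapTorus

/-- group identity -/
lemma comm_conj {G : Type*} [Group G] (w y z : G) :
    ⁅w, ⁅y, z⁆⁆ = ⁅w * y * w⁻¹, w * z * w⁻¹⁆ * ⁅y, z⁆⁻¹ := by
  simp only [commutatorElement_def]; group

lemma comm_mul_left' {G : Type*} [Group G] (y c z : G) (h : ∀ g, g * ⁅c, z⁆ = ⁅c, z⁆ * g) :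
    ⁅y * c, z⁆ = ⁅c, z⁆ * ⁅y, z⁆ := by
  calc ⁅y * c, z⁆ = y * ⁅c, z⁆ * y⁻¹ * ⁅y, z⁆ := by simp only [commutatorElement_def]; group
    _ = ⁅c, z⁆ * y * y⁻¹ * ⁅y, z⁆ := by rw [h y]
    _ = ⁅c, z⁆ * ⁅y, z⁆ := by group

section general

variable {n : ℕ} {F : Type*} [Field F] {Y : Type*} [Group Y]
  (φ : Y →* Matrix.SpecialLinearGroup (Fin n) F) (hφ : Function.Surjective φ)
  (hc : φ.ker ≤ Subgroup.center Y)

include hc in
lemma identA {i j k l : Fin n} (hij : i ≠ j) (hkl : k ≠ l) (hil : i ≠ l)
    (hjk : j ≠ k) (hjl : j ≠ l) (m a b : F) :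
    kap φ hφ (SpecialLinearGroup.transvection hkl m)
        (SpecialLinearGroup.transvection hij (a * b)) =
      kap φ hφ (SpecialLinearGroup.transvection hil a)
        (SpecialLinearGroup.transvection hjk.symm (m * b)) := by
  have hlj : l ≠ j := hjl.symm
  have hkj : k ≠ j := hjk.symm
  obtain ⟨w, hw⟩ := hφ (SpecialLinearGroup.transvection hkl m)
  obtain ⟨y, hy⟩ := hφ (SpecialLinearGroup.transvection hil a)
  obtain ⟨z, hz⟩ := hφ (SpecialLinearGroup.transvection hlj b)
  obtain ⟨c, hcc⟩ := hφ (SpecialLinearGroup.transvection hkj (m * b))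
  have hyz : φ ⁅y, z⁆ = SpecialLinearGroup.transvection hij (a * b) := by
    rw [map_commutatorElement, hy, hz, tv_bracket hil hlj hij]
  rw [kap_eq' φ hc hφ hw hyz, kap_eq' φ hc hφ hy hcc, comm_conj]
  have e1 : φ (w * y * w⁻¹) = φ y := by
    rw [map_mul, map_mul, map_inv, hw, hy, tv_comm hkl hil hkl hil.symm m a,
      mul_inv_cancel_right]
  have e2 : φ (w * z * w⁻¹) = φ (c * z) := by
    rw [map_mul, map_mul, map_inv, map_mul, hw, hz, hcc, ← tv_comm3 hkl hlj hkj m b]
    group
  have e3 : ⁅w * y * w⁻¹, w * z * w⁻¹⁆ = ⁅y, c * z⁆ := comm_congr φ hc e1 e2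
  have e4 : c * ⁅y, z⁆ = ⁅y, z⁆ * c :=
    comm_of_extra φ hφ hc hkj hij hkj hij.symm hkl.symm hlj hil.symm hlj (m * b) (a * b)
      hcc hyz
  rw [e3, comm_mul_right y c z e4]
  group

include hc in
lemma identB {i j k l : Fin n} (hij : i ≠ j) (hkl : k ≠ l) (hik : i ≠ k) (hil : i ≠ l)
    (hjk : j ≠ k) (m a b : F) :
    kap φ hφ (SpecialLinearGroup.transvection hkl m)
        (SpecialLinearGroup.transvection hij (a * b)) =
      kap φ hφ (SpecialLinearGroup.transvection hil (-(a * m)))
        (SpecialLinearGroup.transvection hjk.symm b) := by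
  have hkj : k ≠ j := hjk.symm
  obtain ⟨w, hw⟩ := hφ (SpecialLinearGroup.transvection hkl m)
  obtain ⟨y, hy⟩ := hφ (SpecialLinearGroup.transvection hik a)
  obtain ⟨z, hz⟩ := hφ (SpecialLinearGroup.transvection hkj b)
  obtain ⟨c, hcc⟩ := hφ (SpecialLinearGroup.transvection hil (-(a * m)))
  have hyz : φ ⁅y, z⁆ = SpecialLinearGroup.transvection hij (a * b) := by
    rw [map_commutatorElement, hy, hz, tv_bracket hik hkj hij]
  rw [kap_eq' φ hc hφ hw hyz, kap_eq' φ hc hφ hcc hz, comm_conj]
  have e2 : φ (w * z * w⁻¹) = φ z := by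
    rw [map_mul, map_mul, map_inv, hw, hz, tv_comm hkl hkj hkj hkl.symm m b,
      mul_inv_cancel_right]
  have e1 : φ (w * y * w⁻¹) = φ (y * c) := by
    rw [map_mul, map_mul, map_inv, map_mul, hw, hy, hcc,
      ← tv_comm hil hik hik hil.symm (-(a * m)) a, ← SpecialLinearGroup.transvection_inv,
      ← tv_comm3 hik hkl hil a m]
    group
  have e3 : ⁅w * y * w⁻¹, w * z * w⁻¹⁆ = ⁅y * c, z⁆ := comm_congr φ hc e1 e2
  have hz' : ∀ g, g * ⁅c, z⁆ = ⁅c, z⁆ * g := by
    intro g
    have h := kap_comm_all φ hc hφ (tv_comm hil hkj hij hkl.symm (-(a * m)) b) g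
    rwa [kap_eq' φ hc hφ hcc hz] at h
  rw [e3, comm_mul_left' y c z hz']
  group

include hc in
/-- in odd characteristic the symbol on four distinct indices vanishes -/
theorem kap_eq_one_of_two_ne_zero (h2 : (2 : F) ≠ 0) {i j k l : Fin n} (hij : i ≠ j)
    (hkl : k ≠ l) (hik : i ≠ k) (hil : i ≠ l) (hjk : j ≠ k) (hjl : j ≠ l) (m a : F) :
    kap φ hφ (SpecialLinearGroup.transvection hkl m)
      (SpecialLinearGroup.transvection hij a) = 1 := by
  have hkj : k ≠ j := hjk.symm
  have hadd : ∀ x x' : F,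
      kap φ hφ (SpecialLinearGroup.transvection hil (x + x'))
          (SpecialLinearGroup.transvection hkj 1) =
        kap φ hφ (SpecialLinearGroup.transvection hil x)
            (SpecialLinearGroup.transvection hkj 1) *
          kap φ hφ (SpecialLinearGroup.transvection hil x')
            (SpecialLinearGroup.transvection hkj 1) :=
    fun x x' => kap_add_left φ hφ hc hil hkj hij hkl.symm x x' 1
  have h0 : kap φ hφ (SpecialLinearGroup.transvection hil (0 : F))
      (SpecialLinearGroup.transvection hkj 1) = 1 := by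
    have h := hadd 0 0
    rw [add_zero] at h
    exact mul_left_cancel (a := kap φ hφ (SpecialLinearGroup.transvection hil (0 : F))
      (SpecialLinearGroup.transvection hkj 1)) (by rw [mul_one]; exact h.symm)
  have hneg : ∀ x : F, kap φ hφ (SpecialLinearGroup.transvection hil x)
      (SpecialLinearGroup.transvection hkj 1) =
      kap φ hφ (SpecialLinearGroup.transvection hil (-x))
        (SpecialLinearGroup.transvection hkj 1) := by
    intro x
    have hA := identA φ hφ hc hij hkl hil hjk hjl 1 x 1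
    have hB := identB φ hφ hc hij hkl hik hil hjk 1 x 1
    simp only [mul_one] at hA hB
    rw [hA] at hB
    exact hB
  have hsq : ∀ x : F, kap φ hφ (SpecialLinearGroup.transvection hil x)
      (SpecialLinearGroup.transvection hkj 1) *
      kap φ hφ (SpecialLinearGroup.transvection hil x)
        (SpecialLinearGroup.transvection hkj 1) = 1 := by
    intro x
    have h := hadd x (-x)
    rw [add_neg_cancel, h0, ← hneg x] at h
    exact h.symm
  have hone : ∀ x : F, kap φ hφ (SpecialLinearGroup.transvection hil x)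
      (SpecialLinearGroup.transvection hkj 1) = 1 := by
    intro x
    have h := hadd (x / 2) (x / 2)
    have e : x / 2 + x / 2 = x := by rw [← add_div, ← two_mul, mul_div_cancel_left₀ x h2]
    rw [e] at h
    rw [h, hsq]
  have hB := identB φ hφ hc hij hkl hik hil hjk m a 1
  simp only [mul_one] at hB
  rw [hB]
  exact hone _

end general

lemma univ_four {i j k l : Fin 4} (hij : i ≠ j) (hik : i ≠ k) (hil : i ≠ l) (hjk : j ≠ k)
    (hjl : j ≠ l) (hkl : k ≠ l) : ({i, j, k, l} : Finset (Fin 4)) = Finset.univ := by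
  apply Finset.eq_univ_of_card
  rw [Finset.card_insert_of_notMem (by simp [hij, hik, hil]),
    Finset.card_insert_of_notMem (by simp [hjk, hjl]),
    Finset.card_insert_of_notMem (by simp [hkl]), Finset.card_singleton, Fintype.card_fin]

/-- **PD of S2086.** Lifts of root elements on four distinct indices of `SL_4(F)` commute. -/
theorem f1_four {F : Type*} [Field F] [Fintype F] (h2 : Fintype.card F ≠ 2)
    {Y : Type*} [Group Y] (φ : Y →* Matrix.SpecialLinearGroup (Fin 4) F)
    (hφ : Function.Surjective φ) (hc : φ.ker ≤ Subgroup.center Y)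
    (i j k l : Fin 4) (hij : i ≠ j) (hkl : k ≠ l) (hik : i ≠ k) (hil : i ≠ l) (hjk : j ≠ k)
    (hjl : j ≠ l) (t v : F) (y₁ y₂ : Y)
    (h1 : φ y₁ = Matrix.SpecialLinearGroup.transvection hij t)
    (h2p : φ y₂ = Matrix.SpecialLinearGroup.transvection hkl v) : y₁ * y₂ = y₂ * y₁ := by
  classical
  by_cases h4 : 4 ≤ Fintype.card F
  · obtain ⟨e, he0, he2⟩ := exists_pow_ne_one (K := F) 2 (fun hdvd => by
      have := Nat.le_of_dvd (by norm_num) hdvd
      omega)
    let d : Fin 4 → F := fun m => if m = i then e ^ 2 else if m = j then 1 else e⁻¹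
    have hdi : d i = e ^ 2 := if_pos rfl
    have hdj : d j = 1 := by simp [d, hij.symm]
    have hdk : d k = e⁻¹ := by simp [d, hik.symm, hjk.symm]
    have hdl : d l = e⁻¹ := by simp [d, hil.symm, hjl.symm]
    have hd : ∏ m, d m = 1 := by
      rw [← univ_four hij hik hil hjk hjl hkl, Finset.prod_insert (by simp [hij, hik, hil]),
        Finset.prod_insert (by simp [hjk, hjl]), Finset.prod_insert (by simp [hkl]),
        Finset.prod_singleton, hdi, hdj, hdk, hdl]
      field_simp
    exact comm_of_torus' φ hφ hc hij hkl hil hjk d hd (by rw [hdk, hdl])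
      (by rw [hdi, hdj]; exact he2) t v h1 h2p
  · have h3 : Fintype.card F = 3 := by
      have := Fintype.one_lt_card (α := F)
      omega
    have h2F : (2 : F) ≠ 0 := by
      intro h
      have hr : ringChar F = 2 :=
        CharP.ringChar_of_prime_eq_zero Nat.prime_two (by exact_mod_cast h)
      have := FiniteField.even_card_of_char_two hr
      omega
    exact (commute_of_kap φ hc hφ
      (kap_eq_one_of_two_ne_zero φ hφ hc h2F hij hkl hik hil hjk hjl v t) h2p h1).symm

end Cfsg.Agent.Lib.Helper97.F1Four
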