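import Mathlib
import Cfsg.Agent.Lib.Helper96.HallAltStmt
import Cfsg.Agent.S0144

set_option autoImplicit false

namespace Cfsg.Agent.Lib.Helper97.HAALPHA

open Equiv Cfsg.Agent.Lib.Helper96.HallSymStmt Cfsg.Agent.Lib.Helper96.HallAltStmt

theorem main : Cfsg.Agent.Lib.Helper96.HallAltStmt.ALPHA' := by
  intro hsyla hklein hpd hinv2 hinvc hpq Ω _ _ hprime h5 π M h2 hpπ hM hq
  have hMpos : 0 < Nat.card ↥M := Nat.card_pos
  have hdvdfact : Nat.card ↥M ∣ (Fintype.card Ω).factorial := by
    have := Subgroup.card_subgroup_dvd_card M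
    rw [Nat.card_eq_fintype_card (α := Perm Ω), Fintype.card_perm] at this
    exact this
  obtain ⟨a, b, hab⟩ := hpq (Nat.card ↥M) (Fintype.card Ω) hMpos hprime (by
    intro q hqp hqd
    exact hq q hqp (hM.2.1 q hqp hqd)
      ((Nat.Prime.dvd_factorial hqp).mp (hqd.trans hdvdfact)))
  have hsolv : Group.IsSolvable ↥M :=
    Cfsg.Agent.S0144.result 2 (Fintype.card Ω) a b Nat.prime_two hprime hab
  obtain ⟨c, hcM, hcyc, hcsupp⟩ :=
    hsyla Ω π M hM (Fintype.card Ω) hprime hpπ (by omega) le_rfl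
  have hPD := hpd Ω hprime M hsolv c hcM hcyc hcsupp
  obtain ⟨u, v, huM, hvM, hu1, hv1, huv, huu, hvv, hcomm⟩ := hklein Ω (by omega) π M h2 hM
  have hord : orderOf c = Fintype.card Ω := by rw [hcyc.orderOf, hcsupp]
  have hodd : Odd (Fintype.card Ω) := hprime.odd_of_ne_two (by omega)
  have key : ∀ w ∈ M, w * w = 1 → w ≠ 1 → w * c * w⁻¹ = c⁻¹ := by
    intro w hw hww hw1
    rcases hinv2 (Perm Ω) c w (Fintype.card Ω) hprime hord hww (hPD w hw) with h | h
    · exfalso
      apply hw1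
      apply hinvc Ω c w hcyc hcsupp hodd hww
      calc w * c = w * c * w⁻¹ * w := by group
        _ = c * w := by rw [h]
    · exact h
  have hu := key u huM huu hu1
  have hv := key v hvM hvv hv1
  have huvuv : (u * v) * (u * v) = 1 := by
    calc u * v * (u * v) = u * (v * u) * v := by group
      _ = u * (u * v) * v := by rw [hcomm]
      _ = (u * u) * (v * v) := by group
      _ = 1 := by rw [huu, hvv, one_mul]
  have huv1 : u * v ≠ 1 := by
    intro h
    apply huv
    calc u = u * (v * v) := by rw [hvv, mul_one]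
      _ = (u * v) * v := by group
      _ = v := by rw [h, one_mul]
  have huvc := key (u * v) (M.mul_mem huM hvM) huvuv huv1
  have h3 : u * v * c * (u * v)⁻¹ = c := by
    calc u * v * c * (u * v)⁻¹ = u * (v * c * v⁻¹) * u⁻¹ := by group
      _ = u * c⁻¹ * u⁻¹ := by rw [hv]
      _ = (u * c * u⁻¹)⁻¹ := by group
      _ = c := by rw [hu, inv_inv]
  rw [h3] at huvc
  have hc2 : c ^ 2 = 1 := by
    rw [pow_two]
    nth_rewrite 1 [huvc]
    exact inv_mul_cancel c
  have h4 := orderOf_dvd_of_pow_eq_one hc2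
  rw [hord] at h4
  have h6 := Nat.le_of_dvd (by norm_num) h4
  omega

end Cfsg.Agent.Lib.Helper97.HAALPHA
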