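import Mathlib
import Cfsg.Agent.Lib.Helper96.HallAltStmt

set_option autoImplicit false

namespace Cfsg.Agent.Lib.Helper97.HAC2

open Equiv Cfsg.Agent.Lib.Helper96.HallSymStmt Cfsg.Agent.Lib.Helper96.HallAltStmt

theorem main : Cfsg.Agent.Lib.Helper96.HallAltStmt.C2' := by
  intro hsyla hj3 halpha hsth htrf Ω _ _ π M h2 hM hprim hp hr
  obtain ⟨p, hpp, hp2, hpπ, hpn⟩ := hp
  obtain ⟨r, hrp, hrn, hrπ⟩ := hr
  have hr2 : r ≠ 2 := by rintro rfl; exact hrπ h2
  have hrp' : r ≠ p := by rintro rfl; exact hrπ hpπ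
  have hp3 : 3 ≤ p := by have := hpp.two_le; omega
  have hr3 : 3 ≤ r := by have := hrp.two_le; omega
  have hpodd : Odd p := hpp.odd_of_ne_two hp2
  have hrodd : Odd r := hrp.odd_of_ne_two hr2
  have hn5 : 5 ≤ Fintype.card Ω := by
    obtain ⟨i, hi⟩ := hpodd
    obtain ⟨j, hj⟩ := hrodd
    omega
  have star : ∀ q : ℕ, q.Prime → q ≠ 2 → q ∈ π → q ≤ Fintype.card Ω →
      Fintype.card Ω < q + 2 := by
    intro q hqp hq2 hqπ hqn
    by_contra hcon
    push Not at hcon
    obtain ⟨g, hgM, hgcyc, hgsupp⟩ := hsyla Ω π M hM q hqp hqπ hq2 hqn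
    have h3 : 3 ∣ Nat.card ↥M :=
      hj3 Ω M g hprim hgM hgcyc (by rw [hgsupp]; exact hqp) (by rw [hgsupp]; exact hcon)
    have h3π : 3 ∈ π := hM.2.1 3 Nat.prime_three h3
    obtain ⟨t, htM, htcyc, htsupp⟩ :=
      hsyla Ω π M hM 3 Nat.prime_three h3π (by norm_num) (by omega)
    have ht3 : t.IsThreeCycle := card_support_eq_three_iff.mp htsupp
    have hAle : alternatingGroup Ω ≤ M :=
      Perm.alternatingGroup_le_of_isPreprimitive_of_isThreeCycle_mem hprim ht3 htM
    have hMeq : M = alternatingGroup Ω := le_antisymm hM.1 hAle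
    apply hrπ
    apply hM.2.1 r hrp
    rw [hMeq]
    haveI : Nontrivial Ω := Fintype.one_lt_card_iff_nontrivial.mp (by omega)
    have h4 : 2 * Nat.card ↥(alternatingGroup Ω) = (Fintype.card Ω).factorial := by
      rw [Nat.card_eq_fintype_card, two_mul_card_alternatingGroup, Fintype.card_perm]
    have h5 : r ∣ 2 * Nat.card ↥(alternatingGroup Ω) := by
      rw [h4]; exact (Nat.Prime.dvd_factorial hrp).mpr hrn
    rcases (Nat.Prime.dvd_mul hrp).mp h5 with h | h
    · exfalso
      have := Nat.le_of_dvd (by norm_num) h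
      omega
    · exact h
  have hpn2 := star p hpp hp2 hpπ hpn
  rcases Nat.lt_or_ge p (Fintype.card Ω) with hlt | hge
  · have hpn1 : p + 1 = Fintype.card Ω := by omega
    have hp5 : 5 ≤ p := by
      obtain ⟨i, hi⟩ := hpodd
      omega
    obtain ⟨x⟩ : Nonempty Ω := Fintype.card_pos_iff.mp (by omega)
    have htrans : Trans M := by
      intro a b
      haveI := hprim.toIsPretransitive
      obtain ⟨g, hg⟩ := MulAction.exists_smul_eq ↥M a b
      exact ⟨g.1, g.2, hg⟩
    have h1 := hsth Ω π M x hM htrans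
    obtain ⟨M', hM', -⟩ := htrf Ω π (M ⊓ MulAction.stabilizer (Perm Ω) x) x h1
    have hcard' : Fintype.card {y : Ω // y ≠ x} = p := by
      have e1 := Fintype.card_subtype_compl (fun y : Ω => y = x)
      rw [Fintype.card_subtype_eq] at e1
      have e2 : Fintype.card {y : Ω // y ≠ x} = Fintype.card {y : Ω // ¬ y = x} :=
        Fintype.card_congr (Equiv.refl _)
      omega
    refine halpha {y : Ω // y ≠ x} (by rw [hcard']; exact hpp) (by rw [hcard']; exact hp5)
      π M' h2 (by rw [hcard']; exact hpπ) hM' ?_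
    intro q hqp hqπ hqn
    rw [hcard'] at hqn ⊢
    by_cases hq2 : q = 2
    · left; exact hq2
    · right
      have := star q hqp hq2 hqπ (by omega)
      omega
  · have hpn' : p = Fintype.card Ω := le_antisymm hpn hge
    refine halpha Ω (hpn' ▸ hpp) hn5 π M h2 (hpn' ▸ hpπ) hM ?_
    intro q hqp hqπ hqn
    by_cases hq2 : q = 2
    · left; exact hq2
    · right
      have h7 := star q hqp hq2 hqπ hqn
      have hqodd : Odd q := hqp.odd_of_ne_two hq2
      rw [← hpn'] at h7 hqn ⊢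
      obtain ⟨i, hi⟩ := hpodd
      obtain ⟨j, hj⟩ := hqodd
      omega

end Cfsg.Agent.Lib.Helper97.HAC2
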