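import Mathlib
import Cfsg.Agent.Lib.Helper96.HallAltStmt

set_option autoImplicit false

namespace Cfsg.Agent.Lib.Helper97.HAKLEIN

open Equiv Cfsg.Agent.Lib.Helper96.HallSymStmt Cfsg.Agent.Lib.Helper96.HallAltStmt

theorem main : Cfsg.Agent.Lib.Helper96.HallAltStmt.KLEIN' := by
  intro hconj Ω _ _ hcard π M h2 hM
  have hle : Fintype.card (Fin 4) ≤ Fintype.card Ω := by simpa using hcard
  obtain ⟨ι⟩ := Function.Embedding.nonempty_of_card_le hle
  obtain ⟨φ, hφ⟩ : ∃ φ : Perm (Fin 4) →* Perm Ω, φ = Perm.viaEmbeddingHom ι := ⟨_, rfl⟩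
  have hinj : Function.Injective φ := by
    rw [hφ]; exact Perm.viaEmbeddingHom_injective ι
  obtain ⟨u4, hu4⟩ : ∃ u4 : Perm (Fin 4), u4 = swap 0 1 * swap 2 3 := ⟨_, rfl⟩
  obtain ⟨v4, hv4⟩ : ∃ v4 : Perm (Fin 4), v4 = swap 0 2 * swap 1 3 := ⟨_, rfl⟩
  have e1 : u4 * u4 = 1 := by rw [hu4]; decide
  have e2 : v4 * v4 = 1 := by rw [hv4]; decide
  have e3 : u4 * v4 = v4 * u4 := by rw [hu4, hv4]; decide
  have e4 : u4 ≠ 1 := by rw [hu4]; decide
  have e5 : v4 ≠ 1 := by rw [hv4]; decide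
  have e6 : u4 ≠ v4 := by rw [hu4, hv4]; decide
  have s1 : Perm.sign u4 = 1 := by
    rw [hu4, Perm.sign_mul, Perm.sign_swap (by decide), Perm.sign_swap (by decide)]; rfl
  have s2 : Perm.sign v4 = 1 := by
    rw [hv4, Perm.sign_mul, Perm.sign_swap (by decide), Perm.sign_swap (by decide)]; rfl
  have hsign : ∀ x : Perm (Fin 4), Perm.sign (φ x) = Perm.sign x := by
    intro x
    rw [hφ, Perm.viaEmbeddingHom_apply]
    unfold Perm.viaEmbedding
    rw [Perm.sign_extendDomain]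
  obtain ⟨u0, hu0⟩ : ∃ u0 : Perm Ω, u0 = φ u4 := ⟨_, rfl⟩
  obtain ⟨v0, hv0⟩ : ∃ v0 : Perm Ω, v0 = φ v4 := ⟨_, rfl⟩
  have f1 : u0 * u0 = 1 := by rw [hu0, ← map_mul, e1, map_one]
  have f2 : v0 * v0 = 1 := by rw [hv0, ← map_mul, e2, map_one]
  have f3 : u0 * v0 = v0 * u0 := by rw [hu0, hv0, ← map_mul, ← map_mul, e3]
  have f4 : u0 ≠ 1 := by
    rw [hu0]; intro h; apply e4; apply hinj; rw [h, map_one]
  have f5 : v0 ≠ 1 := by
    rw [hv0]; intro h; apply e5; apply hinj; rw [h, map_one]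
  have f6 : u0 ≠ v0 := by
    rw [hu0, hv0]; intro h; exact e6 (hinj h)
  have g1 : u0 ∈ alternatingGroup Ω := by
    rw [Perm.mem_alternatingGroup, hu0, hsign, s1]
  have g2 : v0 ∈ alternatingGroup Ω := by
    rw [Perm.mem_alternatingGroup, hv0, hsign, s2]
  obtain ⟨V, hV⟩ : ∃ V : Subgroup (Perm Ω), V = Subgroup.closure {u0, v0} := ⟨_, rfl⟩
  have hVle : V ≤ alternatingGroup Ω := by
    rw [hV, Subgroup.closure_le]
    rintro x (rfl | rfl)
    · exact g1
    · exact g2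
  have hcommS : ∀ x ∈ ({u0, v0} : Set (Perm Ω)), ∀ y ∈ ({u0, v0} : Set (Perm Ω)),
      x * y = y * x := by
    rintro x (rfl | rfl) y (rfl | rfl)
    · rfl
    · exact f3
    · exact f3.symm
    · rfl
  haveI hcommV : IsMulCommutative ↥(Subgroup.closure ({u0, v0} : Set (Perm Ω))) :=
    Subgroup.isMulCommutative_closure hcommS
  have hcomm : ∀ x ∈ Subgroup.closure ({u0, v0} : Set (Perm Ω)),
      ∀ y ∈ Subgroup.closure ({u0, v0} : Set (Perm Ω)), x * y = y * x := by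
    intro x hx y hy
    have := mul_comm' (⟨x, hx⟩ : ↥(Subgroup.closure ({u0, v0} : Set (Perm Ω)))) ⟨y, hy⟩
    exact congrArg Subtype.val this
  have hVsq : ∀ x ∈ Subgroup.closure ({u0, v0} : Set (Perm Ω)), x * x = 1 := by
    intro x hx
    induction hx using Subgroup.closure_induction with
    | mem x hx =>
      rcases hx with rfl | rfl
      · exact f1
      · exact f2
    | one => simp
    | mul x y hx hy ihx ihy =>
      calc x * y * (x * y) = x * (y * x) * y := by group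
        _ = x * (x * y) * y := by rw [hcomm y hy x hx]
        _ = (x * x) * (y * y) := by group
        _ = 1 := by rw [ihx, ihy, one_mul]
    | inv x hx ihx =>
      calc x⁻¹ * x⁻¹ = (x * x)⁻¹ := by group
        _ = 1 := by rw [ihx, inv_one]
  have hVp : IsPGroup 2 ↥V := by
    intro x
    refine ⟨1, ?_⟩
    apply Subtype.ext
    have hx : (x : Perm Ω) ∈ Subgroup.closure ({u0, v0} : Set (Perm Ω)) := by
      rw [← hV]; exact x.2
    simp only [pow_one, Subgroup.coe_pow, Subgroup.coe_one, pow_two]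
    exact hVsq _ hx
  obtain ⟨g, hg, hgV⟩ := hconj (Perm Ω) π M (alternatingGroup Ω) V 2 Nat.prime_two h2 hM hVle hVp
  have hu0V : u0 ∈ V := by rw [hV]; exact Subgroup.subset_closure (by simp)
  have hv0V : v0 ∈ V := by rw [hV]; exact Subgroup.subset_closure (by simp)
  refine ⟨g * u0 * g⁻¹, g * v0 * g⁻¹, hgV _ hu0V, hgV _ hv0V, ?_, ?_, ?_, ?_, ?_, ?_⟩
  · intro h; exact f4 (conj_eq_one_iff.mp h)
  · intro h; exact f5 (conj_eq_one_iff.mp h)
  · intro h; exact f6 (mul_left_cancel (mul_right_cancel h))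
  · calc g * u0 * g⁻¹ * (g * u0 * g⁻¹) = g * (u0 * u0) * g⁻¹ := by group
      _ = 1 := by rw [f1]; group
  · calc g * v0 * g⁻¹ * (g * v0 * g⁻¹) = g * (v0 * v0) * g⁻¹ := by group
      _ = 1 := by rw [f2]; group
  · calc g * u0 * g⁻¹ * (g * v0 * g⁻¹) = g * (u0 * v0) * g⁻¹ := by group
      _ = g * (v0 * u0) * g⁻¹ := by rw [f3]
      _ = g * v0 * g⁻¹ * (g * u0 * g⁻¹) := by group

end Cfsg.Agent.Lib.Helper97.HAKLEIN
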