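import Mathlib
import Cfsg.Agent.Lib.Helper42.LieOrdStmt
import Cfsg.Agent.S0243

/-!
# S2363 piece L (helper97): the bounds for `PSL_n(q)`
-/

set_option autoImplicit false

namespace Cfsg.Agent.Lib.Helper97.LieOrdL

open Cfsg.Agent.Lib.Helper42.LieOrdStmt Finset

universe u

theorem sum_shift (m : ℕ) : (∑ i ∈ range m, (i + 2)) * 2 = m * (m + 3) := by
  induction m with
  | zero => simp
  | succ m ih =>
    rw [sum_range_succ, add_mul, ih]
    ring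

theorem N_two (n : ℕ) : (n * (n - 1) / 2) * 2 = n * (n - 1) := by
  rw [← Finset.sum_range_id, Finset.sum_range_id_mul_two]

theorem D_le (m : ℕ) (hm : 1 ≤ m) :
    (∑ i ∈ range m, (i + 2)) ≤ 2 * ((m + 1) * (m + 1 - 1) / 2) := by
  have h1 := sum_shift m
  have h2 := N_two (m + 1)
  simp only [Nat.add_sub_cancel] at h2 ⊢
  have h3 : m * 1 ≤ m * m := Nat.mul_le_mul_left m hm
  nlinarith

theorem D_le' (m : ℕ) (hm : 2 ≤ m) :
    3 * (∑ i ∈ range m, (i + 2)) ≤ 5 * ((m + 1) * (m + 1 - 1) / 2) := by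
  have h1 := sum_shift m
  have h2 := N_two (m + 1)
  simp only [Nat.add_sub_cancel] at h2 ⊢
  have h3 : m * 2 ≤ m * m := Nat.mul_le_mul_left m hm
  nlinarith

theorem prod_formula (q m : ℕ) :
    ∏ i : Fin (m + 1), (q ^ (m + 1) - q ^ (i : ℕ)) =
      q ^ ((m + 1) * (m + 1 - 1) / 2) * ((q - 1) * ∏ i ∈ range m, (q ^ (i + 2) - 1)) := by
  rw [Fin.prod_univ_eq_prod_range (fun i => q ^ (m + 1) - q ^ i) (m + 1)]
  have h1 : ∀ i ∈ range (m + 1),
      q ^ (m + 1) - q ^ i = q ^ i * (q ^ (m + 1 - 1 - i + 1) - 1) := by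
    intro i hi
    rw [mem_range] at hi
    rw [Nat.mul_sub, mul_one, ← pow_add]
    congr 2
    omega
  rw [prod_congr rfl h1, prod_mul_distrib, prod_pow_eq_pow_sum, Finset.sum_range_id,
    Finset.prod_range_reflect (fun j => q ^ (j + 1) - 1) (m + 1), prod_range_succ']
  simp only [zero_add, pow_one]
  rw [mul_comm (∏ k ∈ range m, (q ^ (k + 1 + 1) - 1)) (q - 1)]

theorem main : PSLStmt.{u} := by
  intro G _ _ p hp hG
  obtain ⟨F, _, _, _, n, hn, hn2, ⟨e⟩⟩ := hG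
  obtain ⟨f, -, hf⟩ := FiniteField.card F p
  have hf1 : 1 ≤ (f : ℕ) := f.pos
  obtain ⟨m, rfl⟩ : ∃ m, n = m + 1 := ⟨n - 1, by omega⟩
  have hm : 1 ≤ m := by omega
  have hq2 : 2 ≤ p ^ (f : ℕ) := by
    have h1 : p ^ 1 ≤ p ^ (f : ℕ) := Nat.pow_le_pow_right hp.pos hf1
    have h2 := hp.two_le
    rw [pow_one] at h1
    omega
  have hcard : Nat.card G = Nat.card (Matrix.ProjectiveSpecialLinearGroup (Fin (m + 1)) F) :=
    Nat.card_congr e.toEquiv
  have h0 := Cfsg.Agent.S0243.result (F := F) hf (m + 1) hn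
  rw [prod_formula (p ^ (f : ℕ)) m, ← hcard] at h0
  have hd : Nat.gcd (m + 1) (p ^ (f : ℕ) - 1) * Nat.card G =
      (p ^ (f : ℕ)) ^ ((m + 1) * (m + 1 - 1) / 2) *
        ∏ i ∈ range m, ((p ^ (f : ℕ)) ^ (i + 2) - 1) := by
    have hpos : 0 < p ^ (f : ℕ) - 1 := by omega
    apply Nat.eq_of_mul_eq_mul_left hpos
    calc (p ^ (f : ℕ) - 1) * (Nat.gcd (m + 1) (p ^ (f : ℕ) - 1) * Nat.card G)
        = Nat.gcd (m + 1) (p ^ (f : ℕ) - 1) * ((p ^ (f : ℕ) - 1) * Nat.card G) := by ring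
      _ = _ := by rw [h0]; ring
  have hpd : ¬ p ∣ Nat.gcd (m + 1) (p ^ (f : ℕ) - 1) := by
    intro h
    have h1 : p ∣ (p ^ (f : ℕ)) ^ 1 - 1 := by
      rw [pow_one]
      exact h.trans (Nat.gcd_dvd_right _ _)
    exact not_dvd_pow_sub_one hp f 1 hf1 le_rfl h1
  have hpP : ¬ p ∣ ∏ i ∈ range m, ((p ^ (f : ℕ)) ^ (i + 2) - 1) := by
    intro h
    obtain ⟨i, -, hdvd⟩ := (Prime.dvd_finsetProd_iff hp.prime _).1 h
    exact not_dvd_pow_sub_one hp f (i + 2) hf1 (by omega) hdvd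
  have hPD : ∏ i ∈ range m, ((p ^ (f : ℕ)) ^ (i + 2) - 1) <
      (p ^ (f : ℕ)) ^ (∑ i ∈ range m, (i + 2)) := by
    rw [← prod_pow_eq_pow_sum]
    apply prod_lt_prod_of_nonempty
    · intro i _
      have h1 : 1 < (p ^ (f : ℕ)) ^ (i + 2) := Nat.one_lt_pow (by omega) (by omega)
      omega
    · intro i _
      have h1 : 0 < (p ^ (f : ℕ)) ^ (i + 2) := pow_pos (by omega) _
      omega
    · exact ⟨0, mem_range.2 (by omega)⟩
  rcases Nat.lt_or_ge m 2 with hm2 | hm2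
  · have hm1 : m = 1 := by omega
    subst hm1
    obtain ⟨hfac, hbound⟩ := weak_of_formula p f hp _ _ _ _ hd hpd hpP hPD (D_le 1 le_rfl)
    refine ⟨hbound, fun hneg => absurd ⟨F, inferInstance, inferInstance, ?_, ⟨e⟩⟩ hneg⟩
    rw [hfac, hf]
    norm_num
  · exact (strong_of_formula p f hp _ _ _ _ hd hpd hpP hPD (D_le m hm) (D_le' m hm2)).2.concl

end Cfsg.Agent.Lib.Helper97.LieOrdL
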