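import Mathlib
import Cfsg.Agent.Lib.Helper42.LieOrdStmt
import Cfsg.Agent.Lib.Helper97.LieOrdL
import Cfsg.Agent.S0280

/-!
# S2363 piece U (helper97): the bounds for `PSU_n(q)`
-/

set_option autoImplicit false

namespace Cfsg.Agent.Lib.Helper97.LieOrdU

open Cfsg.Agent.Lib.Helper42.LieOrdStmt Cfsg.Agent.Lib.Helper97.LieOrdL Finset

universe u

theorem pair_lt (q : ℕ) (hq : 2 ≤ q) (r : ℕ) :
    (q ^ (2 * r + 1 + 1) - 1) * (q ^ (2 * r + 1 + 1 + 1) + 1) <
      q ^ ((2 * r + 2) + (2 * r + 1 + 2)) := by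
  have h3 := sub_one_mul_add_one_lt q (2 * r + 1 + 1) (2 * r + 1 + 1 + 1) hq (by omega)
  have e2 : (2 * r + 1 + 1) + (2 * r + 1 + 1 + 1) = (2 * r + 2) + (2 * r + 1 + 2) := by ring
  rw [e2] at h3
  exact h3

theorem pair_le (q : ℕ) (hq : 2 ≤ q) (r : ℕ) :
    ∏ i ∈ range (2 * r), (if Even (i + 1) then q ^ (i + 1 + 1) + 1 else q ^ (i + 1 + 1) - 1) ≤
      q ^ (∑ i ∈ range (2 * r), (i + 2)) := by
  induction r with
  | zero => simp
  | succ r ih =>
    have e : 2 * (r + 1) = 2 * r + 1 + 1 := by ring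
    rw [e, prod_range_succ, prod_range_succ, sum_range_succ, sum_range_succ]
    have h1 : ¬ Even (2 * r + 1) := by rw [Nat.even_iff]; omega
    have h2 : Even (2 * r + 1 + 1) := by rw [Nat.even_iff]; omega
    rw [if_neg h1, if_pos h2]
    calc (∏ i ∈ range (2 * r),
            (if Even (i + 1) then q ^ (i + 1 + 1) + 1 else q ^ (i + 1 + 1) - 1)) *
          (q ^ (2 * r + 1 + 1) - 1) * (q ^ (2 * r + 1 + 1 + 1) + 1)
        = (∏ i ∈ range (2 * r),
            (if Even (i + 1) then q ^ (i + 1 + 1) + 1 else q ^ (i + 1 + 1) - 1)) *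
          ((q ^ (2 * r + 1 + 1) - 1) * (q ^ (2 * r + 1 + 1 + 1) + 1)) := mul_assoc _ _ _
      _ ≤ q ^ (∑ i ∈ range (2 * r), (i + 2)) * q ^ ((2 * r + 2) + (2 * r + 1 + 2)) :=
          Nat.mul_le_mul ih (pair_lt q hq r).le
      _ = q ^ (∑ i ∈ range (2 * r), (i + 2) + (2 * r + 2) + (2 * r + 1 + 2)) := by
          rw [← pow_add]
          congr 1
          omega

theorem prod_lt (q : ℕ) (hq : 2 ≤ q) (m : ℕ) (hm : 1 ≤ m) :
    ∏ i ∈ range m, (if Even (i + 1) then q ^ (i + 1 + 1) + 1 else q ^ (i + 1 + 1) - 1) <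
      q ^ (∑ i ∈ range m, (i + 2)) := by
  rcases Nat.even_or_odd' m with ⟨r, rfl | rfl⟩
  · obtain ⟨r', rfl⟩ : ∃ r', r = r' + 1 := ⟨r - 1, by omega⟩
    have e : 2 * (r' + 1) = 2 * r' + 1 + 1 := by ring
    rw [e, prod_range_succ, prod_range_succ, sum_range_succ, sum_range_succ]
    have h1 : ¬ Even (2 * r' + 1) := by rw [Nat.even_iff]; omega
    have h2 : Even (2 * r' + 1 + 1) := by rw [Nat.even_iff]; omega
    rw [if_neg h1, if_pos h2]
    calc (∏ i ∈ range (2 * r'),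
            (if Even (i + 1) then q ^ (i + 1 + 1) + 1 else q ^ (i + 1 + 1) - 1)) *
          (q ^ (2 * r' + 1 + 1) - 1) * (q ^ (2 * r' + 1 + 1 + 1) + 1)
        = (∏ i ∈ range (2 * r'),
            (if Even (i + 1) then q ^ (i + 1 + 1) + 1 else q ^ (i + 1 + 1) - 1)) *
          ((q ^ (2 * r' + 1 + 1) - 1) * (q ^ (2 * r' + 1 + 1 + 1) + 1)) := mul_assoc _ _ _
      _ ≤ q ^ (∑ i ∈ range (2 * r'), (i + 2)) *
          ((q ^ (2 * r' + 1 + 1) - 1) * (q ^ (2 * r' + 1 + 1 + 1) + 1)) :=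
          Nat.mul_le_mul_right _ (pair_le q hq r')
      _ < q ^ (∑ i ∈ range (2 * r'), (i + 2)) * q ^ ((2 * r' + 2) + (2 * r' + 1 + 2)) :=
          Nat.mul_lt_mul_of_pos_left (pair_lt q hq r') (pow_pos (by omega) _)
      _ = q ^ (∑ i ∈ range (2 * r'), (i + 2) + (2 * r' + 2) + (2 * r' + 1 + 2)) := by
          rw [← pow_add]
          congr 1
          omega
  · rw [prod_range_succ, sum_range_succ]
    have h1 : ¬ Even (2 * r + 1) := by rw [Nat.even_iff]; omega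
    rw [if_neg h1]
    have h3 : q ^ (2 * r + 1 + 1) - 1 < q ^ (2 * r + 2) :=
      Nat.sub_lt (pow_pos (by omega) _) Nat.one_pos
    calc (∏ i ∈ range (2 * r),
            (if Even (i + 1) then q ^ (i + 1 + 1) + 1 else q ^ (i + 1 + 1) - 1)) *
          (q ^ (2 * r + 1 + 1) - 1)
        ≤ q ^ (∑ i ∈ range (2 * r), (i + 2)) * (q ^ (2 * r + 1 + 1) - 1) :=
          Nat.mul_le_mul_right _ (pair_le q hq r)
      _ < q ^ (∑ i ∈ range (2 * r), (i + 2)) * q ^ (2 * r + 2) :=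
          Nat.mul_lt_mul_of_pos_left h3 (pow_pos (by omega) _)
      _ = q ^ (∑ i ∈ range (2 * r), (i + 2) + (2 * r + 2)) := (pow_add _ _ _).symm

theorem main : PSUStmt.{u} := by
  intro G _ _ p hp hG
  obtain ⟨F, _, _, _, n, q, hFq, hn, -, ⟨e⟩⟩ := hG
  obtain ⟨e', -, he'⟩ := FiniteField.card F p
  obtain ⟨f, rfl⟩ := exists_pow_of_pow_eq hp 2 (e' : ℕ) q (by norm_num) (hFq.symm.trans he')
  have hf1 : 1 ≤ f := by
    rcases Nat.eq_zero_or_pos f with h | h
    · subst h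
      have h1 : 2 ≤ p ^ (e' : ℕ) := by
        have h2 : p ^ 1 ≤ p ^ (e' : ℕ) := Nat.pow_le_pow_right hp.pos e'.pos
        have h3 := hp.two_le
        rw [pow_one] at h2
        omega
      rw [← he', hFq] at h1
      norm_num at h1
    · exact h
  obtain ⟨m, rfl⟩ : ∃ m, n = m + 1 := ⟨n - 1, by omega⟩
  have hm : 2 ≤ m := by omega
  have hq2 : 2 ≤ p ^ f := by
    have h1 : p ^ 1 ≤ p ^ f := Nat.pow_le_pow_right hp.pos hf1
    have h2 := hp.two_le
    rw [pow_one] at h1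
    omega
  have hcard : Nat.card G = Nat.card (Cfsg.PSU (m + 1) F (p ^ f)) := Nat.card_congr e.toEquiv
  have h0 := Cfsg.Agent.S0280.result (F := F) hFq (m + 1) (by omega)
  rw [prod_range_succ', ← hcard] at h0
  simp only [Even.zero, if_true, zero_add, pow_one] at h0
  have hd : Nat.gcd (m + 1) (p ^ f + 1) * Nat.card G =
      (p ^ f) ^ ((m + 1) * (m + 1 - 1) / 2) *
        ∏ i ∈ range m, (if Even (i + 1) then (p ^ f) ^ (i + 1 + 1) + 1
          else (p ^ f) ^ (i + 1 + 1) - 1) := by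
    have hpos : 0 < p ^ f + 1 := by omega
    apply Nat.eq_of_mul_eq_mul_left hpos
    calc (p ^ f + 1) * (Nat.gcd (m + 1) (p ^ f + 1) * Nat.card G)
        = Nat.gcd (m + 1) (p ^ f + 1) * ((p ^ f + 1) * Nat.card G) := by ring
      _ = _ := by rw [h0]; ring
  have hpd : ¬ p ∣ Nat.gcd (m + 1) (p ^ f + 1) := by
    intro h
    have h1 : p ∣ (p ^ f) ^ 1 + 1 := by
      rw [pow_one]
      exact h.trans (Nat.gcd_dvd_right _ _)
    exact not_dvd_pow_add_one hp f 1 hf1 le_rfl h1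
  have hpP : ¬ p ∣ ∏ i ∈ range m, (if Even (i + 1) then (p ^ f) ^ (i + 1 + 1) + 1
      else (p ^ f) ^ (i + 1 + 1) - 1) := by
    intro h
    obtain ⟨i, -, hdvd⟩ := (Prime.dvd_finsetProd_iff hp.prime _).1 h
    by_cases hev : Even (i + 1)
    · rw [if_pos hev] at hdvd
      exact not_dvd_pow_add_one hp f (i + 1 + 1) hf1 (by omega) hdvd
    · rw [if_neg hev] at hdvd
      exact not_dvd_pow_sub_one hp f (i + 1 + 1) hf1 (by omega) hdvd
  have hPD := prod_lt (p ^ f) hq2 m (by omega)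
  exact (strong_of_formula p f hp _ _ _ _ hd hpd hpP hPD (D_le m (by omega)) (D_le' m hm)).2

end Cfsg.Agent.Lib.Helper97.LieOrdU
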