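import Mathlib
import Cfsg.Agent.Lib.Helper41.OFStmt
import Cfsg.Agent.Lib.Helper97.OrtCONG

/-!
# S5977, piece SAJ: a self-adjoint `J` with `J² = l` for every non-degenerate symmetric form of
even dimension over a finite field of odd characteristic
-/

set_option autoImplicit false

namespace Cfsg.Agent.Lib.Helper97.OFSAJ

open Matrix

universe u

theorem main : Cfsg.Agent.Lib.Helper41.OFStmt.SaJ.{u} := by
  intro F _ _ h2 l hl k S hS hdet
  classical
  rcases Nat.eq_zero_or_pos k with rfl | hk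
  · refine ⟨0, ?_, ?_⟩
    · ext i
      exact absurd i.2 (by simp)
    · ext i
      exact absurd i.2 (by simp)
  have hl0 : l ≠ 0 := fun h => hl (h ▸ ⟨0, by simp⟩)
  obtain ⟨j₀, hj₀⟩ : ∃ j₀ : Fin k, j₀ = ⟨0, hk⟩ := ⟨_, rfl⟩
  obtain ⟨δ, hδ⟩ : ∃ δ : F, δ = S.det * (l ^ (k - 1)) := ⟨_, rfl⟩
  have hδ0 : δ ≠ 0 := by
    rw [hδ]
    exact mul_ne_zero hdet (pow_ne_zero _ hl0)
  obtain ⟨x, y, hxy⟩ := Cfsg.Agent.Lib.Helper97.OrtCONG.exists_binary h2 (l / δ) (-1 / δ)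
    (div_ne_zero hl0 hδ0) (div_ne_zero (by norm_num) hδ0)
  have hxy' : l * x ^ 2 - y ^ 2 = δ := by
    field_simp at hxy
    linear_combination hxy
  obtain ⟨a, ha⟩ : ∃ a : Fin k → F, a = fun j => if j = j₀ then x else 1 := ⟨_, rfl⟩
  obtain ⟨b, hb⟩ : ∃ b : Fin k → F, b = fun j => if j = j₀ then y else 0 := ⟨_, rfl⟩
  obtain ⟨T, hT⟩ : ∃ T : Fin k → Matrix (Fin 2) (Fin 2) F,
      T = fun j => !![a j, b j; b j, l * a j] := ⟨_, rfl⟩
  obtain ⟨J₀, hJ₀⟩ : ∃ J₀ : Matrix (Fin 2) (Fin 2) F, J₀ = !![0, l; 1, 0] := ⟨_, rfl⟩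
  have hJ₀sq : J₀ * J₀ = l • (1 : Matrix (Fin 2) (Fin 2) F) := by
    rw [hJ₀]
    ext i j
    fin_cases i <;> fin_cases j <;> simp [Matrix.mul_apply, Fin.sum_univ_two]
  have hTt : ∀ j, (T j)ᵀ = T j := by
    intro j
    rw [hT]
    ext i i'
    fin_cases i <;> fin_cases i' <;> simp
  have hTJ : ∀ j, T j * J₀ = J₀ᵀ * T j := by
    intro j
    rw [hT, hJ₀]
    ext i i'
    fin_cases i <;> fin_cases i' <;> simp [Matrix.mul_apply, Fin.sum_univ_two] <;> ring
  have hTdet : ∀ j, (T j).det = if j = j₀ then δ else l := by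
    intro j
    rw [hT, Matrix.det_fin_two]
    simp only [ha, hb, Matrix.of_apply, Matrix.cons_val_zero, Matrix.cons_val_one,
      Matrix.cons_val', Matrix.cons_val_fin_one]
    split_ifs with h
    · linear_combination hxy'
    · ring
  obtain ⟨S'', hS''⟩ : ∃ S'' : Matrix (Fin 2 × Fin k) (Fin 2 × Fin k) F,
      S'' = Matrix.blockDiagonal T := ⟨_, rfl⟩
  obtain ⟨J'', hJ''⟩ : ∃ J'' : Matrix (Fin 2 × Fin k) (Fin 2 × Fin k) F,
      J'' = Matrix.blockDiagonal (fun _ => J₀) := ⟨_, rfl⟩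
  have hJ''sq : J'' * J'' = l • 1 := by
    rw [hJ'', ← Matrix.blockDiagonal_mul]
    have h1 : (fun _ : Fin k => J₀ * J₀) = l • (1 : Fin k → Matrix (Fin 2) (Fin 2) F) := by
      funext j
      rw [hJ₀sq]
      rfl
    rw [h1, Matrix.blockDiagonal_smul, Matrix.blockDiagonal_one]
  have hS''t : S''ᵀ = S'' := by
    rw [hS'', Matrix.blockDiagonal_transpose]
    congr 1
    funext j
    exact hTt j
  have hS''J'' : S'' * J'' = J''ᵀ * S'' := by
    rw [hS'', hJ'', Matrix.blockDiagonal_transpose, ← Matrix.blockDiagonal_mul,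
      ← Matrix.blockDiagonal_mul]
    congr 1
    funext j
    exact hTJ j
  have hS''det : S''.det = S.det * (l ^ (k - 1)) ^ 2 := by
    rw [hS'', Matrix.det_blockDiagonal]
    rw [Finset.prod_congr rfl (fun j _ => hTdet j), Finset.prod_ite, Finset.prod_const,
      Finset.prod_const, Finset.filter_eq' Finset.univ j₀, if_pos (Finset.mem_univ _),
      Finset.card_singleton, pow_one, Finset.filter_ne' Finset.univ j₀,
      Finset.card_erase_of_mem (Finset.mem_univ _), Finset.card_univ, Fintype.card_fin, hδ]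
    ring
  obtain ⟨e, he⟩ : ∃ e : Fin 2 × Fin k ≃ Fin (2 * k), e = finProdFinEquiv := ⟨_, rfl⟩
  obtain ⟨S', hS'⟩ : ∃ S' : Matrix (Fin (2 * k)) (Fin (2 * k)) F,
      S' = S''.submatrix e.symm e.symm := ⟨_, rfl⟩
  obtain ⟨J', hJ'⟩ : ∃ J' : Matrix (Fin (2 * k)) (Fin (2 * k)) F,
      J' = J''.submatrix e.symm e.symm := ⟨_, rfl⟩
  have hS't : S'ᵀ = S' := by
    rw [hS', Matrix.transpose_submatrix, hS''t]
  have hS'det : S'.det = S.det * (l ^ (k - 1)) ^ 2 := by
    rw [hS', Matrix.det_submatrix_equiv_self, hS''det]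
  have hJ'sq : J' * J' = l • 1 := by
    rw [hJ', Matrix.submatrix_mul_equiv, hJ''sq]
    ext i j
    simp [Matrix.one_apply]
  have hSJ' : S' * J' = J'ᵀ * S' := by
    rw [hS', hJ', Matrix.transpose_submatrix, Matrix.submatrix_mul_equiv,
      Matrix.submatrix_mul_equiv, hS''J'']
  obtain ⟨g, hg, hgS⟩ := Cfsg.Agent.Lib.Helper97.OrtCONG.main F h2 (2 * k) S S' hS hdet hS't
    (l ^ (k - 1)) (pow_ne_zero _ hl0) hS'det
  obtain ⟨h, hh⟩ : ∃ h : Matrix (Fin (2 * k)) (Fin (2 * k)) F, h = g⁻¹ := ⟨_, rfl⟩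
  have hgu : IsUnit g.det := IsUnit.mk0 _ hg
  have hgh : g * h = 1 := by rw [hh]; exact Matrix.mul_nonsing_inv g hgu
  have hhg : h * g = 1 := by rw [hh]; exact Matrix.nonsing_inv_mul g hgu
  have hS_eq : S = hᵀ * S' * h := by
    rw [← hgS]
    calc S = (g * h)ᵀ * S * (g * h) := by rw [hgh]; simp
      _ = hᵀ * (gᵀ * S * g) * h := by
        rw [Matrix.transpose_mul]
        simp only [Matrix.mul_assoc]
  have hgt : gᵀ * hᵀ = 1 := by
    rw [← Matrix.transpose_mul, hhg, Matrix.transpose_one]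
  refine ⟨g * J' * h, ?_, ?_⟩
  · calc g * J' * h * (g * J' * h) = g * (J' * (h * g) * J') * h := by
          simp only [Matrix.mul_assoc]
      _ = g * (J' * J') * h := by rw [hhg, Matrix.mul_one]
      _ = l • 1 := by
          rw [hJ'sq, Matrix.mul_smul, Matrix.smul_mul, Matrix.mul_one, hgh]
  · rw [hS_eq]
    calc hᵀ * S' * h * (g * J' * h) = hᵀ * (S' * (h * g) * J') * h := by
          simp only [Matrix.mul_assoc]
      _ = hᵀ * (S' * J') * h := by rw [hhg, Matrix.mul_one]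
      _ = hᵀ * (J'ᵀ * S') * h := by rw [hSJ']
      _ = (g * J' * h)ᵀ * (hᵀ * S' * h) := by
          rw [Matrix.transpose_mul, Matrix.transpose_mul]
          simp only [Matrix.mul_assoc]
          rw [← Matrix.mul_assoc gᵀ hᵀ, hgt, Matrix.one_mul]

end Cfsg.Agent.Lib.Helper97.OFSAJ
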