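import Mathlib
import Cfsg.Agent.Lib.Helper44.OFldStmt

set_option autoImplicit false

/-!
# Descent of a `σ`-invariant quadratic form to the fixed field (helper97, piece Mb of S2736)
-/

namespace Cfsg.Agent.Lib.Helper97.OFldMb

open Matrix Module QuadraticMap
open Cfsg.Agent.Lib.Helper43.H90Fin
open Cfsg.Agent.Lib.Helper44.QSpace

universe u

theorem main : Cfsg.Agent.Lib.Helper44.OFldStmt.ExistsDescent.{u} := by
  intro F _ ι _ _ σ P hP
  obtain ⟨c, hc⟩ : ∃ c : (ι → ↥(fixF σ)) → (ι → F), ∀ v i, c v i = ((v i : ↥(fixF σ)) : F) :=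
    ⟨fun v i => ((v i : ↥(fixF σ)) : F), fun _ _ => rfl⟩
  have hc' : ∀ v, (fun i => ((v i : ↥(fixF σ)) : F)) = c v := fun v => funext fun i => (hc v i).symm
  have hcadd : ∀ x y, c (x + y) = c x + c y := by
    intro x y
    ext i
    simp [hc]
  have hcsmul : ∀ (a : ↥(fixF σ)) x, c (a • x) = (a : F) • c x := by
    intro a x
    ext i
    simp [hc]
  have hfix : ∀ v, (fun i => σ (c v i)) = c v := by
    intro v
    funext i
    rw [hc]
    exact (mem_fixF σ _).1 (v i).2
  have hmem : ∀ v, P (c v) ∈ fixF σ := fun v => (mem_fixF σ _).2 (by rw [← hP, hfix])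
  have hpol : ∀ x y, polar P (c x) (c y) ∈ fixF σ := by
    intro x y
    rw [polar, ← hcadd]
    exact sub_mem (sub_mem (hmem _) (hmem _)) (hmem _)
  let B : LinearMap.BilinMap ↥(fixF σ) (ι → ↥(fixF σ)) ↥(fixF σ) :=
    LinearMap.mk₂ ↥(fixF σ) (fun x y => ⟨polar P (c x) (c y), hpol x y⟩)
      (by
        intro x x' y
        apply Subtype.ext
        simp [hcadd, polar_add_left])
      (by
        intro a x y
        apply Subtype.ext
        simp [hcsmul, polar_smul_left])
      (by
        intro x y y'
        apply Subtype.ext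
        simp [hcadd, polar_add_right])
      (by
        intro a x y
        apply Subtype.ext
        simp [hcsmul, polar_smul_right])
  have hB : ∀ x y, ((B x y : ↥(fixF σ)) : F) = polar P (c x) (c y) := fun x y => rfl
  refine ⟨{ toFun := fun v => ⟨P (c v), hmem v⟩, toFun_smul := ?_,
            exists_companion' := ⟨B, ?_⟩ }, ?_, ?_⟩
  · intro a x
    apply Subtype.ext
    simp [hcsmul, QuadraticMap.map_smul]
  · intro x y
    apply Subtype.ext
    simp only [AddMemClass.coe_add, hB, hcadd, polar]
    ring
  · intro v
    show P (c v) = _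
    rw [hc']
  · intro hS x hx
    have h1 : ∀ y, polar P (c x) (c y) = 0 := by
      intro y
      have h := congrArg Subtype.val (hx y)
      rw [polar] at h
      simp only [AddSubgroupClass.coe_sub, ZeroMemClass.coe_zero] at h
      rw [polar, ← hcadd]
      exact h
    have h2 : polarBilin P (c x) = 0 := by
      apply LinearMap.pi_ext
      intro j t
      have e : (Pi.single j t : ι → F) = t • c (Pi.single j 1) := by
        ext i
        by_cases h : i = j
        · subst h
          simp [hc]
        · simp [hc, Pi.single_eq_of_ne h]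
      rw [e, map_smul, polarBilin_apply_apply, h1, smul_zero, LinearMap.zero_apply]
    have h3 : c x = 0 := hS _ (fun z => by
      rw [← polarBilin_apply_apply, h2, LinearMap.zero_apply])
    funext i
    apply Subtype.ext
    have h4 := congrFun h3 i
    rw [hc] at h4
    simpa using h4

end Cfsg.Agent.Lib.Helper97.OFldMb
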