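import Mathlib
import Cfsg.Agent.Lib.Lead.OrdTypeStmt

/-!
# S3998 / CNTONE (call by lead; helper97, second seat)
-/

set_option autoImplicit false

universe u

namespace Cfsg.Agent.Lib.Helper97.OTCNTONE

open Cfsg.Agent.Lib.Lead.OrdTypeStmt

theorem main : CntOne.{u} := by
  intro X _ _ t ht
  unfold cnt
  rw [Nat.card_eq_one_iff_unique]
  constructor
  · constructor
    rintro ⟨x, hx⟩ ⟨y, hy⟩
    apply Subtype.ext
    show x = y
    have key : ∀ z : X, z ∈ rough X t → z = 1 := by
      intro z hz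
      by_contra hz1
      have h1 : orderOf z ≠ 1 := fun h => hz1 (orderOf_eq_one_iff.mp h)
      obtain ⟨q, hq, hqd⟩ := Nat.exists_prime_and_dvd h1
      have h2 : q ∣ Nat.card X := dvd_trans hqd (orderOf_dvd_natCard z)
      have h3 := ht q hq h2
      have h4 := hz q hq hqd
      omega
    rw [key x hx, key y hy]
  · refine ⟨⟨1, ?_⟩⟩
    intro q hq hqd
    rw [orderOf_one] at hqd
    exact absurd (Nat.le_of_dvd Nat.one_pos hqd) (by have := hq.two_le; omega)

end Cfsg.Agent.Lib.Helper97.OTCNTONE
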