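import Mathlib
import Cfsg.Agent.Lib.Helper37.OrtStmt
import Cfsg.Agent.Lib.Helper40.PrimeFix
import Cfsg.Agent.Lib.Helper40.SSConj
import Cfsg.Agent.Lib.Helper40.InvDims
import Cfsg.Agent.Lib.Helper37.InvConj

set_option autoImplicit false

namespace Cfsg.Agent.Lib.Helper97.OrtINV2NS

open scoped Kronecker MatrixGroups Matrix
open Cfsg.Agent.Lib.Helper37.OrtStmt

universe u

/-- the `2 × 2` block `!![α, γ; γ, α z]` -/
def Gm {F : Type u} [Field F] (z α γ : F) : Matrix (Fin 2) (Fin 2) F := !![α, γ; γ, α * z]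

theorem Gm_transpose {F : Type u} [Field F] (z α γ : F) : (Gm z α γ)ᵀ = Gm z α γ := by
  unfold Gm
  ext i j
  fin_cases i <;> fin_cases j <;> simp

theorem Gm_det {F : Type u} [Field F] (z α γ : F) : (Gm z α γ).det = α * (α * z) - γ * γ := by
  unfold Gm
  rw [Matrix.det_fin_two]
  simp

theorem Gm_conj {F : Type u} [Field F] (z α γ : F) :
    (!![0, z; 1, 0] : Matrix (Fin 2) (Fin 2) F)ᵀ * Gm z α γ * !![0, z; 1, 0] = z • Gm z α γ := by
  unfold Gm
  ext i j
  fin_cases i <;> fin_cases j <;>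
    simp [Matrix.mul_apply, Fin.sum_univ_two] <;> ring

theorem prod_first {F : Type u} [Field F] (b : ℕ) (j₀ : Fin b) (d : F) :
    ∏ j : Fin b, (if j = j₀ then d else 1) = d := by
  rw [Finset.prod_ite_eq' Finset.univ j₀ (fun _ => d)]
  simp

theorem main : Inv2NS.{u} := by
  intro F _ _ h2 n hn x z hz hxx t ht
  classical
  have h2' : ((2 : ℕ) : F) ≠ 0 := by simpa using h2
  haveI : Fact (Nat.Prime 2) := ⟨Nat.prime_two⟩
  have hz' : ∀ d : F, d ^ 2 ≠ z := fun d => by rw [pow_two]; exact hz d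
  have hx2 : x ^ 2 = z • (1 : Matrix (Fin n) (Fin n) F) := by rw [pow_two]; exact hxx
  have hz0 : z ≠ 0 := by
    rintro rfl
    exact hz 0 (by simp)
  obtain ⟨b, hb, hcp, -⟩ :=
    Cfsg.Agent.Lib.Helper40.PrimeFix.structure_of_nonpower 2 h2' x z hz' hx2
  have hb1 : 0 < b := by omega
  obtain ⟨e, -⟩ : ∃ e : Fin n ≃ Fin 2 × Fin b, True :=
    ⟨(finCongr hb.symm).trans finProdFinEquiv.symm, trivial⟩
  obtain ⟨J, hJ⟩ : ∃ J : Matrix (Fin 2) (Fin 2) F, J = !![0, z; 1, 0] := ⟨_, rfl⟩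
  have hJJ : J * J = z • (1 : Matrix (Fin 2) (Fin 2) F) := by
    rw [hJ]
    ext i j
    fin_cases i <;> fin_cases j <;> simp [Matrix.mul_apply, Fin.sum_univ_two, Matrix.one_apply]
  obtain ⟨x0, hx0⟩ : ∃ x0 : Matrix (Fin n) (Fin n) F,
      x0 = Matrix.reindexAlgEquiv F F e.symm (J ⊗ₖ (1 : Matrix (Fin b) (Fin b) F)) := ⟨_, rfl⟩
  have hx0sq : x0 ^ 2 = z • (1 : Matrix (Fin n) (Fin n) F) := by
    rw [hx0, ← map_pow, pow_two, ← Matrix.mul_kronecker_mul, hJJ, mul_one, Matrix.smul_kronecker,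
      Matrix.one_kronecker_one, map_smul, map_one]
  obtain ⟨A0, hA0, hcp0, -⟩ :=
    Cfsg.Agent.Lib.Helper40.PrimeFix.structure_of_nonpower 2 h2' x0 z hz' hx0sq
  have hAA : b = A0 := by omega
  have hs := Cfsg.Agent.Lib.Helper40.InvDims.isSemisimple_of_pow_eq_smul x 2 z hz0 h2' hx2
  have hs0 := Cfsg.Agent.Lib.Helper40.InvDims.isSemisimple_of_pow_eq_smul x0 2 z hz0 h2' hx0sq
  obtain ⟨ε, hε⟩ := Cfsg.Agent.Lib.Helper40.SSConj.conj_of_charpoly_eq n
    (Matrix.toLin' x) (Matrix.toLin' x0) (Module.finrank_fin_fun F) hs hs0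
    (by rw [Matrix.charpoly_toLin', Matrix.charpoly_toLin', hcp, hcp0, hAA])
  obtain ⟨T, hT⟩ : ∃ T : Matrix (Fin n) (Fin n) F,
      T = LinearMap.toMatrix' (ε.symm : (Fin n → F) →ₗ[F] (Fin n → F)) := ⟨_, rfl⟩
  obtain ⟨T', hT'⟩ : ∃ T' : Matrix (Fin n) (Fin n) F,
      T' = LinearMap.toMatrix' (ε : (Fin n → F) →ₗ[F] (Fin n → F)) := ⟨_, rfl⟩
  have hTT' : T * T' = 1 := by
    rw [hT, hT', ← LinearMap.toMatrix'_comp]
    have : (ε.symm : (Fin n → F) →ₗ[F] (Fin n → F)) ∘ₗ (ε : (Fin n → F) →ₗ[F] (Fin n → F)) =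
        LinearMap.id := by
      apply LinearMap.ext
      intro v
      simp
    rw [this, LinearMap.toMatrix'_id]
  have hT'T : T' * T = 1 := by
    rw [hT, hT', ← LinearMap.toMatrix'_comp]
    have : (ε : (Fin n → F) →ₗ[F] (Fin n → F)) ∘ₗ (ε.symm : (Fin n → F) →ₗ[F] (Fin n → F)) =
        LinearMap.id := by
      apply LinearMap.ext
      intro v
      simp
    rw [this, LinearMap.toMatrix'_id]
  have hxT : x = T * x0 * T' := by
    apply (Matrix.toLin' (R := F) (m := Fin n) (n := Fin n)).injective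
    rw [Matrix.toLin'_mul, Matrix.toLin'_mul, hT, hT', Matrix.toLin'_toMatrix',
      Matrix.toLin'_toMatrix']
    apply LinearMap.ext
    intro v
    rw [LinearMap.comp_apply, LinearMap.comp_apply]
    show Matrix.toLin' x v = ε.symm (Matrix.toLin' x0 (ε v))
    rw [← hε, LinearEquiv.symm_apply_apply]
  -- the blocks
  obtain ⟨a1, g1, h1⟩ := Cfsg.Agent.Lib.Helper37.InvConj.exists_norm z (-t) hz0
  obtain ⟨a2, g2, h2n⟩ := Cfsg.Agent.Lib.Helper37.InvConj.exists_norm z (-1) hz0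
  obtain ⟨j₀⟩ : Nonempty (Fin b) := ⟨⟨0, hb1⟩⟩
  obtain ⟨G, hG⟩ : ∃ G : Fin b → Matrix (Fin 2) (Fin 2) F,
      G = fun j => if j = j₀ then Gm z g1 a1 else Gm z g2 a2 := ⟨_, rfl⟩
  have hGt : ∀ j, (G j)ᵀ = G j := by
    intro j
    rw [hG]
    by_cases hj : j = j₀
    · simp only [hj, if_true]; exact Gm_transpose _ _ _
    · simp only [hj, if_false]; exact Gm_transpose _ _ _
  have hGc : ∀ j, Jᵀ * G j * J = z • G j := by
    intro j
    rw [hG, hJ]
    by_cases hj : j = j₀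
    · simp only [hj, if_true]; exact Gm_conj _ _ _
    · simp only [hj, if_false]; exact Gm_conj _ _ _
  have hGd : ∀ j, (G j).det = if j = j₀ then t else 1 := by
    intro j
    rw [hG]
    by_cases hj : j = j₀
    · simp only [hj, if_true]; rw [Gm_det]; linear_combination -h1
    · simp only [hj, if_false]; rw [Gm_det]; linear_combination -h2n
  obtain ⟨S2, hS2⟩ : ∃ S2 : Matrix (Fin 2 × Fin b) (Fin 2 × Fin b) F,
      S2 = Matrix.blockDiagonal G := ⟨_, rfl⟩
  have hS2t : S2ᵀ = S2 := by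
    rw [hS2, Matrix.blockDiagonal_transpose]
    congr 1
    funext j
    exact hGt j
  have hS2d : S2.det = t := by
    rw [hS2, Matrix.det_blockDiagonal]
    simp only [hGd]
    exact prod_first b j₀ t
  have hS2c : (J ⊗ₖ (1 : Matrix (Fin b) (Fin b) F))ᵀ * S2 * (J ⊗ₖ (1 : Matrix (Fin b) (Fin b) F))
      = z • S2 := by
    rw [Matrix.kronecker_one, hS2, Matrix.blockDiagonal_transpose, ← Matrix.blockDiagonal_mul,
      ← Matrix.blockDiagonal_mul, ← Matrix.blockDiagonal_smul]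
    congr 1
    funext j
    exact hGc j
  -- reindex
  obtain ⟨R, hR⟩ : ∃ R : Matrix (Fin n) (Fin n) F, R = Matrix.reindexAlgEquiv F F e.symm S2 :=
    ⟨_, rfl⟩
  have hRt : Rᵀ = R := by
    rw [hR, Matrix.reindexAlgEquiv_apply, Matrix.transpose_reindex, hS2t]
  have hRd : R.det = t := by
    rw [hR, Matrix.det_reindexAlgEquiv, hS2d]
  have hRc : x0ᵀ * R * x0 = z • R := by
    have e1 : x0ᵀ = Matrix.reindexAlgEquiv F F e.symm
        (J ⊗ₖ (1 : Matrix (Fin b) (Fin b) F))ᵀ := by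
      rw [hx0, Matrix.reindexAlgEquiv_apply, Matrix.transpose_reindex,
        Matrix.reindexAlgEquiv_apply]
    rw [e1, hx0, hR, ← map_mul, ← map_mul, hS2c, map_smul]
  refine ⟨T'ᵀ * R * T', T'.det, ?_, ?_, ?_, ?_⟩
  · rw [Matrix.transpose_mul, Matrix.transpose_mul, Matrix.transpose_transpose, hRt,
      Matrix.mul_assoc]
  · intro h0
    have h3 := congrArg Matrix.det hT'T
    rw [Matrix.det_mul, h0, zero_mul, Matrix.det_one] at h3
    exact zero_ne_one h3
  · rw [Matrix.det_mul, Matrix.det_mul, Matrix.det_transpose, hRd]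
    ring
  · rw [hxT, Matrix.transpose_mul, Matrix.transpose_mul]
    calc T'ᵀ * (x0ᵀ * Tᵀ) * (T'ᵀ * R * T') * (T * x0 * T')
        = T'ᵀ * (x0ᵀ * ((T' * T)ᵀ * R * (T' * T)) * x0) * T' := by
          rw [Matrix.transpose_mul]
          simp only [Matrix.mul_assoc]
      _ = T'ᵀ * (x0ᵀ * R * x0) * T' := by
          rw [hT'T, Matrix.transpose_one, Matrix.one_mul, Matrix.mul_one]
      _ = z • (T'ᵀ * R * T') := by
          rw [hRc, Matrix.mul_smul, Matrix.smul_mul]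

end Cfsg.Agent.Lib.Helper97.OrtINV2NS
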