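import Mathlib
import Cfsg.Agent.Lib.Helper37.OrtStmt

set_option autoImplicit false

namespace Cfsg.Agent.Lib.Helper97.OrtODD35

open scoped Kronecker MatrixGroups Matrix
open Cfsg.Agent.Lib.Helper37.OrtStmt

universe u

theorem main : DiagR.{u} → Sym35 → Refl.{u} → Odd35.{u} := by
  intro hdiag hsym hrefl F _ _ r _ hr35 hrq x hdet hxr t ht
  have hrp : r.Prime := Fact.out
  haveI : NeZero r := ⟨hrp.ne_zero⟩
  obtain ⟨T, ω, e, hT, hω, hxT⟩ := hdiag F r hrq r x hxr
  have hω0 : ω ≠ 0 := by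
    rintro rfl
    rw [orderOf_zero] at hω
    exact hrp.ne_zero hω.symm
  have hωr : ω ^ r = 1 := by rw [← hω]; exact pow_orderOf_eq_one ω
  have hpowmod : ∀ a b : ℕ, (a : ZMod r) = (b : ZMod r) → ω ^ a = ω ^ b := by
    intro a b hab
    have h1 : a % r = b % r := (ZMod.natCast_eq_natCast_iff' a b r).mp hab
    rw [← pow_mod_orderOf ω a, ← pow_mod_orderOf ω b, hω, h1]
  -- determinant
  have hdetD : (Matrix.diagonal (fun j => ω ^ (e j).val)).det = 1 := by
    have h1 := congrArg Matrix.det hxT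
    rw [Matrix.det_mul, Matrix.det_mul, hdet, one_mul] at h1
    have h2 : T.det * 1 = T.det * (Matrix.diagonal (fun j => ω ^ (e j).val)).det := by
      rw [mul_one]; exact h1
    exact (mul_left_cancel₀ hT h2).symm
  rw [Matrix.det_diagonal, Finset.prod_pow_eq_pow_sum] at hdetD
  have hsum : ∑ j, e j = 0 := by
    have h1 : r ∣ ∑ j, (e j).val := by
      have h0 := orderOf_dvd_of_pow_eq_one hdetD
      rw [hω] at h0
      exact h0
    have h2 : ((∑ j, (e j).val : ℕ) : ZMod r) = 0 := (ZMod.natCast_eq_zero_iff _ _).mpr h1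
    rw [Nat.cast_sum] at h2
    simpa using h2
  obtain ⟨t', π, hπ, heπ, hfix⟩ := hsym r hr35 e hsum
  obtain ⟨S', μ, hS', hμ, hdetS', hxS'⟩ := hrefl F r x T (fun j => ω ^ (e j).val) (ω ^ t'.val) π
    hT hxT (pow_ne_zero _ hω0) hπ (by
      intro j
      show ω ^ (e (π j)).val * ω ^ (e j).val = ω ^ t'.val
      rw [← pow_add]
      apply hpowmod
      rw [Nat.cast_add, ZMod.natCast_zmod_val, ZMod.natCast_zmod_val, ZMod.natCast_zmod_val,
        heπ j]
      ring) hfix t ht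
  exact ⟨S', μ, ω ^ t'.val, hS', hμ, hdetS', pow_ne_zero _ hω0, hxS'⟩

end Cfsg.Agent.Lib.Helper97.OrtODD35
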