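import Mathlib
import Cfsg.Agent.Lib.Helper98.PSpStmt

/-!
# S3421, piece MAXI

Two distinct Sylow `p`-subgroups `P₁`, `P₂` whose intersection `D` has the largest order among
the intersections of distinct Sylow `p`-subgroups, and `N = N_G(D)`:
* some element of `P₁ ⊓ N` is not in `P₂` (normalizers grow in `p`-groups);
* a `p`-subgroup containing `Pᵢ ⊓ N` lies in `Pᵢ`;
* a `p`-subgroup of `N` normalized by `N` lies in `D`.
-/

set_option autoImplicit false

namespace Cfsg.Agent.Lib.Helper97.PSpMAXI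

open Cfsg.Agent.Lib.Helper98.PSpStmt

universe u

variable {G : Type u} [Group G] [Finite G] {p : ℕ}

/-- normalizer growth: for distinct Sylow subgroups `P`, `P'` some element of `P` normalizing
`P ⊓ P'` is not in `P'` -/
theorem exists_normalizer_not_mem (hp : p.Prime) (P P' : Sylow p G) (hne : P ≠ P') :
    ∃ u ∈ (P : Subgroup G),
      u ∈ Subgroup.normalizer ((((P : Subgroup G) ⊓ (P' : Subgroup G) : Subgroup G)) : Set G) ∧
      u ∉ (P' : Subgroup G) := by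
  have hpF : Fact p.Prime := ⟨hp⟩
  obtain ⟨D, hD⟩ : ∃ D : Subgroup G, D = (P : Subgroup G) ⊓ (P' : Subgroup G) := ⟨_, rfl⟩
  rw [← hD]
  have hDP : D ≤ (P : Subgroup G) := by rw [hD]; exact inf_le_left
  have hnil : Group.IsNilpotent (P : Subgroup G) := P.2.isNilpotent
  have hlt : D.subgroupOf (P : Subgroup G) < ⊤ := by
    rw [lt_top_iff_ne_top]
    intro h
    rw [Subgroup.subgroupOf_eq_top] at h
    have hPP' : (P : Subgroup G) ≤ (P' : Subgroup G) := by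
      intro x hx
      have := h hx
      rw [hD] at this
      exact this.2
    have heq : (P' : Subgroup G) = (P : Subgroup G) := P.3 P'.2 hPP'
    exact hne (Sylow.ext heq.symm)
  have hgrow := Group.normalizerCondition_of_isNilpotent (G := (P : Subgroup G)) _ hlt
  obtain ⟨v, hvN, hvD⟩ := SetLike.exists_of_lt hgrow
  refine ⟨(v : G), v.2, ?_, ?_⟩
  · rw [Subgroup.mem_normalizer_iff]
    rw [Subgroup.mem_normalizer_iff] at hvN
    intro d
    constructor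
    · intro hd
      have h1 := (hvN ⟨d, hDP hd⟩).1 (Subgroup.mem_subgroupOf.2 hd)
      exact Subgroup.mem_subgroupOf.1 h1
    · intro hd
      have hdP : d ∈ (P : Subgroup G) := by
        have h2 : d = (v : G)⁻¹ * ((v : G) * d * (v : G)⁻¹) * (v : G) := by group
        rw [h2]
        exact Subgroup.mul_mem _ (Subgroup.mul_mem _ (Subgroup.inv_mem _ v.2) (hDP hd)) v.2
      have h1 := (hvN ⟨d, hdP⟩).2 (Subgroup.mem_subgroupOf.2 hd)
      exact Subgroup.mem_subgroupOf.1 h1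
  · intro hv'
    apply hvD
    rw [Subgroup.mem_subgroupOf, hD]
    exact ⟨v.2, hv'⟩

/-- a `p`-subgroup containing an element of `P` outside a maximal intersection `D` with another
Sylow subgroup, together with `D`, lies in `P` -/
theorem le_of_max (hp : p.Prime) (P P' : Sylow p G)
    (hmax : ∀ Q₁ Q₂ : Sylow p G, Q₁ ≠ Q₂ → Nat.card ↥((Q₁ : Subgroup G) ⊓ (Q₂ : Subgroup G)) ≤
      Nat.card ↥((P : Subgroup G) ⊓ (P' : Subgroup G)))
    (X : Subgroup G) (hXP : X ≤ (P : Subgroup G))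
    (hDX : (P : Subgroup G) ⊓ (P' : Subgroup G) ≤ X)
    (u : G) (huX : u ∈ X) (hu : u ∉ (P' : Subgroup G))
    (Q : Subgroup G) (hQ : IsPGroup p Q) (hXQ : X ≤ Q) : Q ≤ (P : Subgroup G) := by
  have hpF : Fact p.Prime := ⟨hp⟩
  obtain ⟨P₃, hP₃⟩ := hQ.exists_le_sylow
  by_cases h3 : P₃ = P
  · rw [← h3]
    exact hP₃
  · exfalso
    have h1 := hmax P₃ P h3
    have hle : (P : Subgroup G) ⊓ (P' : Subgroup G) ≤ (P₃ : Subgroup G) ⊓ (P : Subgroup G) :=
      le_inf (hDX.trans (hXQ.trans hP₃)) inf_le_left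
    have heq : (P : Subgroup G) ⊓ (P' : Subgroup G) = (P₃ : Subgroup G) ⊓ (P : Subgroup G) :=
      Subgroup.eq_of_le_of_card_ge hle h1
    have hu3 : u ∈ (P₃ : Subgroup G) ⊓ (P : Subgroup G) := ⟨hP₃ (hXQ huX), hXP huX⟩
    rw [← heq] at hu3
    exact hu hu3.2

theorem main : MaxI.{u} := by
  intro G _ _ p hp P₁ P₂ hne hmax
  have hpF : Fact p.Prime := ⟨hp⟩
  obtain ⟨u, hu1, huN, hu2⟩ := exists_normalizer_not_mem hp P₁ P₂ hne
  obtain ⟨w, hw2, hwN, hw1⟩ := exists_normalizer_not_mem hp P₂ P₁ (Ne.symm hne)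
  have hcomm : (P₂ : Subgroup G) ⊓ (P₁ : Subgroup G) = (P₁ : Subgroup G) ⊓ (P₂ : Subgroup G) :=
    inf_comm _ _
  rw [hcomm] at hwN
  have hmax' : ∀ Q₁ Q₂ : Sylow p G, Q₁ ≠ Q₂ →
      Nat.card ↥((Q₁ : Subgroup G) ⊓ (Q₂ : Subgroup G)) ≤
      Nat.card ↥((P₂ : Subgroup G) ⊓ (P₁ : Subgroup G)) := by
    intro Q₁ Q₂ h
    rw [hcomm]
    exact hmax Q₁ Q₂ h
  have hDN : (P₁ : Subgroup G) ⊓ (P₂ : Subgroup G) ≤ ND P₁ P₂ := Subgroup.le_normalizer
  have hb : ∀ Q : Subgroup G, IsPGroup p Q → (P₁ : Subgroup G) ⊓ ND P₁ P₂ ≤ Q →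
      Q ≤ (P₁ : Subgroup G) := by
    intro Q hQ hle
    exact le_of_max hp P₁ P₂ hmax ((P₁ : Subgroup G) ⊓ ND P₁ P₂) inf_le_left
      (le_inf inf_le_left hDN) u ⟨hu1, huN⟩ hu2 Q hQ hle
  have hc : ∀ Q : Subgroup G, IsPGroup p Q → (P₂ : Subgroup G) ⊓ ND P₁ P₂ ≤ Q →
      Q ≤ (P₂ : Subgroup G) := by
    intro Q hQ hle
    refine le_of_max hp P₂ P₁ hmax' ((P₂ : Subgroup G) ⊓ ND P₁ P₂) inf_le_left
      (le_inf inf_le_left ?_) w ⟨hw2, hwN⟩ hw1 Q hQ hle
    rw [hcomm]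
    exact hDN
  refine ⟨⟨u, hu1, huN, hu2⟩, hb, hc, ?_⟩
  intro K hK hKN hnorm
  have hNK : ND P₁ P₂ ≤ Subgroup.normalizer (K : Set G) := by
    intro n hn
    rw [Subgroup.mem_normalizer_iff]
    intro k
    constructor
    · intro hk
      exact hnorm n hn k hk
    · intro hk
      have h1 := hnorm n⁻¹ (Subgroup.inv_mem _ hn) _ hk
      have h2 : n⁻¹ * (n * k * n⁻¹) * n⁻¹⁻¹ = k := by group
      rwa [h2] at h1
  have h1 : IsPGroup p (((P₁ : Subgroup G) ⊓ ND P₁ P₂) ⊔ K : Subgroup G) :=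
    IsPGroup.to_sup_of_normal_right' (P₁.2.to_le inf_le_left) hK (inf_le_right.trans hNK)
  have h2 : IsPGroup p (((P₂ : Subgroup G) ⊓ ND P₁ P₂) ⊔ K : Subgroup G) :=
    IsPGroup.to_sup_of_normal_right' (P₂.2.to_le inf_le_left) hK (inf_le_right.trans hNK)
  exact le_inf (le_sup_right.trans (hb _ h1 le_sup_left)) (le_sup_right.trans (hc _ h2 le_sup_left))

end Cfsg.Agent.Lib.Helper97.PSpMAXI
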