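import Mathlib
import Cfsg.Agent.Lib.Helper98.PSpStmt

/-!
# S3421, piece NO3

The group is not sharply 3-transitive on its `q + 1` Sylow `p`-subgroups: that would give
`|G| = (q + 1) q (q - 1) = 4 q m₁ m₂`, but `|G| = 2 q m₁ m₂`.
-/

set_option autoImplicit false

namespace Cfsg.Agent.Lib.Helper97.PSpNO3

open Cfsg.Agent.Lib.Helper98.PSpStmt

universe u

theorem main (hNP : NP.{u}) : NO3.{u} := by
  intro G _ p q m₁ m₂ h
  classical
  have hfin : Finite G := h.fin
  have hpF : Fact p.Prime := ⟨h.pp⟩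
  rintro ⟨htrans, hstab⟩
  have hX : Nat.card (Sylow p G) = q + 1 := (hNP G p q m₁ m₂ h).2
  have hfX : Fintype (Sylow p G) := Fintype.ofFinite _
  have hXc : Fintype.card (Sylow p G) = q + 1 := by
    rw [← Nat.card_eq_fintype_card]
    exact hX
  have hq := h.q_ge
  have hm1 := h.m1_ge
  have hm2 := h.m2ge
  obtain ⟨t⟩ : Nonempty (Fin 3 ↪ Sylow p G) := by
    apply Function.Embedding.nonempty_of_card_le
    rw [Fintype.card_fin, hXc]
    omega
  have h1 : (MulAction.stabilizer G t).index = Nat.card (Fin 3 ↪ Sylow p G) :=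
    MulAction.index_stabilizer_of_transitive G t
  rw [hstab t, Subgroup.index_bot, Nat.card_eq_fintype_card (α := Fin 3 ↪ Sylow p G),
    Fintype.card_embedding_eq, Fintype.card_fin, hXc, h.card] at h1
  have h2 : (q + 1).descFactorial 3 = (q - 1) * (q * (q + 1)) := by
    simp [Nat.descFactorial]
  rw [h2] at h1
  have h4 := h.four_mul
  obtain ⟨s, rfl⟩ : ∃ s, q = s + 1 := ⟨q - 1, by omega⟩
  rw [Nat.add_sub_cancel] at h1
  have e0 : (s + 1) ^ 2 = s * (s + 2) + 1 := by ring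
  have e1 : s * (s + 2) = 4 * (m₁ * m₂) := by
    have e2 : 4 * m₁ * m₂ = 4 * (m₁ * m₂) := by ring
    omega
  have e3 : s * ((s + 1) * (s + 1 + 1)) = 4 * ((s + 1) * (m₁ * m₂)) := by
    calc s * ((s + 1) * (s + 1 + 1)) = (s + 1) * (s * (s + 2)) := by ring
      _ = 4 * ((s + 1) * (m₁ * m₂)) := by rw [e1]; ring
  have e4 : 2 * (s + 1) * m₁ * m₂ = 2 * ((s + 1) * (m₁ * m₂)) := by ring
  have hpos : 0 < (s + 1) * (m₁ * m₂) :=
    Nat.mul_pos (Nat.succ_pos s) (Nat.mul_pos (by omega) (by omega))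
  omega

end Cfsg.Agent.Lib.Helper97.PSpNO3
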