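import Mathlib
import Cfsg.Agent.Lib.Helper98.PSpStmt

/-!
# S3421, piece PCLM

If `N(R) ≤ C(R)` for every Sylow `r`-subgroup `R` with `r ≠ p`, then the Sylow `p`-subgroup is
normal: by Burnside's transfer theorem every such `R` has a normal complement; the intersection of
these complements is a normal `p`-subgroup containing every `p`-element.
-/

set_option autoImplicit false

namespace Cfsg.Agent.Lib.Helper97.PSpPCLM

open Cfsg.Agent.Lib.Helper98.PSpStmt

universe u

/-- an element whose order is prime to the index of a normal subgroup lies in it -/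
theorem mem_of_coprime_index {M : Type u} [Group M] [Finite M] (N : Subgroup M) [N.Normal]
    (x : M) (hcop : (orderOf x).Coprime N.index) : x ∈ N := by
  have h1 : orderOf (QuotientGroup.mk' N x) ∣ orderOf x := orderOf_map_dvd (QuotientGroup.mk' N) x
  have h2 : orderOf (QuotientGroup.mk' N x) ∣ N.index := by
    have h := orderOf_dvd_natCard (QuotientGroup.mk' N x)
    rwa [← Subgroup.index_eq_card] at h
  have h3 : orderOf (QuotientGroup.mk' N x) = 1 := Nat.eq_one_of_dvd_coprimes hcop h1 h2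
  rw [orderOf_eq_one_iff] at h3
  rw [← QuotientGroup.eq_one_iff]
  exact h3

theorem main : PclM.{u} := by
  intro M _ _ p hp hNC P
  have hpF : Fact p.Prime := ⟨hp⟩
  -- the normal complements
  obtain ⟨𝒮, h𝒮⟩ : ∃ 𝒮 : Set (Subgroup M), ∀ N, N ∈ 𝒮 ↔
      N.Normal ∧ ∃ r : ℕ, r.Prime ∧ r ≠ p ∧ ¬ r ∣ Nat.card N ∧ ∃ k : ℕ, N.index = r ^ k :=
    ⟨{N | N.Normal ∧ ∃ r : ℕ, r.Prime ∧ r ≠ p ∧ ¬ r ∣ Nat.card N ∧ ∃ k : ℕ, N.index = r ^ k},
      fun N => Iff.rfl⟩
  have hex : ∀ r : ℕ, r.Prime → r ≠ p → ∃ N ∈ 𝒮, ¬ r ∣ Nat.card N := by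
    intro r hr hrp
    have hrF : Fact r.Prime := ⟨hr⟩
    obtain ⟨R⟩ : Nonempty (Sylow r M) := inferInstance
    have hR := hNC r hr hrp R
    refine ⟨(MonoidHom.transferSylow R hR).ker, (h𝒮 _).2 ⟨inferInstance, r, hr, hrp,
      MonoidHom.not_dvd_card_ker_transferSylow R hR, ?_⟩,
      MonoidHom.not_dvd_card_ker_transferSylow R hR⟩
    have hc := MonoidHom.ker_transferSylow_isComplement' R hR
    have h1 : (MonoidHom.transferSylow R hR).ker.index = Nat.card (R : Subgroup M) :=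
      hc.symm.index_eq_card
    obtain ⟨k, hk⟩ := (IsPGroup.iff_card.1 R.2)
    exact ⟨k, h1.trans hk⟩
  obtain ⟨K, hK⟩ : ∃ K : Subgroup M, K = sInf 𝒮 := ⟨_, rfl⟩
  have hKn : K.Normal := by
    constructor
    intro n hn g
    rw [hK, Subgroup.mem_sInf] at hn ⊢
    intro N hN
    exact ((h𝒮 N).1 hN).1.conj_mem n (hn N hN) g
  -- `K` is a `p`-group
  have hKp : IsPGroup p K := by
    have hcard : ∀ d : ℕ, d.Prime → d ∣ Nat.card K → d = p := by
      intro d hd hdK
      by_contra hne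
      obtain ⟨N, hN, hdN⟩ := hex d hd hne
      have hle : K ≤ N := by
        rw [hK]
        exact sInf_le hN
      exact hdN (hdK.trans (Subgroup.card_dvd_of_le hle))
    have hpos : Nat.card K ≠ 0 := Nat.card_pos.ne'
    have h := Nat.eq_prime_pow_of_unique_prime_dvd hpos (fun {d} hd hdK => hcard d hd hdK)
    exact IsPGroup.of_card h
  -- `P ≤ K`
  have hPK : (P : Subgroup M) ≤ K := by
    intro x hx
    rw [hK, Subgroup.mem_sInf]
    intro N hN
    obtain ⟨hNn, r, hr, hrp, -, k, hk⟩ := (h𝒮 N).1 hN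
    obtain ⟨j, hj⟩ := (IsPGroup.iff_orderOf.1 P.2) ⟨x, hx⟩
    have hox : orderOf x = p ^ j := by
      rw [← hj, Subgroup.orderOf_mk]
    refine mem_of_coprime_index N x ?_
    rw [hox, hk]
    exact Nat.Coprime.pow j k ((Nat.coprime_primes hp hr).2 (Ne.symm hrp))
  have hKP : K = (P : Subgroup M) := P.3 hKp hPK
  rw [← hKP]
  exact hKn

end Cfsg.Agent.Lib.Helper97.PSpPCLM
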