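import Mathlib
import Cfsg.Agent.Lib.Helper98.PSpStmt

/-!
# S3421, piece Z5

No normal subgroup `N` acts regularly on the `q + 1` Sylow `p`-subgroups: then `|N| = q + 1`,
`N ⊓ P = 1`, and `P` (of order `q`) acts freely by conjugation on the `q` non-identity elements of
`N`, so they are all conjugate; `q + 1` is even, so they are involutions and `q + 1` is a power of
`2`.  This is impossible if `q + 1 = 2 m₂`; if `q + 1 = 2 m₁` then `N` contains the elements of
order `m₁`, so `m₁ = 2` and `q = 3`.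
-/

set_option autoImplicit false

namespace Cfsg.Agent.Lib.Helper97.PSpZ5

open Cfsg.Agent.Lib.Helper98.PSpStmt

universe u

/-- an element whose order is prime to the index of a normal subgroup lies in it -/
theorem mem_of_coprime_index {M : Type u} [Group M] [Finite M] (N : Subgroup M) [N.Normal]
    (x : M) (hcop : (orderOf x).Coprime N.index) : x ∈ N := by
  have h1 : orderOf (QuotientGroup.mk' N x) ∣ orderOf x := orderOf_map_dvd (QuotientGroup.mk' N) x
  have h2 : orderOf (QuotientGroup.mk' N x) ∣ N.index := by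
    have h := orderOf_dvd_natCard (QuotientGroup.mk' N x)
    rwa [← Subgroup.index_eq_card] at h
  have h3 : orderOf (QuotientGroup.mk' N x) = 1 := Nat.eq_one_of_dvd_coprimes hcop h1 h2
  rw [orderOf_eq_one_iff] at h3
  rw [← QuotientGroup.eq_one_iff]
  exact h3

theorem main (hCP : CP.{u}) (hNP : NP.{u}) (hCardP : CardP.{u}) : Z5.{u} := by
  intro G _ p q m₁ m₂ h N hNn htr
  classical
  have hfin : Finite G := h.fin
  have hpF : Fact p.Prime := ⟨h.pp⟩
  by_contra hcon
  have hstab : ∀ a : Sylow p G, MulAction.stabilizer N a = ⊥ := by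
    intro a
    by_contra hne
    exact hcon ⟨a, hne⟩
  have hX : Nat.card (Sylow p G) = q + 1 := (hNP G p q m₁ m₂ h).2
  have hq := h.q_ge
  have hm1 := h.m1_ge
  have hm2 := h.m2ge
  obtain ⟨P⟩ : Nonempty (Sylow p G) := inferInstance
  have hPq : Nat.card (P : Subgroup G) = q := hCardP G p q m₁ m₂ h P
  -- `|N| = q + 1`
  have hNcard : Nat.card N = q + 1 := by
    have h1 : (MulAction.stabilizer N P).index = Nat.card (Sylow p G) :=
      MulAction.index_stabilizer_of_transitive N P
    rw [hstab P, Subgroup.index_bot, hX] at h1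
    exact h1
  -- `N ⊓ P = 1`
  have hNP1 : ∀ n : G, n ∈ N → n ∈ (P : Subgroup G) → n = 1 := by
    intro n hnN hnP
    have h1 : (⟨n, hnN⟩ : N) ∈ MulAction.stabilizer N P := by
      rw [MulAction.mem_stabilizer_iff]
      show n • P = P
      rw [Sylow.smul_eq_iff_mem_normalizer]
      exact Subgroup.le_normalizer hnP
    rw [hstab P, Subgroup.mem_bot] at h1
    exact congrArg Subtype.val h1
  -- a non-identity element of `N`
  have hN1 : ∃ n₀ : G, n₀ ∈ N ∧ n₀ ≠ 1 := by
    by_contra hno
    have hbot : N = ⊥ := by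
      rw [Subgroup.eq_bot_iff_forall]
      intro x hx
      by_contra hx1
      exact hno ⟨x, hx, hx1⟩
    rw [hbot, Subgroup.card_bot] at hNcard
    omega
  obtain ⟨n₀, hn₀N, hn₀1⟩ := hN1
  -- the orbit of `n₀` under `P` is `N ∖ {1}`
  obtain ⟨f, hf⟩ : ∃ f : ↥(P : Subgroup G) → G, ∀ u, f u = (u : G) * n₀ * (u : G)⁻¹ :=
    ⟨fun u => (u : G) * n₀ * (u : G)⁻¹, fun _ => rfl⟩
  have hfinj : Function.Injective f := by
    intro u v huv
    rw [hf, hf] at huv
    by_contra hne
    have hx1 : (v : G)⁻¹ * (u : G) ≠ 1 := by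
      intro h1
      apply hne
      apply Subtype.ext
      have : (u : G) = (v : G) * ((v : G)⁻¹ * (u : G)) := by group
      rw [this, h1, mul_one]
    have hxP : (v : G)⁻¹ * (u : G) ∈ (P : Subgroup G) :=
      Subgroup.mul_mem _ (Subgroup.inv_mem _ v.2) u.2
    have hcomm : Commute n₀ ((v : G)⁻¹ * (u : G)) := by
      show n₀ * ((v : G)⁻¹ * (u : G)) = (v : G)⁻¹ * (u : G) * n₀
      have h2 : n₀ = (v : G)⁻¹ * ((u : G) * n₀ * (u : G)⁻¹) * (v : G) := by
        rw [huv]
        group
      calc n₀ * ((v : G)⁻¹ * (u : G))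
          = (v : G)⁻¹ * ((u : G) * n₀ * (u : G)⁻¹) * (v : G) * ((v : G)⁻¹ * (u : G)) := by
            rw [← h2]
        _ = (v : G)⁻¹ * (u : G) * n₀ := by group
    have hn₀P : n₀ ∈ (P : Subgroup G) := hCP G p q m₁ m₂ h P _ n₀ hxP hx1 hcomm
    exact hn₀1 (hNP1 n₀ hn₀N hn₀P)
  have hrange : Set.range f = (N : Set G) \ {1} := by
    apply Set.eq_of_subset_of_ncard_le
    · rintro _ ⟨u, rfl⟩
      rw [hf]
      refine ⟨hNn.conj_mem n₀ hn₀N (u : G), ?_⟩
      rw [Set.mem_singleton_iff]
      intro h1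
      apply hn₀1
      have : n₀ = (u : G)⁻¹ * ((u : G) * n₀ * (u : G)⁻¹) * (u : G) := by group
      rw [this, h1]
      group
    · rw [Set.ncard_sdiff_singleton_of_mem (Subgroup.one_mem N), ← Nat.card_coe_set_eq,
        ← Nat.card_coe_set_eq, Nat.card_range_of_injective hfinj, hPq]
      have : Nat.card (N : Set G) = q + 1 := hNcard
      rw [this]
      omega
    · exact Set.toFinite _
  -- all non-identity elements of `N` have the order of `n₀`
  have hord : ∀ n : G, n ∈ N → n ≠ 1 → orderOf n = orderOf n₀ := by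
    intro n hn hn1
    have hmem : n ∈ Set.range f := by
      rw [hrange]
      exact ⟨hn, hn1⟩
    obtain ⟨u, rfl⟩ := hmem
    rw [hf]
    have hc : (u : G) * n₀ * (u : G)⁻¹ = MulAut.conj (u : G) n₀ := rfl
    rw [hc, MulEquiv.orderOf_eq]
  -- an involution in `N`
  have h2F : Fact (Nat.Prime 2) := ⟨Nat.prime_two⟩
  have heven : 2 ∣ Nat.card N := by
    rw [hNcard]
    obtain ⟨j, hj⟩ := h.q_odd
    omega
  obtain ⟨s, hs⟩ := exists_prime_orderOf_dvd_card' (G := N) 2 heven
  have hs' : orderOf (s : G) = 2 := by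
    rw [Subgroup.orderOf_coe]
    exact hs
  have hs1 : (s : G) ≠ 1 := by
    intro h1
    rw [h1, orderOf_one] at hs'
    omega
  have ho2 : orderOf n₀ = 2 := by
    rw [← hord (s : G) s.2 hs1]
    exact hs'
  have hord2 : ∀ n : G, n ∈ N → n ≠ 1 → orderOf n = 2 := by
    intro n hn hn1
    rw [hord n hn hn1, ho2]
  -- `N` is a `2`-group
  have hN2 : IsPGroup 2 N := by
    intro n
    refine ⟨1, ?_⟩
    by_cases hn1 : (n : G) = 1
    · have : n = 1 := Subtype.ext hn1
      rw [this, one_pow]
    · apply Subtype.ext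
      have h3 := hord2 (n : G) n.2 hn1
      have h4 : (n : G) ^ 2 = 1 := by
        rw [← h3]
        exact pow_orderOf_eq_one _
      simpa using h4
  obtain ⟨k, hk⟩ := IsPGroup.iff_card.1 hN2
  rw [hNcard] at hk
  have hsum := h.sum
  rcases h.two_m1 with hcase | hcase
  · -- `2 m₁ = q + 1 = |N|`
    obtain ⟨y, hy⟩ := h.ex1
    have hidx : N.index = q * m₂ := by
      have h5 := Subgroup.card_mul_index N
      rw [hNcard, h.card] at h5
      have h6 : 2 * q * m₁ * m₂ = (q + 1) * (q * m₂) := by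
        rw [← hcase]
        ring
      rw [h6] at h5
      exact Nat.eq_of_mul_eq_mul_left (by omega) h5
    have hoddidx : Odd (q * m₂) := h.q_odd.mul h.m2odd
    have hcop : (orderOf y).Coprime N.index := by
      rw [hy, hidx]
      have h7 : Nat.Coprime (2 ^ k) (q * m₂) :=
        Nat.Coprime.pow_left k (Nat.coprime_two_left.2 hoddidx)
      refine Nat.Coprime.coprime_dvd_left ?_ h7
      rw [← hk, ← hcase]
      exact Dvd.intro_left 2 rfl
    have hyN : y ∈ N := mem_of_coprime_index N y hcop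
    have hy1 : y ≠ 1 := by
      intro h1
      rw [h1, orderOf_one] at hy
      omega
    have h8 := hord2 y hyN hy1
    omega
  · -- `2 m₂ = q + 1 = |N|`
    have h9 : 2 * m₂ = 2 ^ k := by omega
    have h10 : m₂ ∣ 2 ^ k := Dvd.intro_left 2 h9
    have h11 : Nat.Coprime m₂ (2 ^ k) :=
      Nat.Coprime.pow_right k (Nat.coprime_two_right.2 h.m2odd)
    have h12 : m₂ = 1 := Nat.Coprime.eq_one_of_dvd h11 h10
    omega

end Cfsg.Agent.Lib.Helper97.PSpZ5
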