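import Mathlib

/-!
# A Hall–Higman type contradiction for an element of order three acting on a class-two group
-/

set_option autoImplicit false
set_option linter.unusedSectionVars false
set_option linter.unusedVariables false
set_option linter.unusedSimpArgs false

namespace Cfsg.Agent.Lib.Helper97.S3HH

theorem kappa_cube {R : Type*} [Ring R] (κ : R) (hκ : κ * κ + κ + 1 = 0) : κ * (κ * κ) = 1 := by
  have h1 : κ * κ = -κ - 1 := by
    have : κ * κ = (κ * κ + κ + 1) - κ - 1 := by abel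
    rw [this, hκ]; abel
  rw [h1, mul_sub, mul_neg, h1, mul_one]; abel

/-- the key ring identity -/
theorem hh3 {R : Type*} [Ring R] (κ Y : R) (hκ : κ * κ + κ + 1 = 0)
    (h3 : ∀ r : R, 3 • r = 0 → r = 0) :
    Y * Y + (κ * Y * (κ * κ)) * (κ * κ * Y * κ) + (κ * κ * Y * κ) * (κ * Y * (κ * κ))
      = (κ * Y * (κ * κ)) * (κ * Y * (κ * κ)) + Y * (κ * κ * Y * κ) + (κ * κ * Y * κ) * Y := by
  have h1 : κ * κ = -κ - 1 := by
    have : κ * κ = (κ * κ + κ + 1) - κ - 1 := by abel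
    rw [this, hκ]; abel
  have h1' : ∀ x : R, κ * (κ * x) = -(κ * x) - x := by
    intro x
    rw [← mul_assoc, h1, sub_mul, neg_mul, one_mul]
  have hk3 := kappa_cube κ hκ
  have hk3' : ∀ x : R, κ * (κ * (κ * x)) = x := by
    intro x
    rw [← mul_assoc, ← mul_assoc, mul_assoc κ κ κ, hk3, one_mul]
  set Y1 := κ * Y * (κ * κ) with hY1
  set Y2 := κ * κ * Y * κ with hY2
  -- D = 2Y - Y1 - Y2, D' = 2Y1 - Y2 - Y
  have hA : (Y + Y - Y1 - Y2) * κ = Y1 + Y1 - Y2 - Y := by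
    rw [hY1, hY2]
    simp only [mul_add, add_mul, mul_sub, sub_mul, mul_assoc, h1, h1', neg_mul, mul_neg, mul_one,
      one_mul, neg_neg, neg_sub, sub_neg_eq_add, neg_add_rev]
    abel
  have hB : κ * (Y + Y - Y1 - Y2) * (κ * κ) = Y1 + Y1 - Y2 - Y := by
    rw [hY1, hY2]
    simp only [mul_add, add_mul, mul_sub, sub_mul, mul_assoc, h1, h1', neg_mul, mul_neg, mul_one,
      one_mul, neg_neg, neg_sub, sub_neg_eq_add, neg_add_rev]
    abel
  set D := Y + Y - Y1 - Y2 with hD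
  -- κ D κ = D
  have hC : κ * D * κ = D := by
    have e1 : κ * D * (κ * κ) = D * κ := by rw [hB, hA]
    have e2 : κ * D * κ = κ * D * (κ * κ) * (κ * κ) := by
      rw [mul_assoc (κ * D) (κ * κ) (κ * κ)]
      have : κ * κ * (κ * κ) = κ := by
        rw [mul_assoc, hk3' κ]
      rw [this]
    rw [e2, e1, mul_assoc, hk3, mul_one]
  have hsq : (Y1 + Y1 - Y2 - Y) * (Y1 + Y1 - Y2 - Y) = D * D := by
    rw [← hA]
    calc D * κ * (D * κ) = D * (κ * D * κ) := by simp only [mul_assoc]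
      _ = D * D := by rw [hC]
  have key : 3 • (Y * Y + Y1 * Y2 + Y2 * Y1 - (Y1 * Y1 + Y * Y2 + Y2 * Y)) = 0 := by
    have e : 3 • (Y * Y + Y1 * Y2 + Y2 * Y1 - (Y1 * Y1 + Y * Y2 + Y2 * Y))
        = D * D - (Y1 + Y1 - Y2 - Y) * (Y1 + Y1 - Y2 - Y) := by
      rw [hD]; noncomm_ring
    rw [e, hsq, sub_self]
  exact sub_eq_zero.mp (h3 _ key)

/-- the final contradiction: an automorphism of order three of a class-two group of order prime
to six, fixed-point-free modulo the centre, in a representation in which it has no eigenvalue one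
and nontrivial central elements act without fixed points. -/
theorem hh_final {S : Type*} [Group S] [Finite S] {R : Type*} [Ring R] [Nontrivial R]
    (ρ : S →* R) (σ : S ≃* S) (hσ3 : ∀ s, σ (σ (σ s)) = s) (κ : R) (hκ : κ * κ + κ + 1 = 0)
    (hρσ : ∀ s, ρ (σ s) = κ * ρ s * (κ * κ))
    (hc2 : ∀ a b : S, a * b * a⁻¹ * b⁻¹ ∈ Subgroup.center S)
    (hfp : ∀ y : S, y⁻¹ * σ y ∈ Subgroup.center S → y ∈ Subgroup.center S)
    (hzf : ∀ z ∈ Subgroup.center S, z ≠ 1 → ∀ r : R, ρ z * r = r → r = 0)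
    (h3 : ∀ r : R, 3 • r = 0 → r = 0)
    (hS : ∀ r : R, (Nat.card S) • r = 0 → r = 0)
    (hcop : (Nat.card S).Coprime 6)
    (y : S) (hy : y ∉ Subgroup.center S) : False := by
  classical
  let _ : Fintype S := Fintype.ofFinite S
  -- class sums vanish
  have class_sum : ∀ x : S, x ∉ Subgroup.center S → ∑ s : S, ρ (s * x * s⁻¹) = 0 := by
    intro x hx
    have hex : ∃ s0 : S, s0 * x * s0⁻¹ * x⁻¹ ≠ 1 := by
      by_contra hcon
      push Not at hcon
      apply hx
      rw [Subgroup.mem_center_iff]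
      intro g
      have h1 := hcon g
      calc g * x = (g * x * g⁻¹ * x⁻¹) * (x * g) := by group
        _ = x * g := by rw [h1, one_mul]
    obtain ⟨s0, hs0⟩ := hex
    have hz0 := hc2 s0 x
    apply hzf _ hz0 hs0
    rw [Finset.mul_sum]
    have h2 : ∀ s : S, ρ (s0 * x * s0⁻¹ * x⁻¹) * ρ (s * x * s⁻¹) = ρ ((s * s0) * x * (s * s0)⁻¹) := by
      intro s
      rw [← map_mul]
      congr 1
      have hc : s * (s0 * x * s0⁻¹ * x⁻¹) = (s0 * x * s0⁻¹ * x⁻¹) * s :=
        Subgroup.mem_center_iff.mp hz0 s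
      calc s0 * x * s0⁻¹ * x⁻¹ * (s * x * s⁻¹) = ((s0 * x * s0⁻¹ * x⁻¹) * s) * x * s⁻¹ := by group
        _ = (s * (s0 * x * s0⁻¹ * x⁻¹)) * x * s⁻¹ := by rw [hc]
        _ = (s * s0) * x * (s * s0)⁻¹ := by group
    rw [Finset.sum_congr rfl (fun s _ => h2 s)]
    exact Equiv.sum_comp (Equiv.mulRight s0) (fun s => ρ (s * x * s⁻¹))
  -- the quotient by the centre
  let mk : S →* S ⧸ Subgroup.center S := QuotientGroup.mk' (Subgroup.center S)
  have hmk1 : ∀ a : S, mk a = 1 ↔ a ∈ Subgroup.center S := fun a => QuotientGroup.eq_one_iff a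
  have hmksurj : Function.Surjective mk := QuotientGroup.mk'_surjective _
  have hcommA : ∀ a b : S ⧸ Subgroup.center S, a * b = b * a := by
    intro a b
    obtain ⟨a, rfl⟩ := hmksurj a
    obtain ⟨b, rfl⟩ := hmksurj b
    have h1 := (hmk1 _).mpr (hc2 a b)
    rw [map_mul, map_mul, map_mul, map_inv, map_inv] at h1
    calc mk a * mk b = (mk a * mk b * (mk a)⁻¹ * (mk b)⁻¹) * (mk b * mk a) := by group
      _ = mk b * mk a := by rw [h1, one_mul]
  let _ : CommGroup (S ⧸ Subgroup.center S) :=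
    { (inferInstance : Group (S ⧸ Subgroup.center S)) with mul_comm := hcommA }
  have hσZ : ∀ z : S, z ∈ Subgroup.center S → σ z ∈ Subgroup.center S := by
    intro z hz
    rw [Subgroup.mem_center_iff] at hz ⊢
    intro g
    obtain ⟨g', rfl⟩ := σ.surjective g
    rw [← map_mul, ← map_mul, hz g']
  have hcardA : (Nat.card (S ⧸ Subgroup.center S)).Coprime 6 :=
    Nat.Coprime.coprime_dvd_left (Subgroup.card_quotient_dvd_card _) hcop
  have hpow : ∀ (n : ℕ), n ∣ 6 → ∀ a : S ⧸ Subgroup.center S, a ^ n = 1 → a = 1 := by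
    intro n hn a ha
    have h1 : orderOf a ∣ n := orderOf_dvd_of_pow_eq_one ha
    have h2 : orderOf a ∣ Nat.card (S ⧸ Subgroup.center S) := orderOf_dvd_natCard a
    have h4 : orderOf a ∣ Nat.gcd (Nat.card (S ⧸ Subgroup.center S)) 6 :=
      Nat.dvd_gcd h2 (h1.trans hn)
    rw [Nat.Coprime.gcd_eq_one hcardA] at h4
    exact orderOf_eq_one_iff.mp (Nat.dvd_one.mp h4)
  have hy1 : mk y ≠ 1 := fun h => hy ((hmk1 y).mp h)
  -- (i)
  have hi : mk y * mk (σ y) * mk (σ (σ y)) = 1 := by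
    have hn : y * σ y * σ (σ y) ∈ Subgroup.center S := by
      apply hfp
      rw [← hmk1]
      rw [map_mul, map_inv, map_mul, map_mul, map_mul, map_mul, hσ3]
      simp only [map_mul, mul_inv_rev]
      have e : (mk (σ (σ y)))⁻¹ * ((mk (σ y))⁻¹ * (mk y)⁻¹) * (mk (σ y) * mk (σ (σ y)) * mk y)
          = ((mk (σ (σ y)))⁻¹ * mk (σ (σ y))) * ((mk (σ y))⁻¹ * mk (σ y)) * ((mk y)⁻¹ * mk y) := by
        simp only [mul_comm, mul_left_comm, mul_assoc]
      rw [e]
      simp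
    have := (hmk1 _).mpr hn
    rwa [map_mul, map_mul] at this
  have hi' : mk (σ y) * mk (σ (σ y)) = (mk y)⁻¹ := by
    rw [mul_assoc] at hi
    exact eq_inv_of_mul_eq_one_right hi
  -- (ii)
  have hii : (mk y)⁻¹ * mk (σ y) ≠ 1 := by
    intro h
    apply hy
    apply hfp
    rw [← hmk1, map_mul, map_inv]
    exact h
  have hii' : (mk y)⁻¹ * mk (σ (σ y)) ≠ 1 := by
    intro h
    have h1 : y⁻¹ * σ (σ y) ∈ Subgroup.center S := by
      rw [← hmk1, map_mul, map_inv]; exact h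
    have h2 := hσZ _ h1
    rw [map_mul, map_inv, hσ3] at h2
    have h3 := Subgroup.inv_mem _ h2
    have e : ((σ y)⁻¹ * y)⁻¹ = y⁻¹ * σ y := by group
    rw [e] at h3
    exact hy (hfp y h3)
  -- the five non-central elements
  have hx2 : (y * y)⁻¹ * (σ y * σ (σ y)) ∉ Subgroup.center S := by
    intro h
    have h1 := (hmk1 _).mpr h
    rw [map_mul, map_inv, map_mul, map_mul, hi'] at h1
    have h2 : ((mk y)⁻¹) ^ 3 = 1 := by
      rw [← h1, pow_succ, pow_two, mul_inv_rev]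
    have h3 := hpow 3 (by norm_num) _ h2
    exact hy1 (inv_eq_one.mp h3)
  have hx2' : (y * y)⁻¹ * (σ (σ y) * σ y) ∉ Subgroup.center S := by
    intro h
    have h1 := (hmk1 _).mpr h
    rw [map_mul, map_inv, map_mul, map_mul, mul_comm (mk (σ (σ y))), hi'] at h1
    have h2 : ((mk y)⁻¹) ^ 3 = 1 := by
      rw [← h1, pow_succ, pow_two, mul_inv_rev]
    have h3 := hpow 3 (by norm_num) _ h2
    exact hy1 (inv_eq_one.mp h3)
  have hx3 : (y * y)⁻¹ * (σ y * σ y) ∉ Subgroup.center S := by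
    intro h
    have h1 := (hmk1 _).mpr h
    rw [map_mul, map_inv, map_mul, map_mul] at h1
    have h2 : ((mk y)⁻¹ * mk (σ y)) ^ 2 = 1 := by
      rw [← h1, pow_two, mul_inv_rev]
      simp only [mul_comm, mul_left_comm, mul_assoc]
    exact hii (hpow 2 (by norm_num) _ h2)
  have hx4 : (y * y)⁻¹ * (y * σ (σ y)) ∉ Subgroup.center S := by
    intro h
    have h1 := (hmk1 _).mpr h
    rw [map_mul, map_inv, map_mul, map_mul] at h1
    apply hii'
    rw [← h1]
    group
  have hx4' : (y * y)⁻¹ * (σ (σ y) * y) ∉ Subgroup.center S := by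
    intro h
    have h1 := (hmk1 _).mpr h
    rw [map_mul, map_inv, map_mul, map_mul, mul_comm (mk (σ (σ y)))] at h1
    apply hii'
    rw [← h1]
    group
  -- the relation
  have hY2 : ρ (σ (σ y)) = κ * κ * ρ y * κ := by
    rw [hρσ, hρσ]
    have hk3 := kappa_cube κ hκ
    have : κ * (κ * ρ y * (κ * κ)) * (κ * κ) = κ * κ * ρ y * (κ * (κ * (κ * κ))) := by
      simp only [mul_assoc]
    rw [this, hk3, mul_one]
  have hrel := hh3 κ (ρ y) hκ h3
  rw [← hρσ y, ← hY2] at hrel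
  simp only [← map_mul ρ] at hrel
  -- multiply by `ρ ((y*y)⁻¹)`
  have hrel2 : ρ 1 + ρ ((y * y)⁻¹ * (σ y * σ (σ y))) + ρ ((y * y)⁻¹ * (σ (σ y) * σ y))
      = ρ ((y * y)⁻¹ * (σ y * σ y)) + ρ ((y * y)⁻¹ * (y * σ (σ y)))
        + ρ ((y * y)⁻¹ * (σ (σ y) * y)) := by
    have := congrArg (fun r => ρ ((y * y)⁻¹) * r) hrel
    simp only [mul_add, ← map_mul ρ] at this
    rw [inv_mul_cancel] at this
    exact this
  -- conjugate and sum
  have hrel3 : ∀ s : S, ρ (s * 1 * s⁻¹) + ρ (s * ((y * y)⁻¹ * (σ y * σ (σ y))) * s⁻¹)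
      + ρ (s * ((y * y)⁻¹ * (σ (σ y) * σ y)) * s⁻¹)
      = ρ (s * ((y * y)⁻¹ * (σ y * σ y)) * s⁻¹) + ρ (s * ((y * y)⁻¹ * (y * σ (σ y))) * s⁻¹)
        + ρ (s * ((y * y)⁻¹ * (σ (σ y) * y)) * s⁻¹) := by
    intro s
    have := congrArg (fun r => ρ s * r * ρ s⁻¹) hrel2
    simp only [mul_add, add_mul, ← map_mul ρ] at this
    exact this
  have hsum := Finset.sum_congr (rfl : (Finset.univ : Finset S) = Finset.univ)
    (fun s _ => hrel3 s)
  rw [Finset.sum_add_distrib, Finset.sum_add_distrib, Finset.sum_add_distrib,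
    Finset.sum_add_distrib, class_sum _ hx2, class_sum _ hx2', class_sum _ hx3, class_sum _ hx4,
    class_sum _ hx4'] at hsum
  have h5 : ∑ s : S, ρ (s * 1 * s⁻¹) = Nat.card S • (1 : R) := by
    have h6 : ∀ s : S, ρ (s * 1 * s⁻¹) = 1 := by
      intro s
      rw [mul_one, mul_inv_cancel, map_one]
    rw [Finset.sum_congr rfl (fun s _ => h6 s), Finset.sum_const, Finset.card_univ,
      Nat.card_eq_fintype_card]
  rw [h5] at hsum
  simp only [add_zero] at hsum
  exact one_ne_zero (hS 1 hsum)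

end Cfsg.Agent.Lib.Helper97.S3HH
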