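import Mathlib
import Cfsg.Agent.Lib.Helper37.SpTStmt

/-!
# S5980, piece TSCAL: scalars in Kronecker coordinates
-/

set_option autoImplicit false

namespace Cfsg.Agent.Lib.Helper97.SpTTSCAL

open scoped Kronecker MatrixGroups Matrix
open Cfsg.Agent.Lib.Helper37.SpTStmt

universe u

/-- the matrix of `toKron e P X` -/
theorem coe_toKron {F : Type u} [Field F] {ι : Type} [Fintype ι] [DecidableEq ι] {a b : ℕ}
    (e : ι ≃ Fin a × Fin b) (P X : GL ι F) :
    ((toKron e P X : GL (Fin a × Fin b) F) : Matrix (Fin a × Fin b) (Fin a × Fin b) F) =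
      Matrix.reindex e e (((P⁻¹ : GL ι F) : Matrix ι ι F) * (X : Matrix ι ι F) *
        (P : Matrix ι ι F)) := by
  have h0 : toKron e P X = Cfsg.Geo.glReindex e (P⁻¹ * X * P) := by
    show Cfsg.Geo.glReindex e (P⁻¹ * X * P⁻¹⁻¹) = _
    rw [inv_inv]
  rw [h0]
  rfl

theorem main : TScal.{u} := by
  intro F _ ι _ _ a b e P X z
  rw [coe_toKron]
  have hPi : ((P⁻¹ : GL ι F) : Matrix ι ι F) * (P : Matrix ι ι F) = 1 := by
    rw [← Units.val_mul, inv_mul_cancel, Units.val_one]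
  have hPi' : (P : Matrix ι ι F) * ((P⁻¹ : GL ι F) : Matrix ι ι F) = 1 := by
    rw [← Units.val_mul, mul_inv_cancel, Units.val_one]
  have hre : Matrix.reindex e e (z • (1 : Matrix ι ι F)) =
      z • (1 : Matrix (Fin a × Fin b) (Fin a × Fin b) F) := by
    ext i j
    simp [Matrix.reindex_apply, Matrix.one_apply]
  rw [← hre, (Matrix.reindex e e).injective.eq_iff]
  constructor
  · intro h
    have h1 : (X : Matrix ι ι F) = (P : Matrix ι ι F) *
        (((P⁻¹ : GL ι F) : Matrix ι ι F) * (X : Matrix ι ι F) * (P : Matrix ι ι F)) *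
        ((P⁻¹ : GL ι F) : Matrix ι ι F) := by
      calc (X : Matrix ι ι F) = 1 * (X : Matrix ι ι F) * 1 := by rw [Matrix.one_mul, Matrix.mul_one]
        _ = ((P : Matrix ι ι F) * ((P⁻¹ : GL ι F) : Matrix ι ι F)) * (X : Matrix ι ι F) *
              ((P : Matrix ι ι F) * ((P⁻¹ : GL ι F) : Matrix ι ι F)) := by rw [hPi']
        _ = _ := by simp only [Matrix.mul_assoc]
    rw [h1, h, Matrix.mul_smul, Matrix.smul_mul, Matrix.mul_one, hPi']
  · intro h
    rw [h, Matrix.mul_smul, Matrix.smul_mul, Matrix.mul_one, hPi]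

end Cfsg.Agent.Lib.Helper97.SpTTSCAL
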