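import Mathlib
import Cfsg.Agent.Lib.Helper37.SpTStmt

/-!
# S5980, piece TTEN: the tensor product subgroup in Kronecker coordinates
-/

set_option autoImplicit false

namespace Cfsg.Agent.Lib.Helper97.SpTTTEN

open scoped Kronecker MatrixGroups Matrix
open Cfsg.Agent.Lib.Helper37.SpTStmt

universe u

variable {F : Type u} [Field F] {ι : Type} [Fintype ι] [DecidableEq ι] {a b : ℕ}

theorem glReindex_symm_glReindex (e : ι ≃ Fin a × Fin b) (Y : GL ι F) :
    Cfsg.Geo.glReindex e.symm (Cfsg.Geo.glReindex e Y) = Y := by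
  apply Units.ext
  show Matrix.reindex e.symm e.symm (Matrix.reindex e e (Y : Matrix ι ι F)) = (Y : Matrix ι ι F)
  ext i j
  simp [Matrix.reindex_apply]

theorem glReindex_glReindex_symm (e : ι ≃ Fin a × Fin b) (k : GL (Fin a × Fin b) F) :
    Cfsg.Geo.glReindex e (Cfsg.Geo.glReindex e.symm k) = k := by
  apply Units.ext
  show Matrix.reindex e e (Matrix.reindex e.symm e.symm
    (k : Matrix (Fin a × Fin b) (Fin a × Fin b) F)) = (k : Matrix (Fin a × Fin b) (Fin a × Fin b) F)
  ext i j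
  simp [Matrix.reindex_apply]

theorem toKron_apply (e : ι ≃ Fin a × Fin b) (P X : GL ι F) :
    toKron e P X = Cfsg.Geo.glReindex e (P⁻¹ * X * P) := by
  show Cfsg.Geo.glReindex e (P⁻¹ * X * P⁻¹⁻¹) = _
  rw [inv_inv]

theorem main : TTen.{u} := by
  intro F _ ι _ _ a b e P X
  unfold Cfsg.Geo.tensorProductSubgroup
  constructor
  · intro hX
    obtain ⟨y, hy, hyX⟩ := Subgroup.mem_map.mp hX
    obtain ⟨k, hk, rfl⟩ := Subgroup.mem_map.mp hy
    have h1 : X = P * (Cfsg.Geo.glReindex e.symm k) * P⁻¹ := hyX.symm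
    have h2 : P⁻¹ * X * P = Cfsg.Geo.glReindex e.symm k := by
      rw [h1]
      group
    rw [toKron_apply, h2, glReindex_glReindex_symm]
    exact hk
  · intro hk
    refine Subgroup.mem_map.mpr ⟨Cfsg.Geo.glReindex e.symm (toKron e P X),
      Subgroup.mem_map.mpr ⟨toKron e P X, hk, rfl⟩, ?_⟩
    show P * (Cfsg.Geo.glReindex e.symm (toKron e P X)) * P⁻¹ = X
    rw [toKron_apply, glReindex_symm_glReindex]
    group

end Cfsg.Agent.Lib.Helper97.SpTTTEN
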