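import Mathlib
import Cfsg.Agent.Lib.Helper98.CExt
import Cfsg.Agent.Lib.Helper98.SplitN
import Cfsg.Agent.Lib.Helper98.StNF
import Cfsg.Agent.Lib.Helper98.Torus
import Cfsg.Agent.Lib.Helper97.KapTorus

set_option autoImplicit false

/-!
# Central extensions of `SL_3(F)` split for `|F| ∉ {2, 4}` (helper97)

`split_three`: a surjection `φ : Y →* SL_3(F)` with central kernel has a section, `F` a finite
field with `|F| ≠ 2, 4`.  The torus element `diag(e, e, e⁻²)` with `e³ ≠ 1` kills the symbols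
of commuting root elements, and the elements `⁅lift x_ik(1), lift x_kj(t)⁆` satisfy the
Steinberg relations.
-/

open scoped commutatorElement

namespace Cfsg.Agent.Lib.Helper97.SplitThree

open Matrix
open Cfsg.Agent.Lib.Helper98.CExt Cfsg.Agent.Lib.Helper98.StN Cfsg.Agent.Lib.Helper98.SplitN
  Cfsg.Agent.Lib.Helper98.Torus Cfsg.Agent.Lib.Helper97.KapTorus

lemma univ_three {i j k : Fin 3} (hij : i ≠ j) (hik : i ≠ k) (hjk : j ≠ k) :
    ({i, j, k} : Finset (Fin 3)) = Finset.univ := by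
  apply Finset.eq_univ_of_card
  rw [Finset.card_insert_of_notMem (by simp [hij, hik]),
    Finset.card_insert_of_notMem (by simp [hjk]), Finset.card_singleton, Fintype.card_fin]

lemma no_four_aux :
    ∀ i j k l : Fin 3, ¬ (i ≠ j ∧ k ≠ l ∧ i ≠ l ∧ j ≠ k ∧ i ≠ k ∧ j ≠ l) := by
  decide

lemma no_four (i j k l : Fin 3) (h1 : i ≠ j) (h2 : k ≠ l) (h3 : i ≠ l) (h4 : j ≠ k)
    (h5 : i ≠ k) (h6 : j ≠ l) : False :=
  no_four_aux i j k l ⟨h1, h2, h3, h4, h5, h6⟩

lemma third_unique_aux :
    ∀ i j l h : Fin 3, i ≠ j ∧ j ≠ l ∧ i ≠ l ∧ h ≠ i ∧ h ≠ l → h = j := by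
  decide

lemma third_unique (i j l h : Fin 3) (h1 : i ≠ j) (h2 : j ≠ l) (h3 : i ≠ l) (h4 : h ≠ i)
    (h5 : h ≠ l) : h = j :=
  third_unique_aux i j l h ⟨h1, h2, h3, h4, h5⟩

lemma aux_E {G : Type*} [Group G] (A B C D : G) (h : ∀ g, g * (B * D⁻¹) = B * D⁻¹ * g) :
    A * B * (C * D)⁻¹ = A * C⁻¹ * (B * D⁻¹) := by
  calc A * B * (C * D)⁻¹ = A * (B * D⁻¹ * C⁻¹) := by group
    _ = A * (C⁻¹ * (B * D⁻¹)) := by rw [← h C⁻¹]
    _ = A * C⁻¹ * (B * D⁻¹) := by group

section three

variable {F : Type*} [Field F] {Y : Type*} [Group Y]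
  (φ : Y →* Matrix.SpecialLinearGroup (Fin 3) F) (hφ : Function.Surjective φ)
  (hc : φ.ker ≤ Subgroup.center Y)

/-- the diagonal of the torus element `diag(e, e, e⁻²)`, the entry `e⁻²` at `k` -/
def dd (e : F) (k : Fin 3) : Fin 3 → F := fun m => if m = k then (e⁻¹) ^ 2 else e

lemma dd_prod (e : F) (he : e ≠ 0) {i j k : Fin 3} (hij : i ≠ j) (hik : i ≠ k) (hjk : j ≠ k) :
    ∏ m, dd e k m = 1 := by
  rw [← univ_three hij hik hjk, Finset.prod_insert (by simp [hij, hik]),
    Finset.prod_insert (by simp [hjk]), Finset.prod_singleton]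
  simp only [dd, if_neg hik, if_neg hjk, if_true]
  field_simp

lemma dd_ne (e : F) (he : e ≠ 0) (he3 : e ^ 3 ≠ 1) {i k : Fin 3} (hik : i ≠ k) :
    dd e k i ≠ dd e k k := by
  intro h
  apply he3
  simp only [dd, if_neg hik, if_true] at h
  have h' : e * e ^ 2 = (e⁻¹) ^ 2 * e ^ 2 := congrArg (· * e ^ 2) h
  calc e ^ 3 = e * e ^ 2 := by ring
    _ = (e⁻¹) ^ 2 * e ^ 2 := h'
    _ = 1 := by field_simp

include hφ hc in
/-- lifts of commuting root elements of `SL_3` commute -/
lemma lift_comm3 [Finite F] (e : F) (he0 : e ≠ 0) (he3 : e ^ 3 ≠ 1) {i j k l : Fin 3}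
    (hij : i ≠ j) (hkl : k ≠ l) (hil : i ≠ l) (hjk : j ≠ k) (t u : F) {y₁ y₂ : Y}
    (h1 : φ y₁ = SpecialLinearGroup.transvection hij t)
    (h2 : φ y₂ = SpecialLinearGroup.transvection hkl u) : y₁ * y₂ = y₂ * y₁ := by
  by_cases hik : i = k
  · subst hik
    by_cases hjl : j = l
    · subst hjl
      obtain ⟨h, hhi, hhj⟩ := exists_third (le_refl 3) i j
      exact comm_of_extra φ hφ hc hij hkl hil hjk hhi hhj hhi hhj t u h1 h2
    · exact comm_of_torus φ hφ hc hij hkl hil hjk (dd e l) (dd_prod e he0 hij hil hjl)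
        (by simp [dd, hil, hjl]) (dd_ne e he0 he3 hil) t u h1 h2
  · by_cases hjl : j = l
    · subst hjl
      exact comm_of_torus φ hφ hc hij hkl hil hjk (dd e k) (dd_prod e he0 hij hik hjk)
        (by simp [dd, hik, hjk]) (dd_ne e he0 he3 hjk).symm t u h1 h2
    · exact (no_four i j k l hij hkl hil hjk hik hjl).elim

include hc in
/-- the symbol `⁅x_ij(t), x_jl(u)⁆` depends only on `t * u` -/
lemma T_eq [Finite F] (e : F) (he0 : e ≠ 0) (he3 : e ^ 3 ≠ 1) {i j l : Fin 3} (hij : i ≠ j)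
    (hjl : j ≠ l) (hil : i ≠ l) (t u : F) :
    kap φ hφ (SpecialLinearGroup.transvection hij t) (SpecialLinearGroup.transvection hjl u) =
      kap φ hφ (SpecialLinearGroup.transvection hij 1)
        (SpecialLinearGroup.transvection hjl (t * u)) := by
  have hTadd : ∀ (s u u' : F),
      kap φ hφ (SpecialLinearGroup.transvection hij s)
          (SpecialLinearGroup.transvection hjl (u + u')) =
        kap φ hφ (SpecialLinearGroup.transvection hij s)
            (SpecialLinearGroup.transvection hjl u) *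
          kap φ hφ (SpecialLinearGroup.transvection hij s)
            (SpecialLinearGroup.transvection hjl u') := by
    intro s u u'
    obtain ⟨y, hy⟩ := hφ (SpecialLinearGroup.transvection hij s)
    obtain ⟨z₁, hz₁⟩ := hφ (SpecialLinearGroup.transvection hjl u)
    obtain ⟨z₂, hz₂⟩ := hφ (SpecialLinearGroup.transvection hjl u')
    have hz : φ (z₁ * z₂) = SpecialLinearGroup.transvection hjl (u + u') := by
      rw [map_mul, hz₁, hz₂, tv_add]
    rw [kap_eq' φ hc hφ hy hz₁, kap_eq' φ hc hφ hy hz₂, kap_eq' φ hc hφ hy hz]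
    have hb : φ ⁅y, z₂⁆ = SpecialLinearGroup.transvection hil (s * u') := by
      rw [map_commutatorElement, hy, hz₂, tv_bracket hij hjl hil]
    have hcomm : z₁ * ⁅y, z₂⁆ = ⁅y, z₂⁆ * z₁ :=
      lift_comm3 φ hφ hc e he0 he3 hjl hil hjl hil.symm u _ hz₁ hb
    exact comm_mul_right y z₁ z₂ hcomm
  obtain ⟨E, hE⟩ : ∃ E : F → Y, ∀ u, E u =
      kap φ hφ (SpecialLinearGroup.transvection hij t) (SpecialLinearGroup.transvection hjl u) *
        (kap φ hφ (SpecialLinearGroup.transvection hij 1)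
          (SpecialLinearGroup.transvection hjl (t * u)))⁻¹ := ⟨_, fun _ => rfl⟩
  have hEc : ∀ u g, g * E u = E u * g := by
    intro u g
    have hmem : E u ∈ Subgroup.center Y := hc (by
      rw [MonoidHom.mem_ker, hE, map_mul, map_inv, map_kap, map_kap, tv_bracket hij hjl hil,
        tv_bracket hij hjl hil, one_mul, mul_inv_cancel])
    exact Subgroup.mem_center_iff.mp hmem g
  have hEadd : ∀ u u', E (u + u') = E u * E u' := by
    intro u u'
    have h3 : ∀ g, g * (kap φ hφ (SpecialLinearGroup.transvection hij t)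
        (SpecialLinearGroup.transvection hjl u') *
        (kap φ hφ (SpecialLinearGroup.transvection hij 1)
          (SpecialLinearGroup.transvection hjl (t * u')))⁻¹) =
        kap φ hφ (SpecialLinearGroup.transvection hij t)
        (SpecialLinearGroup.transvection hjl u') *
        (kap φ hφ (SpecialLinearGroup.transvection hij 1)
          (SpecialLinearGroup.transvection hjl (t * u')))⁻¹ * g := by
      intro g
      rw [← hE u']
      exact hEc u' g
    rw [hE, hE, hE, mul_add, hTadd t u u', hTadd 1 (t * u) (t * u')]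
    exact aux_E _ _ _ _ h3
  have hd : ∏ m, dd e l m = 1 := dd_prod e he0 hij hil hjl
  obtain ⟨w, hw⟩ := hφ (dg (dd e l) hd)
  have hinv : ∀ u, E (e ^ 3 * u) = E u := by
    intro u
    have h1 := conj_kap_dg φ hφ hc (dd e l) hd hw hij hjl t u
    have h2 := conj_kap_dg φ hφ hc (dd e l) hd hw hij hjl 1 (t * u)
    have hd1 : dd e l i * (dd e l j)⁻¹ = 1 := by
      simp only [dd, if_neg hil, if_neg hjl]
      exact mul_inv_cancel₀ he0
    have hd2 : dd e l j * (dd e l l)⁻¹ = e ^ 3 := by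
      simp only [dd, if_neg hjl, if_true]
      field_simp
    rw [hd1, hd2, one_mul] at h1 h2
    have h3 : E (e ^ 3 * u) = w * E u * w⁻¹ := by
      rw [hE, hE, mul_left_comm t (e ^ 3) u, ← h1, ← h2]
      group
    rw [h3, hEc u w]
    group
  have hE1 := principle E hEadd (e ^ 3) (pow_ne_zero 3 he0) he3 hinv u
  rw [hE] at hE1
  exact mul_inv_eq_one.mp hE1

include hc in
theorem preSys3 [Finite F] (e : F) (he0 : e ≠ 0) (he3 : e ^ 3 ≠ 1) :
    PreSys (sx φ hφ (le_refl 3)) where
  add := by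
    intro i j hij t u
    obtain ⟨hhi, hhj⟩ := Classical.choose_spec (exists_third (le_refl 3) i j)
    have e' : ∀ s : F, sx φ hφ (le_refl 3) i j s =
        kap φ hφ (SpecialLinearGroup.transvection hhi.symm 1)
          (SpecialLinearGroup.transvection hhj s) := by
      intro s
      rw [sx, if_pos hij]
    rw [e' t, e' u, e' (t + u)]
    obtain ⟨y, hy⟩ := hφ (SpecialLinearGroup.transvection hhi.symm 1)
    obtain ⟨z₁, hz₁⟩ := hφ (SpecialLinearGroup.transvection hhj t)
    obtain ⟨z₂, hz₂⟩ := hφ (SpecialLinearGroup.transvection hhj u)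
    have hz : φ (z₁ * z₂) = SpecialLinearGroup.transvection hhj (t + u) := by
      rw [map_mul, hz₁, hz₂, tv_add]
    rw [kap_eq' φ hc hφ hy hz₁, kap_eq' φ hc hφ hy hz₂, kap_eq' φ hc hφ hy hz]
    have hb : φ ⁅y, z₂⁆ = SpecialLinearGroup.transvection hij (1 * u) := by
      rw [map_commutatorElement, hy, hz₂, tv_bracket hhi.symm hhj hij]
    have hcomm : z₁ * ⁅y, z₂⁆ = ⁅y, z₂⁆ * z₁ :=
      lift_comm3 φ hφ hc e he0 he3 hhj hij hhj hij.symm t _ hz₁ hb
    exact (comm_mul_right y z₁ z₂ hcomm).symm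
  comm := by
    intro i j k l hij hkl hil hjk t u
    exact lift_comm3 φ hφ hc e he0 he3 hij hkl hil hjk t u (map_sx φ hφ _ hij t)
      (map_sx φ hφ _ hkl u)
  comm3 := by
    intro i j l hij hjl hil t u
    rw [← commutatorElement_def,
      ← kap_eq' φ hc hφ (map_sx φ hφ _ hij t) (map_sx φ hφ _ hjl u),
      T_eq φ hφ hc e he0 he3 hij hjl hil t u, sx, if_pos hil]
    have key : ∀ (h : Fin 3) (hih : i ≠ h) (hhl : h ≠ l) (s : F),
        kap φ hφ (SpecialLinearGroup.transvection hih 1)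
          (SpecialLinearGroup.transvection hhl s) =
        kap φ hφ (SpecialLinearGroup.transvection hij 1)
          (SpecialLinearGroup.transvection hjl s) := by
      intro h hih hhl s
      have hh : h = j := third_unique i j l h hij hjl hil hih.symm hhl
      subst hh
      rfl
    exact (key _ _ _ _).symm

end three

/-- **PC of S2086.** Central extensions of `SL_3(F)` split for `|F| ≠ 2, 4`. -/
theorem split_three {F : Type*} [Field F] [Fintype F] (h2 : Fintype.card F ≠ 2)
    (h4 : Fintype.card F ≠ 4) {Y : Type*} [Group Y]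
    (φ : Y →* Matrix.SpecialLinearGroup (Fin 3) F) (hφ : Function.Surjective φ)
    (hc : φ.ker ≤ Subgroup.center Y) :
    ∃ s : Matrix.SpecialLinearGroup (Fin 3) F →* Y, ∀ g, φ (s g) = g := by
  obtain ⟨e, he0, he3⟩ := exists_pow_ne_one (K := F) 3 (fun hdvd => by
    have h := (Nat.dvd_prime Nat.prime_three).mp hdvd
    have := Fintype.one_lt_card (α := F)
    omega)
  exact section_of_preSys (le_refl 3) φ (preSys3 φ hφ hc e he0 he3)
    (fun _ _ hij t => map_sx φ hφ _ hij t)

end Cfsg.Agent.Lib.Helper97.SplitThree
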