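import Mathlib
import Cfsg.Agent.Lib.Helper41.SubfStmt
import Cfsg.Agent.Lib.Helper40.SSConj
import Cfsg.Agent.Lib.Helper40.SSCount

/-!
# S5965, piece CONJ

If `x ^ r` is scalar, `det x = 1` and a scalar multiple `c • x` has its characteristic polynomial
over the subfield `F₀`, then `x` is conjugate under a matrix of determinant `1` to a scalar
multiple of a matrix over `F₀`: take a matrix over `F₀` of order prime to `p` with that
characteristic polynomial; it and `c • x` are semisimple with the same characteristic polynomial.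
-/

set_option autoImplicit false
universe u

namespace Cfsg.Agent.Lib.Helper97.SubfCONJ

open Cfsg.Agent.Lib.Helper41.SubfStmt

theorem main : Conj.{u} := by
  intro F _ _ p _ _ n hn F₀ r hr hrF x hdet z hxr c hc χ₀ hχ
  classical
  have hp : p.Prime := Fact.out
  have hne : Nonempty (Fin n) := ⟨⟨0, hn⟩⟩
  have hz : z ≠ 0 := by
    intro h0
    have h1 : (x ^ r).det = 1 := by rw [Matrix.det_pow, hdet, one_pow]
    rw [hxr, h0, zero_smul, Matrix.det_zero] at h1
    exact zero_ne_one h1
  have hinj : Function.Injective (F₀.subtype : F₀ →+* F) := Subtype.val_injective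
  have hmonic : χ₀.Monic := by
    have h1 : (χ₀.map (F₀.subtype : F₀ →+* F)).Monic := by
      rw [← hχ]
      exact Matrix.charpoly_monic _
    exact Polynomial.monic_of_injective hinj h1
  have hdeg : χ₀.natDegree = n := by
    have h1 : (χ₀.map (F₀.subtype : F₀ →+* F)).natDegree = n := by
      rw [← hχ, Matrix.charpoly_natDegree_eq_dim, Fintype.card_fin]
    rwa [Polynomial.natDegree_map_eq_of_injective hinj] at h1
  have hcoeff : χ₀.coeff 0 ≠ 0 := by
    intro h0
    have h1 : (c • x).charpoly.coeff 0 = 0 := by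
      rw [hχ, Polynomial.coeff_map, h0, map_zero]
    have h2 : (c • x).det = (-1) ^ (Fintype.card (Fin n)) * (c • x).charpoly.coeff 0 :=
      Matrix.det_eq_sign_charpoly_coeff _
    rw [h1, mul_zero, Matrix.det_smul, hdet, mul_one, Fintype.card_fin] at h2
    exact pow_ne_zero n hc h2
  have hchar : CharP F₀ p := RingHom.charP (F₀.subtype : F₀ →+* F) hinj p
  obtain ⟨y₀, hy₀, N, hNpos, hNcop, hyN⟩ :=
    Cfsg.Agent.Lib.Helper40.SSCount.exists_charpoly p n χ₀ hmonic hdeg hcoeff
  obtain ⟨B, hBdef⟩ : ∃ B : Matrix (Fin n) (Fin n) F,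
      B = (F₀.subtype : F₀ →+* F).mapMatrix y₀ := ⟨_, rfl⟩
  have hBmap : B = y₀.map (F₀.subtype : F₀ →+* F) := hBdef
  have hcpB : B.charpoly = χ₀.map (F₀.subtype : F₀ →+* F) := by
    rw [hBmap, Matrix.charpoly_map, hy₀]
  have hq : ∀ a : F, a ≠ 0 → a ^ (Fintype.card F - 1) = 1 :=
    fun a ha => FiniteField.pow_card_sub_one_eq_one a ha
  have hA : (c • x) ^ (r * (Fintype.card F - 1) * N) = 1 := by
    rw [pow_mul, pow_mul, smul_pow, hxr, smul_smul, smul_pow, one_pow,
      hq _ (mul_ne_zero (pow_ne_zero r hc) hz), one_smul, one_pow]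
  have hB : B ^ (r * (Fintype.card F - 1) * N) = 1 := by
    have h1 : B ^ N = 1 := by
      rw [hBdef, ← map_pow, hyN, map_one]
    rw [mul_comm, pow_mul, h1, one_pow]
  have hMF : ((r * (Fintype.card F - 1) * N : ℕ) : F) ≠ 0 := by
    have h1 : ((Fintype.card F - 1 : ℕ) : F) ≠ 0 := by
      rw [Nat.cast_sub Fintype.card_pos, FiniteField.cast_card_eq_zero]
      simp
    have h2 : (N : F) ≠ 0 := by
      rw [Ne, CharP.cast_eq_zero_iff F p N]
      exact (Nat.Prime.coprime_iff_not_dvd hp).1 hNcop.symm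
    rw [Nat.cast_mul, Nat.cast_mul]
    exact mul_ne_zero (mul_ne_zero hrF h1) h2
  obtain ⟨S, hS, hSAB⟩ := Cfsg.Agent.Lib.Helper40.SSConj.matrix_conj_det_one (c • x) B _ hMF hA hB
    (hχ.trans hcpB.symm)
  refine ⟨S, c⁻¹, y₀, hS, inv_ne_zero hc, ?_⟩
  have h1 : S * x = c⁻¹ • (S * (c • x)) := by
    rw [Matrix.mul_smul, smul_smul, inv_mul_cancel₀ hc, one_smul]
  rw [h1, hSAB, Matrix.smul_mul, hBmap]

end Cfsg.Agent.Lib.Helper97.SubfCONJ
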