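import Mathlib
import Cfsg.Agent.Lib.Helper44.TSStmt
import Cfsg.Agent.Lib.Helper43.HypBFCore
import Cfsg.Agent.Lib.Helper82.HypINVDIM
import Cfsg.Agent.Lib.Helper97.TSORTHSUM

/-!
# S5972 / PAIRE (call by helper44), counting route

Two orthogonal invariant nondegenerate blocks of finrank `i` (`i` even) killed by the same
irreducible `P`: their sum `M` contains an invariant totally singular subspace of finrank `i`.
`M \ 0` is the disjoint union of the `L \ 0` over the cyclic subspaces `L`; if no `L` were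
totally singular, each would be nondegenerate of minus type, and counting singular vectors
(Helper44.OTyp2.obs_even) gives a contradiction.
-/

set_option autoImplicit false

universe u

open scoped Matrix

namespace Cfsg.Agent.Lib.Helper97.TSPAIRE

open Module QuadraticMap Polynomial
open Cfsg.Agent.Lib.Helper44.QSpace Cfsg.Agent.Lib.Helper44.OGroup
open Cfsg.Agent.Lib.Helper44.OTyp1 Cfsg.Agent.Lib.Helper44.OTyp2
open Cfsg.Agent.Lib.Helper44.NegPairs
open Cfsg.Agent.Lib.Helper43.HypBFCore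
open Cfsg.Agent.Lib.Helper37.HypStmt Cfsg.Agent.Lib.Helper37.HypStmt2
open Cfsg.Agent.Lib.Helper44.TSStmt

/-- the final arithmetic contradiction -/
theorem arith (q a X T S cL : ℤ) (hq : 2 ≤ q) (ha : 1 ≤ a) (hX : X + 1 = q ^ 2 * a ^ 2)
    (hT : T + 1 = (X + 1) ^ 2) (hL : (cL + 1) * q = a * q + q ^ 2 * ((a - 1) * a))
    (hS : (S + 1) * q = (X + 1) * q + X * (X + 1)) (hD : T * cL = S * X) : False := by
  have hq0 : q ≠ 0 := by intro h; rw [h] at hq; norm_num at hq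
  have hqa : 0 < q * a := mul_pos (by linarith) (by linarith)
  have hX' : X = q ^ 2 * a ^ 2 - 1 := by linarith
  have hXpos : 0 < X := by
    have hqa2 : 2 ≤ q * a := by nlinarith
    have h4 : 4 ≤ (q * a) ^ 2 := by nlinarith
    have h5 : q ^ 2 * a ^ 2 = (q * a) ^ 2 := by ring
    linarith
  have hcL : cL = (a - 1) * (1 + q * a) := by
    have h : (cL + 1) * q = (a + q * ((a - 1) * a)) * q := by rw [hL]; ring
    have h' := mul_right_cancel₀ hq0 h
    linarith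
  have hSv : S = X * (1 + q * a ^ 2) := by
    have h : (S + 1) * q = (X + 1 + X * q * a ^ 2) * q := by
      rw [hS]
      have : X * (X + 1) = X * (q ^ 2 * a ^ 2) := by rw [hX]
      rw [this]; ring
    have h' := mul_right_cancel₀ hq0 h
    linarith
  have hTv : T = X * (X + 2) := by
    have : T = (X + 1) ^ 2 - 1 := by linarith
    rw [this]; ring
  rw [hTv, hcL, hSv] at hD
  have h3 : X * ((X + 2) * ((a - 1) * (1 + q * a))) = X * ((1 + q * a ^ 2) * X) := by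
    linear_combination hD
  have h4 := mul_left_cancel₀ (ne_of_gt hXpos) h3
  have h5 : (1 + q * a ^ 2) * X - (X + 2) * ((a - 1) * (1 + q * a))
      = a * (q - 1) * (q * a + 1) ^ 2 := by
    rw [hX']; ring
  have h6 : 0 < a * (q - 1) * (q * a + 1) ^ 2 :=
    mul_pos (mul_pos (by linarith) (by linarith)) (pow_pos (by linarith) 2)
  rw [← h5, h4] at h6
  simp at h6

section core
variable {F : Type*} [Field F] [Fintype F] {V : Type u} [AddCommGroup V] [Module F V]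
  [FiniteDimensional F V]

/-- counting singular vectors of an invariant nondegenerate subspace without fixed vectors -/
theorem count_sub (Q : QuadraticForm F V) (φ φ' : Module.End F V) (h2 : φ' * φ = 1)
    (hφ : ∀ v, Q (φ v) = Q v) {r : ℕ} [Fact r.Prime] (hr2 : r ≠ 2) (hφr : φ ^ r = 1)
    (E : Submodule F V) (hE : ∀ v ∈ E, φ v ∈ E) (hfix : ∀ v ∈ E, φ v = v → v = 0)
    (hnd : ∀ u ∈ E, u ≠ 0 → ∃ y ∈ E, polar Q u y ≠ 0) {k : ℕ}
    (hfin : finrank F ↥E = 2 * (k + 1)) (i : ℕ)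
    (hi : i = orderOf ((Fintype.card F : ℕ) : ZMod r))
    (hev : Even i) (K : ℕ) (hK : 2 * (k + 1) = i * K) :
    (Even K → Nat.card {v : ↥E // Q (v : V) = 0} * Fintype.card F
      = Fintype.card F ^ (k + 1 + 1)
        + (Fintype.card F ^ (k + 1) - 1) * Fintype.card F ^ (k + 1)) ∧
    (¬ Even K → Nat.card {v : ↥E // Q (v : V) = 0} * Fintype.card F
      = Fintype.card F ^ (k + 1)
        + Fintype.card F ^ 2 * ((Fintype.card F ^ k - 1) * Fintype.card F ^ k)) := by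
  have hS : Sep (res Q E) := by
    intro v hv
    by_contra hv0
    have hv0' : (v : V) ≠ 0 := fun h => hv0 (Subtype.ext h)
    obtain ⟨y, hyE, hy⟩ := hnd v v.2 hv0'
    exact hy (hv ⟨y, hyE⟩)
  obtain ⟨ψ, hψ⟩ : ∃ ψ : ↥E →ₗ[F] ↥E, ∀ v : ↥E, ((ψ v : ↥E) : V) = φ (v : V) :=
    ⟨φ.restrict hE, fun v => rfl⟩
  have hψinj : Function.Injective ψ := by
    intro a b hab
    apply Subtype.ext
    have h1 : φ (a : V) = φ (b : V) := by rw [← hψ, ← hψ, hab]
    have h3 := congrArg φ' h1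
    rw [← Module.End.mul_apply, ← Module.End.mul_apply, h2, Module.End.one_apply,
      Module.End.one_apply] at h3
    exact h3
  obtain ⟨g, hg⟩ : ∃ g : ↥E ≃ₗ[F] ↥E, ∀ v : ↥E, ((g v : ↥E) : V) = φ (v : V) :=
    ⟨LinearEquiv.ofInjectiveEndo ψ hψinj, fun v => by
      have h1 : (LinearEquiv.ofInjectiveEndo ψ hψinj) v = ψ v := by
        rw [← LinearEquiv.coe_ofInjectiveEndo ψ hψinj]
      rw [h1]; exact hψ v⟩
  have hgO : g ∈ O (res Q E) := by
    intro v
    show Q ((g v : ↥E) : V) = Q (v : V)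
    rw [hg, hφ]
  have hgpow : ∀ n : ℕ, ∀ v : ↥E, (((g ^ n) v : ↥E) : V) = (φ ^ n) (v : V) := by
    intro n
    induction n with
    | zero => intro v; simp
    | succ n ih =>
      intro v
      rw [pow_succ', LinearEquiv.mul_apply, hg, ih, pow_succ', Module.End.mul_apply]
  have hgr : g ^ r = 1 := by
    apply LinearEquiv.ext
    intro v
    apply Subtype.ext
    rw [hgpow, hφr]
    simp
  have hfree : ∀ v : ↥E, v ≠ 0 → g v ≠ v := by
    intro v hv hgv
    apply hv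
    apply Subtype.ext
    apply hfix (v : V) v.2
    rw [← hg, hgv]
  exact obs_even (res Q E) hS hfin hr2 g hgO hgr hfree i hi hev K hK

theorem card_sing_filter [Fintype V] (Q : QuadraticForm F V) (E : Submodule F V)
    [DecidablePred (fun v : V => v ∈ E ∧ v ≠ 0 ∧ Q v = 0)] :
    (Finset.univ.filter (fun v : V => v ∈ E ∧ v ≠ 0 ∧ Q v = 0)).card + 1
      = Nat.card {v : ↥E // Q (v : V) = 0} := by
  classical
  have h1 : Nat.card {v : ↥E // Q (v : V) = 0} = Nat.card {v : V // v ∈ E ∧ Q v = 0} :=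
    Nat.card_congr (Equiv.subtypeSubtypeEquivSubtypeInter (fun v : V => v ∈ E)
      (fun v : V => Q v = 0))
  rw [h1, Nat.card_eq_fintype_card, Fintype.card_subtype]
  have h2 : Finset.univ.filter (fun v : V => v ∈ E ∧ v ≠ 0 ∧ Q v = 0)
      = (Finset.univ.filter (fun v : V => v ∈ E ∧ Q v = 0)).erase 0 := by
    ext v
    simp only [Finset.mem_filter, Finset.mem_univ, true_and, Finset.mem_erase]
    tauto
  rw [h2, Finset.card_erase_of_mem, Nat.sub_add_cancel]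
  · exact Finset.card_pos.mpr ⟨0, by simp⟩
  · simp

theorem card_nz_filter [Fintype V] (E : Submodule F V)
    [DecidablePred (fun v : V => v ∈ E ∧ v ≠ 0)] :
    (Finset.univ.filter (fun v : V => v ∈ E ∧ v ≠ 0)).card + 1
      = Fintype.card F ^ finrank F ↥E := by
  classical
  have h := card_sing_filter (0 : QuadraticForm F V) E
  have hc : Nat.card {v : ↥E // (0 : QuadraticForm F V) (v : V) = 0}
      = Fintype.card F ^ finrank F ↥E := by
    rw [Nat.card_congr (Equiv.subtypeUnivEquiv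
        (p := fun v : ↥E => (0 : QuadraticForm F V) (v : V) = 0) (fun v => rfl)),
      Module.natCard_eq_pow_finrank (K := F), Nat.card_eq_fintype_card]
  rw [← hc, ← h]
  congr 2
  ext v
  simp

theorem exists_ts (Q : QuadraticForm F V) (h2F : (2 : F) ≠ 0) (φ φ' : Module.End F V)
    (h1 : φ * φ' = 1) (h2 : φ' * φ = 1)
    (hφ : ∀ v, Q (φ v) = Q v) {r : ℕ} [Fact r.Prime] (hr2 : r ≠ 2) (hφr : φ ^ r = 1)
    (i : ℕ) (hi : i = orderOf ((Fintype.card F : ℕ) : ZMod r)) (hev : Even i) (hi0 : 0 < i)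
    (hInv : ∀ R : Submodule F V, (∀ v ∈ R, φ v ∈ R) → (∀ v ∈ R, φ v = v → v = 0) →
      i ∣ finrank F ↥R)
    (P : F[X]) (hPm : P.Monic) (hPd : P.natDegree = i)
    (M : Submodule F V) (hM : ∀ v ∈ M, φ v ∈ M) (hMfix : ∀ v ∈ M, φ v = v → v = 0)
    (hMnd : ∀ u ∈ M, u ≠ 0 → ∃ y ∈ M, polar Q u y ≠ 0) (hMfin : finrank F ↥M = 2 * i)
    (hMP : ∀ v ∈ M, aeval φ P v = 0) :
    ∃ U : Submodule F V, U ≤ M ∧ (∀ v ∈ U, φ v ∈ U) ∧ (∀ v ∈ U, Q v = 0) ∧
      finrank F ↥U = i := by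
  classical
  by_contra hno
  push Not at hno
  obtain ⟨e, he⟩ := hev
  have he1 : 1 ≤ e := by omega
  obtain ⟨q, hq⟩ : ∃ q : ℕ, q = Fintype.card F := ⟨_, rfl⟩
  have hq2 : 2 ≤ q := by rw [hq]; exact Fintype.one_lt_card
  -- `φ' = φ ^ (r - 1)`
  have hr1 : 1 ≤ r := (Fact.out : r.Prime).one_lt.le
  have hφ' : φ' = φ ^ (r - 1) := by
    have h3 : φ ^ r = φ * φ ^ (r - 1) := by
      rw [← pow_succ']
      congr 1
      omega
    calc φ' = φ' * φ ^ r := by rw [hφr, mul_one]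
      _ = (φ' * φ) * φ ^ (r - 1) := by rw [h3, mul_assoc]
      _ = φ ^ (r - 1) := by rw [h2, one_mul]
  -- the lines
  have hL1 : ∀ w ∈ M, w ≠ 0 → cyc φ i w ≤ M ∧ (∀ v ∈ cyc φ i w, φ v ∈ cyc φ i w) ∧
      w ∈ cyc φ i w ∧ finrank F ↥(cyc φ i w) = i := by
    intro w hw hw0
    have hle : cyc φ i w ≤ M := cyc_le φ M hM i w hw
    have hst : ∀ v ∈ cyc φ i w, φ v ∈ cyc φ i w := by
      have h := cyc_inv φ P hPm w (hMP w hw)
      rw [hPd] at h
      exact h
    have hmem : w ∈ cyc φ i w := mem_cyc_self φ i hi0 w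
    refine ⟨hle, hst, hmem, ?_⟩
    have h3 : finrank F ↥(cyc φ i w) ≤ i := finrank_cyc_le φ i w
    have h4 : i ∣ finrank F ↥(cyc φ i w) := hInv _ hst (fun v hv => hMfix v (hle hv))
    have h5 : finrank F ↥(cyc φ i w) ≠ 0 := by
      intro h
      have hbot : cyc φ i w = ⊥ := Submodule.finrank_eq_zero.mp h
      rw [hbot] at hmem
      exact hw0 ((Submodule.mem_bot F).mp hmem)
    have h6 := Nat.le_of_dvd (Nat.pos_of_ne_zero h5) h4
    omega
  have hL2 : ∀ w ∈ M, w ≠ 0 → ∀ v ∈ cyc φ i w, v ≠ 0 → cyc φ i v = cyc φ i w := by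
    intro w hw hw0 v hv hv0
    obtain ⟨hle, hst, hmem, hfr⟩ := hL1 w hw hw0
    obtain ⟨hle', hst', hmem', hfr'⟩ := hL1 v (hle hv) hv0
    exact Submodule.eq_of_le_of_finrank_eq (cyc_le φ _ hst i v hv) (by rw [hfr, hfr'])
  have hL3 : ∀ w ∈ M, w ≠ 0 → ∀ u ∈ cyc φ i w, u ≠ 0 → ∃ y ∈ cyc φ i w, polar Q u y ≠ 0 := by
    intro w hw hw0
    obtain ⟨hle, hst, hmem, hfr⟩ := hL1 w hw hw0
    have hnts : ¬ ∀ v ∈ cyc φ i w, Q v = 0 := fun h => hno _ hle hst h hfr
    push Not at hnts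
    obtain ⟨v0, hv0, hQv0⟩ := hnts
    have hne : polar Q v0 v0 ≠ 0 := by
      have h3 : polar Q v0 v0 = 2 * Q v0 := by
        have := polar_self' Q v0
        rw [this]
      rw [h3]
      exact mul_ne_zero h2F hQv0
    have hst' : ∀ v ∈ cyc φ i w, φ' v ∈ cyc φ i w := by
      intro v hv
      rw [hφ']
      exact pow_mem φ _ hst (r - 1) v hv
    have hker := lker_eq_bot Q i φ φ' h1 hφ hInv (cyc φ i w) (cyc φ i w) hst hst'
      (fun v hv => hMfix v (hle hv)) hfr.le v0 v0 hv0 hv0 hne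
    intro u hu hu0
    by_contra hcon
    push Not at hcon
    exact hu0 (hker u hu hcon)
  -- counts
  have hcntL : ∀ w ∈ M, w ≠ 0 → Nat.card {v : ↥(cyc φ i w) // Q (v : V) = 0} * q
      = q ^ (e - 1 + 1) + q ^ 2 * ((q ^ (e - 1) - 1) * q ^ (e - 1)) := by
    intro w hw hw0
    obtain ⟨hle, hst, hmem, hfr⟩ := hL1 w hw hw0
    have h := (count_sub Q φ φ' h2 hφ hr2 hφr (cyc φ i w) hst (fun v hv => hMfix v (hle hv))
      (hL3 w hw hw0) (k := e - 1) (by rw [hfr]; omega) i hi ⟨e, he⟩ 1 (by omega)).2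
      (by decide)
    rw [← hq] at h
    exact h
  have hcntM : Nat.card {v : ↥M // Q (v : V) = 0} * q
      = q ^ (i - 1 + 1 + 1) + (q ^ (i - 1 + 1) - 1) * q ^ (i - 1 + 1) := by
    have h := (count_sub Q φ φ' h2 hφ hr2 hφr M hM hMfix hMnd (k := i - 1)
      (by rw [hMfin]; omega) i hi ⟨e, he⟩ 2 (by omega)).1 (by decide)
    rw [← hq] at h
    exact h
  haveI : Finite V := Module.finite_of_finite F
  haveI : Fintype V := Fintype.ofFinite V
  obtain ⟨T, hT⟩ : ∃ T : Finset V, T = Finset.univ.filter (fun v : V => v ∈ M ∧ v ≠ 0) :=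
    ⟨_, rfl⟩
  obtain ⟨S, hS⟩ : ∃ S : Finset V,
      S = Finset.univ.filter (fun v : V => v ∈ M ∧ v ≠ 0 ∧ Q v = 0) := ⟨_, rfl⟩
  have hdc := Finset.sum_card_bipartiteAbove_eq_sum_card_bipartiteBelow
    (r := fun w v : V => v ∈ cyc φ i w) (s := T) (t := S)
  obtain ⟨cL, hcL⟩ : ∃ cL : ℕ, cL + 1 = q ^ (e - 1) + q * ((q ^ (e - 1) - 1) * q ^ (e - 1)) :=
    ⟨q ^ (e - 1) + q * ((q ^ (e - 1) - 1) * q ^ (e - 1)) - 1, by
      have : 1 ≤ q ^ (e - 1) := Nat.one_le_pow _ _ (by omega)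
      omega⟩
  have hq0 : 0 < q := by omega
  have hlhs : ∀ w ∈ T, (Finset.bipartiteAbove (fun w v : V => v ∈ cyc φ i w) S w).card = cL := by
    intro w hwT
    rw [hT, Finset.mem_filter] at hwT
    obtain ⟨hw, hw0⟩ := hwT.2
    obtain ⟨hle, hst, hmem, hfr⟩ := hL1 w hw hw0
    have h3 : Finset.bipartiteAbove (fun w v : V => v ∈ cyc φ i w) S w
        = Finset.univ.filter (fun v : V => v ∈ cyc φ i w ∧ v ≠ 0 ∧ Q v = 0) := by
      ext v
      rw [Finset.mem_bipartiteAbove, hS, Finset.mem_filter, Finset.mem_filter]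
      constructor
      · rintro ⟨⟨-, -, hv0, hQ⟩, hv⟩
        exact ⟨Finset.mem_univ _, hv, hv0, hQ⟩
      · rintro ⟨-, hv, hv0, hQ⟩
        exact ⟨⟨Finset.mem_univ _, hle hv, hv0, hQ⟩, hv⟩
    rw [h3]
    have h4 := card_sing_filter Q (cyc φ i w)
    have h5 := hcntL w hw hw0
    rw [← h4] at h5
    have h6 : ((Finset.univ.filter (fun v : V => v ∈ cyc φ i w ∧ v ≠ 0 ∧ Q v = 0)).card + 1) * q
        = (cL + 1) * q := by
      rw [h5, hcL]
      ring
    have h7 := Nat.eq_of_mul_eq_mul_right hq0 h6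
    omega
  have hrhs : ∀ v ∈ S, (Finset.bipartiteBelow (fun w v : V => v ∈ cyc φ i w) T v).card + 1
      = q ^ i := by
    intro v hvS
    rw [hS, Finset.mem_filter] at hvS
    obtain ⟨hv, hv0, hQv⟩ := hvS.2
    obtain ⟨hle, hst, hmem, hfr⟩ := hL1 v hv hv0
    have h3 : Finset.bipartiteBelow (fun w v : V => v ∈ cyc φ i w) T v
        = Finset.univ.filter (fun w : V => w ∈ cyc φ i v ∧ w ≠ 0) := by
      ext w
      rw [Finset.mem_bipartiteBelow, hT, Finset.mem_filter, Finset.mem_filter]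
      constructor
      · rintro ⟨⟨-, hw, hw0⟩, hvw⟩
        refine ⟨Finset.mem_univ _, ?_, hw0⟩
        rw [hL2 w hw hw0 v hvw hv0]
        exact (hL1 w hw hw0).2.2.1
      · rintro ⟨-, hw, hw0⟩
        refine ⟨⟨Finset.mem_univ _, hle hw, hw0⟩, ?_⟩
        rw [hL2 v hv hv0 w hw hw0]
        exact hmem
    rw [h3, card_nz_filter (F := F) (cyc φ i v), hfr, hq]
  rw [Finset.sum_congr rfl hlhs, Finset.sum_const, smul_eq_mul] at hdc
  have hrhs' : ∀ v ∈ S, (Finset.bipartiteBelow (fun w v : V => v ∈ cyc φ i w) T v).card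
      = q ^ i - 1 := fun v hv => by
    have := hrhs v hv
    omega
  rw [Finset.sum_congr rfl hrhs', Finset.sum_const, smul_eq_mul] at hdc
  have hTc : T.card + 1 = q ^ (2 * i) := by
    rw [hT, card_nz_filter (F := F) M, hMfin, hq]
  have hSc : S.card + 1 = Nat.card {v : ↥M // Q (v : V) = 0} := by
    rw [hS]
    exact card_sing_filter Q M
  rw [← hSc] at hcntM
  -- to the integers
  have hpe : 1 ≤ q ^ (e - 1) := Nat.one_le_pow _ _ hq0
  have hpi : 1 ≤ q ^ i := Nat.one_le_pow _ _ hq0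
  have hii : i - 1 + 1 = i := by omega
  rw [hii] at hcntM
  have hqi : q ^ i = q ^ 2 * (q ^ (e - 1)) ^ 2 := by
    have : i = 2 + (e - 1) * 2 := by omega
    rw [this, pow_add, pow_mul]
  apply arith (q : ℤ) ((q : ℤ) ^ (e - 1)) ((q : ℤ) ^ i - 1) (T.card : ℤ) (S.card : ℤ) (cL : ℤ)
    (by exact_mod_cast hq2) (by exact_mod_cast hpe)
  · rw [sub_add_cancel]
    exact_mod_cast hqi
  · rw [sub_add_cancel]
    have : ((T.card + 1 : ℕ) : ℤ) = ((q ^ (2 * i) : ℕ) : ℤ) := by rw [hTc]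
    push_cast at this
    rw [this, pow_mul']
  · have h3 : ((cL + 1 : ℕ) : ℤ) = ((q ^ (e - 1) + q * ((q ^ (e - 1) - 1) * q ^ (e - 1)) : ℕ) : ℤ) := by
      rw [hcL]
    push_cast [Nat.cast_sub hpe] at h3
    rw [h3]
    ring
  · have h3 : (((S.card + 1) * q : ℕ) : ℤ)
        = ((q ^ (i + 1) + (q ^ i - 1) * q ^ i : ℕ) : ℤ) := by rw [hcntM]
    push_cast [Nat.cast_sub hpi] at h3
    rw [h3]
    ring
  · have h3 : ((T.card * cL : ℕ) : ℤ) = ((S.card * (q ^ i - 1) : ℕ) : ℤ) := by rw [hdc]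
    push_cast [Nat.cast_sub hpi] at h3
    exact h3

end core

theorem main : PairE.{u} := by
  intro F _ _ p _ _ hodd d r _ hr2 hrp hev x hx hxr P hP B₁ B₂ hS1 hS2 hN1 hN2 hF1 hF2 hd1 hd2
    horth hK1 hK2
  classical
  obtain ⟨i, hi⟩ : ∃ i, i = orderOf ((Fintype.card F : ℕ) : ZMod r) := ⟨_, rfl⟩
  rw [← hi] at hev hd1 hd2 ⊢
  rcases Nat.eq_zero_or_pos i with hi0 | hi0
  · refine ⟨⊥, bot_le, ?_, ?_, ?_⟩
    · unfold Stab
      rw [Submodule.map_bot]
    · intro w hw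
      rw [(Submodule.mem_bot F).1 hw]
      exact map_zero (oddQ d F)
    · rw [finrank_bot, hi0]
  · obtain ⟨φ, φ', h1, h2, hφr, hφa, hφQ, hInv⟩ :=
      setup p d r hrp Cfsg.Agent.Lib.Helper82.HypINVDIM.main x hx hxr
    rw [← hi] at hInv
    have h2F : (2 : F) ≠ 0 := two_ne_zero_of_odd hodd
    have hφeq : φ = Matrix.toLin' (x : Matrix (I d) (I d) F) :=
      LinearMap.ext (fun v => by rw [hφa, Matrix.toLin'_apply])
    obtain ⟨hOS1, hOS2, hOS3⟩ :=
      Cfsg.Agent.Lib.Helper97.TSORTHSUM.main F hodd d B₁ B₂ hN1 hN2 horth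
    obtain ⟨t1a, t1b, t1c⟩ := transl d (x : Matrix (I d) (I d) F) φ hφa B₁ hS1 hN1 hF1
    obtain ⟨t2a, t2b, t2c⟩ := transl d (x : Matrix (I d) (I d) F) φ hφa B₂ hS2 hN2 hF2
    have hM : ∀ v ∈ B₁ ⊔ B₂, φ v ∈ B₁ ⊔ B₂ := by
      intro v hv
      obtain ⟨a, ha, b, hb, rfl⟩ := Submodule.mem_sup.1 hv
      rw [map_add]
      exact Submodule.add_mem _ (Submodule.mem_sup_left (t1a a ha))
        (Submodule.mem_sup_right (t2a b hb))
    have hMfix : ∀ v ∈ B₁ ⊔ B₂, φ v = v → v = 0 := by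
      intro v hv hfix
      obtain ⟨a, ha, b, hb, rfl⟩ := Submodule.mem_sup.1 hv
      rw [map_add] at hfix
      have h3 : φ a - a = b - φ b := by
        have : φ a = a + b - φ b := eq_sub_of_add_eq hfix
        rw [this]
        abel
      have h4 : φ a - a ∈ B₁ ⊓ B₂ :=
        Submodule.mem_inf.mpr ⟨B₁.sub_mem (t1a a ha) ha, by
          rw [h3]; exact B₂.sub_mem hb (t2a b hb)⟩
      rw [hOS2] at h4
      have h5 : φ a = a := sub_eq_zero.1 ((Submodule.mem_bot F).1 h4)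
      have h6 : φ b = b := by
        have : b - φ b = 0 := by rw [← h3, h5, sub_self]
        exact (sub_eq_zero.1 this).symm
      rw [t1b a ha h5, t2b b hb h6, add_zero]
    have hMnd : ∀ u ∈ B₁ ⊔ B₂, u ≠ 0 → ∃ y ∈ B₁ ⊔ B₂, polar (oddQ d F) u y ≠ 0 :=
      fun u hu hu0 => (hOS1 u hu hu0).2
    have hMfin : finrank F ↥(B₁ ⊔ B₂) = 2 * i := by
      rw [hOS3, hd1, hd2]
      ring
    have hMP : ∀ v ∈ B₁ ⊔ B₂, aeval φ P v = 0 := by
      intro v hv
      obtain ⟨a, ha, b, hb, rfl⟩ := Submodule.mem_sup.1 hv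
      rw [map_add, hφeq, hK1 a ha, hK2 b hb, add_zero]
    have hPd : P.natDegree = i := by
      obtain ⟨n, hp, hcard⟩ := FiniteField.card F p
      have hcop : p.Coprime r :=
        (Nat.coprime_primes (Fact.out : p.Prime) (Fact.out : r.Prime)).2 (Ne.symm hrp)
      have h3 := Polynomial.natDegree_of_dvd_cyclotomic_of_irreducible (K := F) (p := p)
        (f := (n : ℕ)) (n := r) hcard hcop hP.2.2 hP.2.1
      rw [h3, ← orderOf_units, ZMod.coe_unitOfCoprime, hi, hcard]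
    obtain ⟨U, hU1, hU2, hU3, hU4⟩ := exists_ts (oddQ d F) h2F φ φ' h1 h2 hφQ hr2 hφr i hi hev
      hi0 hInv P hP.1 hPd (B₁ ⊔ B₂) hM hMfix hMnd hMfin hMP
    refine ⟨U, hU1, ?_, fun w hw => hU3 w hw, hU4⟩
    apply Submodule.map_le_iff_le_comap.mpr
    intro v hv
    rw [Submodule.mem_comap, Matrix.toLin'_apply, ← hφa]
    exact hU2 v hv

end Cfsg.Agent.Lib.Helper97.TSPAIRE
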