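import Mathlib
import Cfsg.Agent.Lib.Helper97.TSPAIRE

/-!
# Characteristic-free version of `TSPAIRE.exists_ts`

`exists_ts'` : the abstract "PairE" statement for an arbitrary quadratic form `Q` over a finite
field of ANY characteristic (no hypothesis `2 ≠ 0`): an invariant nondegenerate `M` of finrank
`2 i` (`i` even) without fixed vectors, killed by a monic `P` of degree `i`, contains an invariant
totally singular subspace of finrank `i`.  Meant for the plus / minus type ports (all `q`).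
-/

set_option autoImplicit false

universe u

open scoped Matrix

namespace Cfsg.Agent.Lib.Helper97.TSPAIRE2

open Module QuadraticMap Polynomial
open Cfsg.Agent.Lib.Helper44.QSpace Cfsg.Agent.Lib.Helper44.OGroup
open Cfsg.Agent.Lib.Helper44.OTyp1 Cfsg.Agent.Lib.Helper44.OTyp2
open Cfsg.Agent.Lib.Helper43.HypBFCore
open Cfsg.Agent.Lib.Helper97.TSPAIRE

section core
variable {F : Type*} [Field F] [Fintype F] {V : Type u} [AddCommGroup V] [Module F V]
  [FiniteDimensional F V]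

/-- an invariant subspace of finrank `i ≥ 2` without fixed vectors on which `Q` does not vanish
carries a nonzero value of the polar form (all characteristics) -/
theorem exists_polar_ne (Q : QuadraticForm F V) (φ : Module.End F V) (i : ℕ) (hi2 : 2 ≤ i)
    (hInv : ∀ R : Submodule F V, (∀ v ∈ R, φ v ∈ R) → (∀ v ∈ R, φ v = v → v = 0) →
      i ∣ finrank F ↥R)
    (L : Submodule F V) (hL : ∀ v ∈ L, φ v ∈ L) (hLfix : ∀ v ∈ L, φ v = v → v = 0)
    (hfr : finrank F ↥L = i) (hφ : ∀ v, Q (φ v) = Q v) (hnts : ¬ ∀ v ∈ L, Q v = 0) :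
    ∃ a ∈ L, ∃ c ∈ L, polar Q a c ≠ 0 := by
  classical
  by_contra hcon
  push Not at hcon
  apply hnts
  -- `Q` is additive on `L`
  have hadd : ∀ u ∈ L, ∀ v ∈ L, Q (u + v) = Q u + Q v := by
    intro u hu v hv
    have h := hcon u hu v hv
    unfold polar at h
    have : Q (u + v) = Q (u + v) - Q u - Q v + (Q u + Q v) := by ring
    rw [this, h, zero_add]
  -- the kernel of `Q` on `L`
  obtain ⟨L₀, hL₀⟩ : ∃ L₀ : Submodule F V, ∀ v, v ∈ L₀ ↔ v ∈ L ∧ Q v = 0 :=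
    ⟨{ carrier := {v | v ∈ L ∧ Q v = 0}
       add_mem' := by
        rintro u v ⟨hu, hu0⟩ ⟨hv, hv0⟩
        exact ⟨L.add_mem hu hv, by rw [hadd u hu v hv, hu0, hv0, add_zero]⟩
       zero_mem' := ⟨L.zero_mem, map_zero Q⟩
       smul_mem' := by
        rintro c v ⟨hv, hv0⟩
        exact ⟨L.smul_mem c hv, by rw [QuadraticMap.map_smul, hv0, smul_zero]⟩ },
      fun v => Iff.rfl⟩
  have hL₀le : L₀ ≤ L := fun v hv => ((hL₀ v).1 hv).1
  have hL₀st : ∀ v ∈ L₀, φ v ∈ L₀ := by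
    intro v hv
    obtain ⟨hv1, hv2⟩ := (hL₀ v).1 hv
    exact (hL₀ _).2 ⟨hL v hv1, by rw [hφ, hv2]⟩
  have hdvd : i ∣ finrank F ↥L₀ := hInv L₀ hL₀st (fun v hv => hLfix v (hL₀le hv))
  have hne : L₀ ≠ ⊥ := by
    intro hbot
    -- then `Q` is injective on `L`
    have hinj : Function.Injective (fun v : ↥L => Q (v : V)) := by
      intro u v huv
      have huv' : Q (u : V) = Q (v : V) := huv
      have h0 : Q ((u : V) - (v : V)) = 0 := by
        have h1 := hadd ((u : V) - (v : V)) (L.sub_mem u.2 v.2) (v : V) v.2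
        rw [sub_add_cancel, huv'] at h1
        have : Q ((u : V) - (v : V)) + Q (v : V) = 0 + Q (v : V) := by rw [zero_add]; exact h1.symm
        exact add_right_cancel this
      have h1 : (u : V) - (v : V) ∈ L₀ := (hL₀ _).2 ⟨L.sub_mem u.2 v.2, h0⟩
      rw [hbot] at h1
      exact Subtype.ext (sub_eq_zero.1 ((Submodule.mem_bot F).1 h1))
    haveI : Finite ↥L := Module.finite_of_finite F
    have hc := Nat.card_le_card_of_injective _ hinj
    rw [Module.natCard_eq_pow_finrank (K := F) (V := ↥L), hfr, Nat.card_eq_fintype_card] at hc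
    have hq : 2 ≤ Fintype.card F := Fintype.one_lt_card
    have h2 : Fintype.card F ^ 2 ≤ Fintype.card F ^ i := Nat.pow_le_pow_right (by omega) hi2
    have h3 : Fintype.card F * 2 ≤ Fintype.card F ^ 2 := by
      rw [pow_two]
      exact Nat.mul_le_mul_left _ hq
    omega
  have hfr0 : finrank F ↥L₀ ≠ 0 := fun h => hne (Submodule.finrank_eq_zero.mp h)
  have hge : i ≤ finrank F ↥L₀ := Nat.le_of_dvd (Nat.pos_of_ne_zero hfr0) hdvd
  have hle : finrank F ↥L₀ ≤ i := by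
    rw [← hfr]
    exact Submodule.finrank_mono hL₀le
  have heq : L₀ = L := Submodule.eq_of_le_of_finrank_eq hL₀le (by omega)
  intro v hv
  rw [← heq] at hv
  exact ((hL₀ v).1 hv).2

theorem exists_ts' (Q : QuadraticForm F V) (φ φ' : Module.End F V)
    (h1 : φ * φ' = 1) (h2 : φ' * φ = 1)
    (hφ : ∀ v, Q (φ v) = Q v) {r : ℕ} [Fact r.Prime] (hr2 : r ≠ 2) (hφr : φ ^ r = 1)
    (i : ℕ) (hi : i = orderOf ((Fintype.card F : ℕ) : ZMod r)) (hev : Even i) (hi0 : 0 < i)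
    (hInv : ∀ R : Submodule F V, (∀ v ∈ R, φ v ∈ R) → (∀ v ∈ R, φ v = v → v = 0) →
      i ∣ finrank F ↥R)
    (P : F[X]) (hPm : P.Monic) (hPd : P.natDegree = i)
    (M : Submodule F V) (hM : ∀ v ∈ M, φ v ∈ M) (hMfix : ∀ v ∈ M, φ v = v → v = 0)
    (hMnd : ∀ u ∈ M, u ≠ 0 → ∃ y ∈ M, polar Q u y ≠ 0) (hMfin : finrank F ↥M = 2 * i)
    (hMP : ∀ v ∈ M, aeval φ P v = 0) :
    ∃ U : Submodule F V, U ≤ M ∧ (∀ v ∈ U, φ v ∈ U) ∧ (∀ v ∈ U, Q v = 0) ∧
      finrank F ↥U = i := by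
  classical
  by_contra hno
  push Not at hno
  obtain ⟨e, he⟩ := hev
  have he1 : 1 ≤ e := by omega
  obtain ⟨q, hq⟩ : ∃ q : ℕ, q = Fintype.card F := ⟨_, rfl⟩
  have hq2 : 2 ≤ q := by rw [hq]; exact Fintype.one_lt_card
  -- `φ' = φ ^ (r - 1)`
  have hr1 : 1 ≤ r := (Fact.out : r.Prime).one_lt.le
  have hφ' : φ' = φ ^ (r - 1) := by
    have h3 : φ ^ r = φ * φ ^ (r - 1) := by
      rw [← pow_succ']
      congr 1
      omega
    calc φ' = φ' * φ ^ r := by rw [hφr, mul_one]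
      _ = (φ' * φ) * φ ^ (r - 1) := by rw [h3, mul_assoc]
      _ = φ ^ (r - 1) := by rw [h2, one_mul]
  -- the lines
  have hL1 : ∀ w ∈ M, w ≠ 0 → cyc φ i w ≤ M ∧ (∀ v ∈ cyc φ i w, φ v ∈ cyc φ i w) ∧
      w ∈ cyc φ i w ∧ finrank F ↥(cyc φ i w) = i := by
    intro w hw hw0
    have hle : cyc φ i w ≤ M := cyc_le φ M hM i w hw
    have hst : ∀ v ∈ cyc φ i w, φ v ∈ cyc φ i w := by
      have h := cyc_inv φ P hPm w (hMP w hw)
      rw [hPd] at h
      exact h
    have hmem : w ∈ cyc φ i w := mem_cyc_self φ i hi0 w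
    refine ⟨hle, hst, hmem, ?_⟩
    have h3 : finrank F ↥(cyc φ i w) ≤ i := finrank_cyc_le φ i w
    have h4 : i ∣ finrank F ↥(cyc φ i w) := hInv _ hst (fun v hv => hMfix v (hle hv))
    have h5 : finrank F ↥(cyc φ i w) ≠ 0 := by
      intro h
      have hbot : cyc φ i w = ⊥ := Submodule.finrank_eq_zero.mp h
      rw [hbot] at hmem
      exact hw0 ((Submodule.mem_bot F).mp hmem)
    have h6 := Nat.le_of_dvd (Nat.pos_of_ne_zero h5) h4
    omega
  have hL2 : ∀ w ∈ M, w ≠ 0 → ∀ v ∈ cyc φ i w, v ≠ 0 → cyc φ i v = cyc φ i w := by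
    intro w hw hw0 v hv hv0
    obtain ⟨hle, hst, hmem, hfr⟩ := hL1 w hw hw0
    obtain ⟨hle', hst', hmem', hfr'⟩ := hL1 v (hle hv) hv0
    exact Submodule.eq_of_le_of_finrank_eq (cyc_le φ _ hst i v hv) (by rw [hfr, hfr'])
  have hL3 : ∀ w ∈ M, w ≠ 0 → ∀ u ∈ cyc φ i w, u ≠ 0 → ∃ y ∈ cyc φ i w, polar Q u y ≠ 0 := by
    intro w hw hw0
    obtain ⟨hle, hst, hmem, hfr⟩ := hL1 w hw hw0
    have hnts : ¬ ∀ v ∈ cyc φ i w, Q v = 0 := fun h => hno _ hle hst h hfr
    obtain ⟨a0, ha0, c0, hc0, hne⟩ := exists_polar_ne Q φ i (by omega) hInv (cyc φ i w) hst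
      (fun v hv => hMfix v (hle hv)) hfr hφ hnts
    have hst' : ∀ v ∈ cyc φ i w, φ' v ∈ cyc φ i w := by
      intro v hv
      rw [hφ']
      exact pow_mem φ _ hst (r - 1) v hv
    have hker := lker_eq_bot Q i φ φ' h1 hφ hInv (cyc φ i w) (cyc φ i w) hst hst'
      (fun v hv => hMfix v (hle hv)) hfr.le a0 c0 ha0 hc0 hne
    intro u hu hu0
    by_contra hcon
    push Not at hcon
    exact hu0 (hker u hu hcon)
  -- counts
  have hcntL : ∀ w ∈ M, w ≠ 0 → Nat.card {v : ↥(cyc φ i w) // Q (v : V) = 0} * q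
      = q ^ (e - 1 + 1) + q ^ 2 * ((q ^ (e - 1) - 1) * q ^ (e - 1)) := by
    intro w hw hw0
    obtain ⟨hle, hst, hmem, hfr⟩ := hL1 w hw hw0
    have h := (count_sub Q φ φ' h2 hφ hr2 hφr (cyc φ i w) hst (fun v hv => hMfix v (hle hv))
      (hL3 w hw hw0) (k := e - 1) (by rw [hfr]; omega) i hi ⟨e, he⟩ 1 (by omega)).2
      (by decide)
    rw [← hq] at h
    exact h
  have hcntM : Nat.card {v : ↥M // Q (v : V) = 0} * q
      = q ^ (i - 1 + 1 + 1) + (q ^ (i - 1 + 1) - 1) * q ^ (i - 1 + 1) := by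
    have h := (count_sub Q φ φ' h2 hφ hr2 hφr M hM hMfix hMnd (k := i - 1)
      (by rw [hMfin]; omega) i hi ⟨e, he⟩ 2 (by omega)).1 (by decide)
    rw [← hq] at h
    exact h
  haveI : Finite V := Module.finite_of_finite F
  haveI : Fintype V := Fintype.ofFinite V
  obtain ⟨T, hT⟩ : ∃ T : Finset V, T = Finset.univ.filter (fun v : V => v ∈ M ∧ v ≠ 0) :=
    ⟨_, rfl⟩
  obtain ⟨S, hS⟩ : ∃ S : Finset V,
      S = Finset.univ.filter (fun v : V => v ∈ M ∧ v ≠ 0 ∧ Q v = 0) := ⟨_, rfl⟩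
  have hdc := Finset.sum_card_bipartiteAbove_eq_sum_card_bipartiteBelow
    (r := fun w v : V => v ∈ cyc φ i w) (s := T) (t := S)
  obtain ⟨cL, hcL⟩ : ∃ cL : ℕ, cL + 1 = q ^ (e - 1) + q * ((q ^ (e - 1) - 1) * q ^ (e - 1)) :=
    ⟨q ^ (e - 1) + q * ((q ^ (e - 1) - 1) * q ^ (e - 1)) - 1, by
      have : 1 ≤ q ^ (e - 1) := Nat.one_le_pow _ _ (by omega)
      omega⟩
  have hq0 : 0 < q := by omega
  have hlhs : ∀ w ∈ T, (Finset.bipartiteAbove (fun w v : V => v ∈ cyc φ i w) S w).card = cL := by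
    intro w hwT
    rw [hT, Finset.mem_filter] at hwT
    obtain ⟨hw, hw0⟩ := hwT.2
    obtain ⟨hle, hst, hmem, hfr⟩ := hL1 w hw hw0
    have h3 : Finset.bipartiteAbove (fun w v : V => v ∈ cyc φ i w) S w
        = Finset.univ.filter (fun v : V => v ∈ cyc φ i w ∧ v ≠ 0 ∧ Q v = 0) := by
      ext v
      rw [Finset.mem_bipartiteAbove, hS, Finset.mem_filter, Finset.mem_filter]
      constructor
      · rintro ⟨⟨-, -, hv0, hQ⟩, hv⟩
        exact ⟨Finset.mem_univ _, hv, hv0, hQ⟩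
      · rintro ⟨-, hv, hv0, hQ⟩
        exact ⟨⟨Finset.mem_univ _, hle hv, hv0, hQ⟩, hv⟩
    rw [h3]
    have h4 := card_sing_filter Q (cyc φ i w)
    have h5 := hcntL w hw hw0
    rw [← h4] at h5
    have h6 : ((Finset.univ.filter (fun v : V => v ∈ cyc φ i w ∧ v ≠ 0 ∧ Q v = 0)).card + 1) * q
        = (cL + 1) * q := by
      rw [h5, hcL]
      ring
    have h7 := Nat.eq_of_mul_eq_mul_right hq0 h6
    omega
  have hrhs : ∀ v ∈ S, (Finset.bipartiteBelow (fun w v : V => v ∈ cyc φ i w) T v).card + 1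
      = q ^ i := by
    intro v hvS
    rw [hS, Finset.mem_filter] at hvS
    obtain ⟨hv, hv0, hQv⟩ := hvS.2
    obtain ⟨hle, hst, hmem, hfr⟩ := hL1 v hv hv0
    have h3 : Finset.bipartiteBelow (fun w v : V => v ∈ cyc φ i w) T v
        = Finset.univ.filter (fun w : V => w ∈ cyc φ i v ∧ w ≠ 0) := by
      ext w
      rw [Finset.mem_bipartiteBelow, hT, Finset.mem_filter, Finset.mem_filter]
      constructor
      · rintro ⟨⟨-, hw, hw0⟩, hvw⟩
        refine ⟨Finset.mem_univ _, ?_, hw0⟩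
        rw [hL2 w hw hw0 v hvw hv0]
        exact (hL1 w hw hw0).2.2.1
      · rintro ⟨-, hw, hw0⟩
        refine ⟨⟨Finset.mem_univ _, hle hw, hw0⟩, ?_⟩
        rw [hL2 v hv hv0 w hw hw0]
        exact hmem
    rw [h3, card_nz_filter (F := F) (cyc φ i v), hfr, hq]
  rw [Finset.sum_congr rfl hlhs, Finset.sum_const, smul_eq_mul] at hdc
  have hrhs' : ∀ v ∈ S, (Finset.bipartiteBelow (fun w v : V => v ∈ cyc φ i w) T v).card
      = q ^ i - 1 := fun v hv => by
    have := hrhs v hv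
    omega
  rw [Finset.sum_congr rfl hrhs', Finset.sum_const, smul_eq_mul] at hdc
  have hTc : T.card + 1 = q ^ (2 * i) := by
    rw [hT, card_nz_filter (F := F) M, hMfin, hq]
  have hSc : S.card + 1 = Nat.card {v : ↥M // Q (v : V) = 0} := by
    rw [hS]
    exact card_sing_filter Q M
  rw [← hSc] at hcntM
  -- to the integers
  have hpe : 1 ≤ q ^ (e - 1) := Nat.one_le_pow _ _ hq0
  have hpi : 1 ≤ q ^ i := Nat.one_le_pow _ _ hq0
  have hii : i - 1 + 1 = i := by omega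
  rw [hii] at hcntM
  have hqi : q ^ i = q ^ 2 * (q ^ (e - 1)) ^ 2 := by
    have : i = 2 + (e - 1) * 2 := by omega
    rw [this, pow_add, pow_mul]
  apply arith (q : ℤ) ((q : ℤ) ^ (e - 1)) ((q : ℤ) ^ i - 1) (T.card : ℤ) (S.card : ℤ) (cL : ℤ)
    (by exact_mod_cast hq2) (by exact_mod_cast hpe)
  · rw [sub_add_cancel]
    exact_mod_cast hqi
  · rw [sub_add_cancel]
    have : ((T.card + 1 : ℕ) : ℤ) = ((q ^ (2 * i) : ℕ) : ℤ) := by rw [hTc]
    push_cast at this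
    rw [this, pow_mul']
  · have h3 : ((cL + 1 : ℕ) : ℤ) = ((q ^ (e - 1) + q * ((q ^ (e - 1) - 1) * q ^ (e - 1)) : ℕ) : ℤ) := by
      rw [hcL]
    push_cast [Nat.cast_sub hpe] at h3
    rw [h3]
    ring
  · have h3 : (((S.card + 1) * q : ℕ) : ℤ)
        = ((q ^ (i + 1) + (q ^ i - 1) * q ^ i : ℕ) : ℤ) := by rw [hcntM]
    push_cast [Nat.cast_sub hpi] at h3
    rw [h3]
    ring
  · have h3 : ((T.card * cL : ℕ) : ℤ) = ((S.card * (q ^ i - 1) : ℕ) : ℤ) := by rw [hdc]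
    push_cast [Nat.cast_sub hpi] at h3
    exact h3

end core

end Cfsg.Agent.Lib.Helper97.TSPAIRE2
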