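import Mathlib
import Cfsg.Agent.Lib.Helper44.TPStmt
import Cfsg.Agent.Lib.Helper44.NegPairs
import Cfsg.Agent.Lib.Helper97.TSPAIRE2

/-!
# S5973 / PAIRE (call by helper44): plus type, all `q`

Instantiation of the characteristic-free `TSPAIRE2.exists_ts'` for `Cfsg.quadFormPlus`.
-/

set_option autoImplicit false

universe u

open scoped Matrix

namespace Cfsg.Agent.Lib.Helper97.TPPAIRE

open Module QuadraticMap Polynomial
open Cfsg.Agent.Lib.Helper44.QSpace Cfsg.Agent.Lib.Helper44.OGroup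
open Cfsg.Agent.Lib.Helper44.OTyp1 Cfsg.Agent.Lib.Helper44.OTyp2
open Cfsg.Agent.Lib.Helper44.NegPairs
open Cfsg.Agent.Lib.Helper44.TPStmt
open Cfsg.Agent.Lib.Helper37.HypStmt (cc IPos)
open Cfsg.Agent.Lib.Helper44.TSStmt (Fac NumTypes)
open Cfsg.Agent.Lib.Helper97.TSPAIRE2

section core
variable {F : Type*} [Field F] [Fintype F] {V : Type u} [AddCommGroup V] [Module F V]
  [FiniteDimensional F V]

/-- abstract `InvDim`: an invariant subspace without fixed vectors of an endomorphism with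
`φ ^ r = 1` has finrank divisible by the order of `q` modulo `r` -/
theorem inv_dvd (φ φ' : Module.End F V) (h2 : φ' * φ = 1) {r : ℕ} [Fact r.Prime]
    (hφr : φ ^ r = 1) (R : Submodule F V) (hR : ∀ v ∈ R, φ v ∈ R)
    (hfix : ∀ v ∈ R, φ v = v → v = 0) :
    orderOf ((Fintype.card F : ℕ) : ZMod r) ∣ finrank F ↥R := by
  obtain ⟨ψ, hψ⟩ : ∃ ψ : ↥R →ₗ[F] ↥R, ∀ v : ↥R, ((ψ v : ↥R) : V) = φ (v : V) :=
    ⟨φ.restrict hR, fun v => rfl⟩
  have hψinj : Function.Injective ψ := by
    intro a b hab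
    apply Subtype.ext
    have h1 : φ (a : V) = φ (b : V) := by rw [← hψ, ← hψ, hab]
    have h3 := congrArg φ' h1
    rw [← Module.End.mul_apply, ← Module.End.mul_apply, h2, Module.End.one_apply,
      Module.End.one_apply] at h3
    exact h3
  obtain ⟨g, hg⟩ : ∃ g : ↥R ≃ₗ[F] ↥R, ∀ v : ↥R, ((g v : ↥R) : V) = φ (v : V) :=
    ⟨LinearEquiv.ofInjectiveEndo ψ hψinj, fun v => by
      have h1 : (LinearEquiv.ofInjectiveEndo ψ hψinj) v = ψ v := by
        rw [← LinearEquiv.coe_ofInjectiveEndo ψ hψinj]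
      rw [h1]; exact hψ v⟩
  have hgpow : ∀ n : ℕ, ∀ v : ↥R, (((g ^ n) v : ↥R) : V) = (φ ^ n) (v : V) := by
    intro n
    induction n with
    | zero => intro v; simp
    | succ n ih =>
      intro v
      rw [pow_succ', LinearEquiv.mul_apply, hg, ih, pow_succ', Module.End.mul_apply]
  have hgr : g ^ r = 1 := by
    apply LinearEquiv.ext
    intro v
    apply Subtype.ext
    rw [hgpow, hφr]
    simp
  have hfree : ∀ v : ↥R, v ≠ 0 → g v ≠ v := by
    intro v hv hgv
    apply hv
    apply Subtype.ext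
    apply hfix (v : V) v.2
    rw [← hg, hgv]
  obtain ⟨s, hs1, hs2⟩ := dvd_sing (0 : QuadraticForm F ↥R) g (fun v => rfl) hgr hfree
  have hc : Nat.card {v : ↥R // (0 : QuadraticForm F ↥R) v = 0}
      = Fintype.card F ^ finrank F ↥R := by
    rw [Nat.card_congr (Equiv.subtypeUnivEquiv
        (p := fun v : ↥R => (0 : QuadraticForm F ↥R) v = 0) (fun v => rfl)),
      Module.natCard_eq_pow_finrank (K := F), Nat.card_eq_fintype_card]
  rw [hc] at hs1
  rw [orderOf_dvd_iff_pow_eq_one]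
  have h1 : ((Fintype.card F ^ finrank F ↥R : ℕ) : ZMod r) = 1 := by
    rw [hs1, Nat.cast_add, Nat.cast_one, (ZMod.natCast_eq_zero_iff s r).mpr hs2, add_zero]
  rw [← h1, Nat.cast_pow]

end core

theorem mem_Fx {F : Type u} [Field F] {d : ℕ} (x : Matrix (J d) (J d) F) (v : J d → F) :
    v ∈ Fx x ↔ x *ᵥ v = v := by
  unfold Fx
  rw [LinearMap.mem_ker, LinearMap.sub_apply, Matrix.toLin'_apply, LinearMap.id_apply,
    sub_eq_zero]

theorem main : PairE.{u} := by
  intro F _ _ p _ _ d r _ hr2 hrp hev x hx hxr P hP B₁ B₂ hS1 hS2 hN1 hN2 hF1 hF2 hd1 hd2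
    horth hK1 hK2
  classical
  obtain ⟨i, hi⟩ : ∃ i, i = orderOf ((Fintype.card F : ℕ) : ZMod r) := ⟨_, rfl⟩
  rw [← hi] at hev hd1 hd2 ⊢
  rcases Nat.eq_zero_or_pos i with hi0 | hi0
  · refine ⟨⊥, bot_le, ?_, ?_, ?_⟩
    · unfold Stab
      rw [Submodule.map_bot]
    · intro w hw
      rw [(Submodule.mem_bot F).1 hw]
      exact map_zero (plusQ d F)
    · rw [finrank_bot, hi0]
  · obtain ⟨φ, hφ⟩ : ∃ φ : Module.End F (J d → F),
        φ = Matrix.toLin' (x : Matrix (J d) (J d) F) := ⟨_, rfl⟩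
    obtain ⟨φ', hφ'⟩ : ∃ φ' : Module.End F (J d → F),
        φ' = Matrix.toLin' ((x⁻¹ : Matrix.GeneralLinearGroup (J d) F) : Matrix (J d) (J d) F) :=
      ⟨_, rfl⟩
    have hφa : ∀ v, φ v = (x : Matrix (J d) (J d) F) *ᵥ v := by
      intro v
      rw [hφ, Matrix.toLin'_apply]
    have h1 : φ * φ' = 1 := by
      rw [hφ, hφ']
      apply LinearMap.ext
      intro v
      rw [Module.End.mul_apply, Matrix.toLin'_apply, Matrix.toLin'_apply, Matrix.mulVec_mulVec,
        ← Units.val_mul, mul_inv_cancel, Units.val_one, Matrix.one_mulVec, Module.End.one_apply]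
    have h2 : φ' * φ = 1 := by
      rw [hφ, hφ']
      apply LinearMap.ext
      intro v
      rw [Module.End.mul_apply, Matrix.toLin'_apply, Matrix.toLin'_apply, Matrix.mulVec_mulVec,
        ← Units.val_mul, inv_mul_cancel, Units.val_one, Matrix.one_mulVec, Module.End.one_apply]
    have hpow : ∀ n : ℕ, ∀ v, (φ ^ n) v = ((x : Matrix (J d) (J d) F) ^ n) *ᵥ v := by
      intro n
      induction n with
      | zero => intro v; simp
      | succ n ih =>
        intro v
        rw [pow_succ', Module.End.mul_apply, ih, hφa, Matrix.mulVec_mulVec, ← pow_succ']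
    have hφr : φ ^ r = 1 := by
      apply LinearMap.ext
      intro v
      rw [hpow, ← Units.val_pow_eq_pow_val, hxr, Units.val_one, Matrix.one_mulVec,
        Module.End.one_apply]
    have hφQ : ∀ v, plusQ d F (φ v) = plusQ d F v := by
      intro v
      rw [hφa]
      exact hx v v
    have hInv : ∀ R : Submodule F (J d → F), (∀ v ∈ R, φ v ∈ R) → (∀ v ∈ R, φ v = v → v = 0) →
        i ∣ finrank F ↥R := by
      intro R hR hfix
      rw [hi]
      exact inv_dvd φ φ' h2 hφr R hR hfix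
    -- translations of the hypotheses
    have tst : ∀ B : Submodule F (J d → F), Stab (x : Matrix (J d) (J d) F) B →
        ∀ y ∈ B, φ y ∈ B := by
      intro B hB y hy
      rw [hφ]
      exact hB (Submodule.mem_map_of_mem hy)
    have tfix : ∀ B : Submodule F (J d → F), B ⊓ Fx (x : Matrix (J d) (J d) F) = ⊥ →
        ∀ y ∈ B, φ y = y → y = 0 := by
      intro B hB y hy hfix
      have h3 : y ∈ B ⊓ Fx (x : Matrix (J d) (J d) F) :=
        Submodule.mem_inf.mpr ⟨hy, (mem_Fx _ y).mpr (by rw [← hφa]; exact hfix)⟩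
      rw [hB] at h3
      exact (Submodule.mem_bot F).mp h3
    have t1a := tst B₁ hS1
    have t2a := tst B₂ hS2
    have t1b := tfix B₁ hF1
    have t2b := tfix B₂ hF2
    have padd_left : ∀ a b c : J d → F, polar (Cfsg.quadFormPlus d F) (a + b) c
        = polar (Cfsg.quadFormPlus d F) a c + polar (Cfsg.quadFormPlus d F) b c :=
      fun a b c => polar_add_left (plusQ d F) a b c
    have padd_right : ∀ a b c : J d → F, polar (Cfsg.quadFormPlus d F) a (b + c)
        = polar (Cfsg.quadFormPlus d F) a b + polar (Cfsg.quadFormPlus d F) a c :=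
      fun a b c => polar_add_right (plusQ d F) a b c
    have pcomm : ∀ a b : J d → F, polar (Cfsg.quadFormPlus d F) a b
        = polar (Cfsg.quadFormPlus d F) b a := fun a b => polar_comm _ a b
    have hinf : B₁ ⊓ B₂ = ⊥ := by
      rw [eq_bot_iff]
      intro v hv
      obtain ⟨hv1, hv2⟩ := Submodule.mem_inf.1 hv
      by_contra hv0
      have hv0' : v ≠ 0 := fun h => hv0 ((Submodule.mem_bot F).2 h)
      obtain ⟨⟨y, hy, hyv⟩, -⟩ := hN1 v hv1 hv0'
      exact hyv (horth y hy v hv2)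
    have hM : ∀ v ∈ B₁ ⊔ B₂, φ v ∈ B₁ ⊔ B₂ := by
      intro v hv
      obtain ⟨a, ha, b, hb, rfl⟩ := Submodule.mem_sup.1 hv
      rw [map_add]
      exact Submodule.add_mem _ (Submodule.mem_sup_left (t1a a ha))
        (Submodule.mem_sup_right (t2a b hb))
    have hMfix : ∀ v ∈ B₁ ⊔ B₂, φ v = v → v = 0 := by
      intro v hv hfix
      obtain ⟨a, ha, b, hb, rfl⟩ := Submodule.mem_sup.1 hv
      rw [map_add] at hfix
      have h3 : φ a - a = b - φ b := by
        have : φ a = a + b - φ b := eq_sub_of_add_eq hfix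
        rw [this]
        abel
      have h4 : φ a - a ∈ B₁ ⊓ B₂ :=
        Submodule.mem_inf.mpr ⟨B₁.sub_mem (t1a a ha) ha, by
          rw [h3]; exact B₂.sub_mem hb (t2a b hb)⟩
      rw [hinf] at h4
      have h5 : φ a = a := sub_eq_zero.1 ((Submodule.mem_bot F).1 h4)
      have h6 : φ b = b := by
        have : b - φ b = 0 := by rw [← h3, h5, sub_self]
        exact (sub_eq_zero.1 this).symm
      rw [t1b a ha h5, t2b b hb h6, add_zero]
    have hMnd : ∀ u ∈ B₁ ⊔ B₂, u ≠ 0 → ∃ y ∈ B₁ ⊔ B₂, polar (plusQ d F) u y ≠ 0 := by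
      intro u hu hu0
      obtain ⟨a, ha, b, hb, rfl⟩ := Submodule.mem_sup.1 hu
      by_cases ha0 : a = 0
      · have hb0 : b ≠ 0 := by
          intro h
          apply hu0
          rw [ha0, h, add_zero]
        obtain ⟨-, ⟨y, hy, hby⟩⟩ := hN2 b hb hb0
        refine ⟨y, Submodule.mem_sup_right hy, ?_⟩
        show polar (Cfsg.quadFormPlus d F) (a + b) y ≠ 0
        rw [padd_left, horth a ha y hy, zero_add]
        exact hby
      · obtain ⟨-, ⟨y, hy, hay⟩⟩ := hN1 a ha ha0
        refine ⟨y, Submodule.mem_sup_left hy, ?_⟩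
        show polar (Cfsg.quadFormPlus d F) (a + b) y ≠ 0
        rw [padd_left, pcomm b y, horth y hy b hb, add_zero]
        exact hay
    have hMfin : finrank F ↥(B₁ ⊔ B₂) = 2 * i := by
      have h := Submodule.finrank_sup_add_finrank_inf_eq B₁ B₂
      rw [hinf, finrank_bot, add_zero, hd1, hd2] at h
      rw [h]
      ring
    have hMP : ∀ v ∈ B₁ ⊔ B₂, aeval φ P v = 0 := by
      intro v hv
      obtain ⟨a, ha, b, hb, rfl⟩ := Submodule.mem_sup.1 hv
      rw [map_add, hφ, hK1 a ha, hK2 b hb, add_zero]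
    have hPd : P.natDegree = i := by
      obtain ⟨n, hp, hcard⟩ := FiniteField.card F p
      have hcop : p.Coprime r :=
        (Nat.coprime_primes (Fact.out : p.Prime) (Fact.out : r.Prime)).2 (Ne.symm hrp)
      have h3 := Polynomial.natDegree_of_dvd_cyclotomic_of_irreducible (K := F) (p := p)
        (f := (n : ℕ)) (n := r) hcard hcop hP.2.2 hP.2.1
      rw [h3, ← orderOf_units, ZMod.coe_unitOfCoprime, hi, hcard]
    obtain ⟨U, hU1, hU2, hU3, hU4⟩ := exists_ts' (plusQ d F) φ φ' h1 h2 hφQ hr2 hφr i hi hev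
      hi0 hInv P hP.1 hPd (B₁ ⊔ B₂) hM hMfix hMnd hMfin hMP
    refine ⟨U, hU1, ?_, fun w hw => hU3 w hw, hU4⟩
    apply Submodule.map_le_iff_le_comap.mpr
    intro v hv
    rw [Submodule.mem_comap, Matrix.toLin'_apply, ← hφa]
    exact hU2 v hv

end Cfsg.Agent.Lib.Helper97.TPPAIRE
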