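import Mathlib
import Cfsg.Agent.Lib.Helper44.TSStmt
import Cfsg.Agent.Lib.Helper97.TSORTHSUM

/-!
# S5972 / INVDEC (call by helper44)

`V = Fx ⊥ Fm` for an isometry with `x ^ 2 = 1`.
-/

set_option autoImplicit false

universe u

open scoped Matrix

namespace Cfsg.Agent.Lib.Helper97.TSINVDEC

open Cfsg.Agent.Lib.Helper37.HypStmt Cfsg.Agent.Lib.Helper37.HypStmt2
open Cfsg.Agent.Lib.Helper44.TSStmt
open Cfsg.Agent.Lib.Helper97.TSORTHSUM
open QuadraticMap

theorem mem_Fm {F : Type u} [Field F] {d : ℕ} (x : Matrix (I d) (I d) F) (v : I d → F) :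
    v ∈ Fm x ↔ x *ᵥ v = -v := by
  unfold Fm
  rw [LinearMap.mem_ker, LinearMap.add_apply, Matrix.toLin'_apply, LinearMap.id_apply,
    add_eq_zero_iff_eq_neg]

theorem two_ne_zero_of_odd (F : Type u) [Field F] [Fintype F] (h : Odd (Fintype.card F)) :
    (2 : F) ≠ 0 := by
  apply Ring.two_ne_zero
  intro hc
  have := FiniteField.even_card_iff_char_two.mp hc
  rw [Nat.odd_iff] at h
  omega

theorem pol_neg_right (d : ℕ) (F : Type u) [Field F] (x y : I d → F) :
    polar (Cfsg.quadFormOdd d F) x (-y) = - polar (Cfsg.quadFormOdd d F) x y :=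
  polar_neg_right (Cfsg.Agent.Lib.Helper44.NegPairs.oddQ d F) x y

theorem main (hTop : TopND.{u}) : InvDec.{u} := by
  intro F _ _ hodd d x hx hx2
  classical
  have h2 : (2 : F) ≠ 0 := two_ne_zero_of_odd F hodd
  have hQ : ∀ u : I d → F, Cfsg.quadFormOdd d F ((x : Matrix (I d) (I d) F) *ᵥ u)
      = Cfsg.quadFormOdd d F u := fun u => hx u u
  have hpol : ∀ u v : I d → F, polar (Cfsg.quadFormOdd d F) ((x : Matrix (I d) (I d) F) *ᵥ u)
      ((x : Matrix (I d) (I d) F) *ᵥ v) = polar (Cfsg.quadFormOdd d F) u v := by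
    intro u v
    unfold polar
    rw [← Matrix.mulVec_add, hQ, hQ, hQ]
  have hx2M : (x : Matrix (I d) (I d) F) * (x : Matrix (I d) (I d) F) = 1 := by
    rw [← Units.val_mul, ← pow_two, hx2, Units.val_one]
  have hxx : ∀ v : I d → F, (x : Matrix (I d) (I d) F) *ᵥ ((x : Matrix (I d) (I d) F) *ᵥ v) = v := by
    intro v
    rw [Matrix.mulVec_mulVec, hx2M, Matrix.one_mulVec]
  have horth : ∀ u ∈ Fx (x : Matrix (I d) (I d) F), ∀ v ∈ Fm (x : Matrix (I d) (I d) F),
      polar (Cfsg.quadFormOdd d F) u v = 0 := by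
    intro u hu v hv
    have h1 := hpol u v
    rw [(mem_Fx _ _).1 hu, (mem_Fm _ _).1 hv, pol_neg_right] at h1
    have h3 : (2 : F) * polar (Cfsg.quadFormOdd d F) u v = 0 := by
      have : polar (Cfsg.quadFormOdd d F) u v + polar (Cfsg.quadFormOdd d F) u v = 0 := by
        nth_rewrite 1 [← h1]
        exact neg_add_cancel _
      rw [two_mul]
      exact this
    rcases mul_eq_zero.1 h3 with h | h
    · exact absurd h h2
    · exact h
  have hinf : Fx (x : Matrix (I d) (I d) F) ⊓ Fm (x : Matrix (I d) (I d) F) = ⊥ := by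
    rw [eq_bot_iff]
    intro v hv
    obtain ⟨hv1, hv2⟩ := Submodule.mem_inf.1 hv
    have h1 : v = -v := by
      rw [← (mem_Fm _ _).1 hv2]
      exact ((mem_Fx _ _).1 hv1).symm
    have h3 : (2 : F) • v = 0 := by
      rw [two_smul]
      nth_rewrite 1 [h1]
      exact neg_add_cancel _
    rcases smul_eq_zero.1 h3 with h | h
    · exact absurd h h2
    · exact (Submodule.mem_bot F).2 h
  have hdec : ∀ v : I d → F, ∃ a ∈ Fx (x : Matrix (I d) (I d) F),
      ∃ b ∈ Fm (x : Matrix (I d) (I d) F), v = a + b := by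
    intro v
    refine ⟨(2 : F)⁻¹ • (v + (x : Matrix (I d) (I d) F) *ᵥ v), ?_,
      (2 : F)⁻¹ • (v - (x : Matrix (I d) (I d) F) *ᵥ v), ?_, ?_⟩
    · rw [mem_Fx, Matrix.mulVec_smul, Matrix.mulVec_add, hxx, add_comm]
    · rw [mem_Fm, Matrix.mulVec_smul, Matrix.mulVec_sub, hxx, ← smul_neg, neg_sub]
    · rw [← smul_add]
      have : v + (x : Matrix (I d) (I d) F) *ᵥ v + (v - (x : Matrix (I d) (I d) F) *ᵥ v)
          = (2 : F) • v := by
        rw [two_smul]; abel
      rw [this, smul_smul, inv_mul_cancel₀ h2, one_smul]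
  have hsup : Fx (x : Matrix (I d) (I d) F) ⊔ Fm (x : Matrix (I d) (I d) F) = ⊤ := by
    rw [eq_top_iff]
    intro v _
    obtain ⟨a, ha, b, hb, rfl⟩ := hdec v
    exact Submodule.add_mem _ (Submodule.mem_sup_left ha) (Submodule.mem_sup_right hb)
  have hVdim : Module.finrank F (I d → F) = 2 * d + 1 := by
    rw [Module.finrank_pi]
    simp
    omega
  refine ⟨?_, ?_, horth, hinf, ?_⟩
  · intro w hw hw0
    obtain ⟨⟨y, -, hyw⟩, -⟩ := hTop F hodd d w Submodule.mem_top hw0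
    obtain ⟨a, ha, b, hb, rfl⟩ := hdec y
    have h1 : polar (Cfsg.quadFormOdd d F) a w ≠ 0 := by
      rw [pol_add_left, pol_comm d F b w, horth w hw b hb, add_zero] at hyw
      exact hyw
    refine ⟨⟨a, ha, h1⟩, ⟨a, ha, ?_⟩⟩
    rw [pol_comm]
    exact h1
  · intro w hw hw0
    obtain ⟨⟨y, -, hyw⟩, -⟩ := hTop F hodd d w Submodule.mem_top hw0
    obtain ⟨a, ha, b, hb, rfl⟩ := hdec y
    have h1 : polar (Cfsg.quadFormOdd d F) b w ≠ 0 := by
      rw [pol_add_left, horth a ha w hw, zero_add] at hyw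
      exact hyw
    refine ⟨⟨b, hb, h1⟩, ⟨b, hb, ?_⟩⟩
    rw [pol_comm]
    exact h1
  · have h := Submodule.finrank_sup_add_finrank_inf_eq (Fx (x : Matrix (I d) (I d) F))
      (Fm (x : Matrix (I d) (I d) F))
    rw [hinf, finrank_bot, add_zero, hsup, finrank_top, hVdim] at h
    exact h.symm

end Cfsg.Agent.Lib.Helper97.TSINVDEC
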