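import Mathlib
import Cfsg.Agent.Lib.Helper44.TSStmt
import Cfsg.Agent.Lib.Helper44.NegPairs

/-!
# S5972 / TSHALF (call by helper44)

A totally singular subspace of a nondegenerate subspace has at most half its dimension.
-/

set_option autoImplicit false

universe u

open scoped Matrix

namespace Cfsg.Agent.Lib.Helper97.TSTSHALF

open Cfsg.Agent.Lib.Helper37.HypStmt Cfsg.Agent.Lib.Helper37.HypStmt2
open Cfsg.Agent.Lib.Helper44.TSStmt
open Cfsg.Agent.Lib.Helper44.NegPairs
open QuadraticMap

theorem main : TsHalf.{u} := by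
  intro F _ _ hodd d Y U hY hUY hU
  classical
  -- the restricted bilinear form on `Y`
  obtain ⟨BY, hBY⟩ : ∃ BY : LinearMap.BilinForm F ↥Y,
      BY = LinearMap.BilinForm.restrict (polarBilin (oddQ d F)) Y := ⟨_, rfl⟩
  have hBYa : ∀ a b : ↥Y, BY a b = polar (Cfsg.quadFormOdd d F) (a : I d → F) (b : I d → F) := by
    intro a b
    rw [hBY]
    rfl
  have hnd : BY.Nondegenerate := by
    refine ⟨?_, ?_⟩
    · intro a ha
      by_contra ha0
      have ha0' : (a : I d → F) ≠ 0 := fun h => ha0 (Subtype.ext h)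
      obtain ⟨-, ⟨y, hy, hay⟩⟩ := hY (a : I d → F) a.2 ha0'
      apply hay
      have := ha ⟨y, hy⟩
      rw [hBYa] at this
      exact this
    · intro a ha
      by_contra ha0
      have ha0' : (a : I d → F) ≠ 0 := fun h => ha0 (Subtype.ext h)
      obtain ⟨⟨y, hy, hay⟩, -⟩ := hY (a : I d → F) a.2 ha0'
      apply hay
      have := ha ⟨y, hy⟩
      rw [hBYa] at this
      exact this
  obtain ⟨U', hU'⟩ : ∃ U' : Submodule F ↥Y, U' = U.comap Y.subtype := ⟨_, rfl⟩
  have hfr : Module.finrank F ↥U' = Module.finrank F ↥U := by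
    rw [hU']
    exact (Submodule.comapSubtypeEquivOfLe hUY).finrank_eq
  have hle : U' ≤ BY.orthogonal U' := by
    intro u hu v hv
    show BY v u = 0
    rw [hBYa]
    rw [hU'] at hu hv
    have hu1 : (u : I d → F) ∈ U := hu
    have hv1 : (v : I d → F) ∈ U := hv
    unfold polar
    rw [hU _ (U.add_mem hv1 hu1), hU _ hu1, hU _ hv1]
    ring
  have h1 : Module.finrank F ↥(BY.orthogonal U') = Module.finrank F ↥Y - Module.finrank F ↥U' :=
    LinearMap.BilinForm.finrank_orthogonal hnd U'
  have h2 : Module.finrank F ↥U' ≤ Module.finrank F ↥(BY.orthogonal U') :=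
    Submodule.finrank_mono hle
  have h3 : Module.finrank F ↥U' ≤ Module.finrank F ↥Y := Submodule.finrank_le U'
  omega

end Cfsg.Agent.Lib.Helper97.TSTSHALF
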