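import Mathlib
import Cfsg.Agent.Lib.Helper41.UnitStmt
import Cfsg.Agent.Lib.Helper40.GUReal
import Cfsg.Agent.Lib.Helper40.SSConj

/-!
# S5982, piece CONJU

If `x ^ r` is a non-zero scalar (`r` prime to the characteristic) and a scalar multiple `c • x`
has a self-dual characteristic polynomial, then `x` is conjugate to a scalar multiple of a
standard unitary matrix: realise the polynomial by a semisimple unitary matrix; it and `c • x` are
semisimple with the same characteristic polynomial.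
-/

set_option autoImplicit false
universe u

namespace Cfsg.Agent.Lib.Helper97.UnitCONJU

open Cfsg.Agent.Lib.Helper41.UnitStmt
open Cfsg.Agent.Lib.Helper40.HermAdj Cfsg.Agent.Lib.Helper40.RecipPoly

theorem main : ConjU.{u} := by
  intro F _ _ p _ _ φ hφ hl n hn r hr hrF x z hz hxr c hc hrel
  classical
  obtain ⟨l, hl⟩ := hl
  have hp : p.Prime := Fact.out
  have hne : Nonempty (Fin n) := ⟨⟨0, hn⟩⟩
  have hdetx : x.det ≠ 0 := by
    intro h0
    have h1 : (x ^ r).det = 0 := by
      rw [Matrix.det_pow, h0, zero_pow hr.ne']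
    rw [hxr, Matrix.det_smul, Matrix.det_one, mul_one] at h1
    exact pow_ne_zero _ hz h1
  have hmonic : ((c • x).charpoly).Monic := Matrix.charpoly_monic _
  have hdeg : ((c • x).charpoly).natDegree = n := by
    rw [Matrix.charpoly_natDegree_eq_dim, Fintype.card_fin]
  have hcoeff : ((c • x).charpoly).coeff 0 ≠ 0 := by
    intro h0
    have h2 : (c • x).det = (-1) ^ (Fintype.card (Fin n)) * (c • x).charpoly.coeff 0 :=
      Matrix.det_eq_sign_charpoly_coeff _
    rw [h0, mul_zero, Matrix.det_smul, Fintype.card_fin] at h2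
    exact mul_ne_zero (pow_ne_zero n hc) hdetx h2
  obtain ⟨U, hU, hUcp, N, hNpos, hNcop, hUN⟩ :=
    Cfsg.Agent.Lib.Helper40.GUReal.exists_gu_charpoly φ hφ l hl p ((c • x).charpoly) hmonic hdeg
      hcoeff hrel
  have hq : ∀ a : F, a ≠ 0 → a ^ (Fintype.card F - 1) = 1 :=
    fun a ha => FiniteField.pow_card_sub_one_eq_one a ha
  have hA : (c • x) ^ (r * (Fintype.card F - 1) * N) = 1 := by
    rw [pow_mul, pow_mul, smul_pow, hxr, smul_smul, smul_pow, one_pow,
      hq _ (mul_ne_zero (pow_ne_zero r hc) hz), one_smul, one_pow]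
  have hB : U ^ (r * (Fintype.card F - 1) * N) = 1 := by
    rw [mul_comm, pow_mul, hUN, one_pow]
  have hMF : ((r * (Fintype.card F - 1) * N : ℕ) : F) ≠ 0 := by
    have h1 : ((Fintype.card F - 1 : ℕ) : F) ≠ 0 := by
      rw [Nat.cast_sub Fintype.card_pos, FiniteField.cast_card_eq_zero]
      simp
    have h2 : (N : F) ≠ 0 := by
      rw [Ne, CharP.cast_eq_zero_iff F p N]
      exact (Nat.Prime.coprime_iff_not_dvd hp).1 hNcop.symm
    rw [Nat.cast_mul, Nat.cast_mul]
    exact mul_ne_zero (mul_ne_zero hrF h1) h2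
  obtain ⟨P, Q, hPQ, hQP, hPA⟩ := Cfsg.Agent.Lib.Helper40.SSConj.matrix_conj (c • x) U _ hMF hA hB
    hUcp.symm
  refine ⟨P, U, c⁻¹, ?_, inv_ne_zero hc, hU, ?_⟩
  · have h1 : P.det * Q.det = 1 := by
      rw [← Matrix.det_mul, hPQ, Matrix.det_one]
    exact IsUnit.of_mul_eq_one _ h1
  · have h1 : P * x = c⁻¹ • (P * (c • x)) := by
      rw [Matrix.mul_smul, smul_smul, inv_mul_cancel₀ hc, one_smul]
    rw [h1, hPA, Matrix.smul_mul]

end Cfsg.Agent.Lib.Helper97.UnitCONJU
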