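import Mathlib
import Cfsg.Agent.Lib.Helper31.SigBasic
import Cfsg.Agent.Lib.Helper31.InvSylow
import Cfsg.Agent.Lib.Helper24.Coprime

/-!
# Basic normaliser / centraliser toolkit (ambient style) used for Ward's theorem
-/

set_option autoImplicit false

namespace Cfsg.Agent.Lib.Helper97.WardBasic

open scoped commutatorElement
open Cfsg.Agent.Lib.Helper31.SigBasic Cfsg.Agent.Lib.Helper31.InvSylow

variable {Γ : Type*} [Group Γ]

theorem mem_cs {d g : Γ} : g ∈ Subgroup.centralizer ({d} : Set Γ) ↔ d * g = g * d := by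
  rw [Subgroup.mem_centralizer_iff]
  constructor
  · intro h; exact h d rfl
  · intro h x hx
    rw [Set.mem_singleton_iff] at hx
    rw [hx]; exact h

theorem mem_cz {X : Subgroup Γ} {g : Γ} :
    g ∈ Subgroup.centralizer (X : Set Γ) ↔ ∀ x ∈ X, x * g = g * x := by
  rw [Subgroup.mem_centralizer_iff]; rfl

theorem nz_conj {X : Subgroup Γ} {g : Γ} (hg : g ∈ Subgroup.normalizer (X : Set Γ)) {x : Γ}
    (hx : x ∈ X) : g * x * g⁻¹ ∈ X := conj_mem_of_mem_normalizer hg hx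

theorem nz_conj' {X : Subgroup Γ} {g : Γ} (hg : g ∈ Subgroup.normalizer (X : Set Γ)) {x : Γ}
    (hx : x ∈ X) : g⁻¹ * x * g ∈ X := inv_conj_mem_of_mem_normalizer hg hx

theorem nz_of [Finite Γ] {X : Subgroup Γ} {g : Γ} (h : ∀ x ∈ X, g * x * g⁻¹ ∈ X) :
    g ∈ Subgroup.normalizer (X : Set Γ) := mem_normalizer_of_conj_mem X g h

theorem nz_inf [Finite Γ] {X Y : Subgroup Γ} {g : Γ} (hX : g ∈ Subgroup.normalizer (X : Set Γ))
    (hY : g ∈ Subgroup.normalizer (Y : Set Γ)) :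
    g ∈ Subgroup.normalizer ((X ⊓ Y : Subgroup Γ) : Set Γ) :=
  nz_of fun _ hx => ⟨nz_conj hX hx.1, nz_conj hY hx.2⟩

theorem nz_sup [Finite Γ] {X Y : Subgroup Γ} {g : Γ} (hX : g ∈ Subgroup.normalizer (X : Set Γ))
    (hY : g ∈ Subgroup.normalizer (Y : Set Γ)) :
    g ∈ Subgroup.normalizer ((X ⊔ Y : Subgroup Γ) : Set Γ) := by
  apply nz_of
  intro x hx
  have h1 : (X ⊔ Y).map (MulAut.conj g).toMonoidHom ≤ X ⊔ Y := by
    rw [Subgroup.map_sup]
    apply sup_le_sup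
    · rintro _ ⟨y, hy, rfl⟩; exact nz_conj hX hy
    · rintro _ ⟨y, hy, rfl⟩; exact nz_conj hY hy
  exact h1 ⟨x, hx, rfl⟩

theorem nz_comm {X Y : Subgroup Γ} {g : Γ} (hX : g ∈ Subgroup.normalizer (X : Set Γ))
    (hY : g ∈ Subgroup.normalizer (Y : Set Γ)) :
    g ∈ Subgroup.normalizer ((⁅X, Y⁆ : Subgroup Γ) : Set Γ) :=
  Cfsg.Agent.Lib.Helper24.Coprime.mem_normalizer_commutator hX hY

theorem nz_cz [Finite Γ] {X : Subgroup Γ} {g : Γ} (hX : g ∈ Subgroup.normalizer (X : Set Γ)) :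
    g ∈ Subgroup.normalizer ((Subgroup.centralizer (X : Set Γ) : Subgroup Γ) : Set Γ) := by
  apply nz_of
  intro x hx
  rw [mem_cz] at hx ⊢
  intro y hy
  have h1 := hx _ (nz_conj' hX hy)
  calc y * (g * x * g⁻¹) = g * ((g⁻¹ * y * g) * x) * g⁻¹ := by group
    _ = g * (x * (g⁻¹ * y * g)) * g⁻¹ := by rw [h1]
    _ = g * x * g⁻¹ * y := by group

theorem nz_cs [Finite Γ] {d g : Γ} (h : g * d = d * g) :
    g ∈ Subgroup.normalizer ((Subgroup.centralizer ({d} : Set Γ) : Subgroup Γ) : Set Γ) := by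
  apply nz_of
  intro x hx
  rw [mem_cs] at hx ⊢
  calc d * (g * x * g⁻¹) = (d * g) * x * g⁻¹ := by group
    _ = g * (d * x) * g⁻¹ := by rw [← h]; group
    _ = g * (x * d) * g⁻¹ := by rw [hx]
    _ = g * x * (g⁻¹ * (g * d) * g⁻¹) := by group
    _ = g * x * (g⁻¹ * (d * g) * g⁻¹) := by rw [h]
    _ = g * x * g⁻¹ * d := by group

theorem nz_nz {X : Subgroup Γ} {g : Γ} (hX : g ∈ Subgroup.normalizer (X : Set Γ)) :
    g ∈ Subgroup.normalizer ((Subgroup.normalizer (X : Set Γ) : Subgroup Γ) : Set Γ) :=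
  Subgroup.le_normalizer hX

theorem nz_lcs {X : Subgroup Γ} {g : Γ} (hX : g ∈ Subgroup.normalizer (X : Set Γ)) (k : ℕ) :
    g ∈ Subgroup.normalizer ((X.lowerCentralSeries k : Subgroup Γ) : Set Γ) := by
  induction k with
  | zero => exact hX
  | succ k ih => rw [Subgroup.lowerCentralSeries_succ]; exact nz_comm ih hX

/-- the conjugate subgroup -/
def cj (g : Γ) (X : Subgroup Γ) : Subgroup Γ := X.map (MulAut.conj g).toMonoidHom

theorem mem_cj {g : Γ} {X : Subgroup Γ} {z : Γ} : z ∈ cj g X ↔ g⁻¹ * z * g ∈ X := by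
  constructor
  · rintro ⟨y, hy, rfl⟩
    have : g⁻¹ * ((MulAut.conj g).toMonoidHom y) * g = y := by
      show g⁻¹ * (g * y * g⁻¹) * g = y
      group
    rw [this]; exact hy
  · intro h
    refine ⟨g⁻¹ * z * g, h, ?_⟩
    show g * (g⁻¹ * z * g) * g⁻¹ = z
    group

theorem conj_mem_cj {g : Γ} {X : Subgroup Γ} {x : Γ} (hx : x ∈ X) : g * x * g⁻¹ ∈ cj g X :=
  ⟨x, hx, rfl⟩

theorem card_cj (g : Γ) (X : Subgroup Γ) : Nat.card (cj g X) = Nat.card X :=
  Subgroup.card_map_of_injective (MulAut.conj g).injective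

theorem cj_le_of_nz {g : Γ} {X : Subgroup Γ} (hg : g ∈ Subgroup.normalizer (X : Set Γ)) :
    cj g X ≤ X := by
  intro z hz
  rw [mem_cj] at hz
  have := nz_conj hg hz
  have e : g * (g⁻¹ * z * g) * g⁻¹ = z := by group
  rwa [e] at this

theorem cj_eq_of_nz {g : Γ} {X : Subgroup Γ} (hg : g ∈ Subgroup.normalizer (X : Set Γ)) :
    cj g X = X := by
  apply le_antisymm (cj_le_of_nz hg)
  intro z hz
  rw [mem_cj]
  exact nz_conj' hg hz

theorem cj_mono {g : Γ} {X Y : Subgroup Γ} (h : X ≤ Y) : cj g X ≤ cj g Y :=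
  Subgroup.map_mono h

theorem cj_le_of_le_of_nz {g : Γ} {X Y : Subgroup Γ} (h : X ≤ Y)
    (hg : g ∈ Subgroup.normalizer (Y : Set Γ)) : cj g X ≤ Y :=
  (cj_mono h).trans (cj_le_of_nz hg)

theorem nz_cj [Finite Γ] {g h : Γ} {X : Subgroup Γ} (hh : g⁻¹ * h * g ∈ Subgroup.normalizer (X : Set Γ)) :
    h ∈ Subgroup.normalizer ((cj g X : Subgroup Γ) : Set Γ) := by
  apply nz_of
  intro z hz
  rw [mem_cj] at hz ⊢
  have := nz_conj hh hz
  have e : g⁻¹ * (h * z * h⁻¹) * g = g⁻¹ * h * g * (g⁻¹ * z * g) * (g⁻¹ * h * g)⁻¹ := by group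
  rw [e]; exact this

theorem isPGroup_cj {q : ℕ} {g : Γ} {X : Subgroup Γ} (hX : IsPGroup q X) : IsPGroup q (cj g X) :=
  hX.map _

/-- `H` abelian as a subgroup -/
def Ab (X : Subgroup Γ) : Prop := ∀ x ∈ X, ∀ y ∈ X, x * y = y * x

theorem Ab.mono {X Y : Subgroup Γ} (h : Ab Y) (hXY : X ≤ Y) : Ab X :=
  fun x hx y hy => h x (hXY hx) y (hXY hy)

theorem Ab.le_nz {X Y : Subgroup Γ} (h : Ab Y) (hXY : X ≤ Y) :
    Y ≤ Subgroup.normalizer (X : Set Γ) := by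
  apply le_normalizer_of_conj_mem
  intro b hb u hu
  have : b * u * b⁻¹ = u := by
    rw [h b hb u (hXY hu)]; group
  rw [this]; exact hu

theorem orderOf_dvd_card_of_mem [Finite Γ] {X : Subgroup Γ} {x : Γ} (hx : x ∈ X) :
    orderOf x ∣ Nat.card X := by
  have h := orderOf_dvd_natCard (⟨x, hx⟩ : ↥X)
  rwa [Subgroup.orderOf_mk] at h

theorem pow_card_eq_one_of_mem [Finite Γ] {X : Subgroup Γ} {x : Γ} (hx : x ∈ X) :
    x ^ Nat.card X = 1 :=
  orderOf_dvd_iff_pow_eq_one.mp (orderOf_dvd_card_of_mem hx)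

theorem eq_one_of_mem_of_mem_coprime [Finite Γ] {X Y : Subgroup Γ}
    (h : (Nat.card X).Coprime (Nat.card Y)) {x : Γ} (hx : x ∈ X) (hy : x ∈ Y) : x = 1 := by
  have h1 := orderOf_dvd_card_of_mem hx
  have h2 := orderOf_dvd_card_of_mem hy
  have h3 : orderOf x ∣ 1 := by
    have := Nat.dvd_gcd h1 h2
    rwa [Nat.Coprime.gcd_eq_one h] at this
  exact orderOf_eq_one_iff.mp (Nat.dvd_one.mp h3)

theorem inf_eq_bot_of_coprime [Finite Γ] {X Y : Subgroup Γ}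
    (h : (Nat.card X).Coprime (Nat.card Y)) : X ⊓ Y = ⊥ := by
  rw [eq_bot_iff]
  intro x hx
  rw [Subgroup.mem_bot]
  exact eq_one_of_mem_of_mem_coprime h hx.1 hx.2

theorem coprime_card_of_isPGroup [Finite Γ] {q r : ℕ} [Fact q.Prime] [Fact r.Prime] (hqr : q ≠ r)
    {X Y : Subgroup Γ} (hX : IsPGroup q X) (hY : IsPGroup r Y) :
    (Nat.card X).Coprime (Nat.card Y) := by
  obtain ⟨n, hn⟩ := IsPGroup.iff_card.mp hX
  obtain ⟨m, hm⟩ := IsPGroup.iff_card.mp hY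
  rw [hn, hm]
  exact Nat.Coprime.pow _ _ ((Nat.coprime_primes Fact.out Fact.out).mpr hqr)

theorem not_dvd_card_of_isPGroup [Finite Γ] {q r : ℕ} [Fact q.Prime] [Fact r.Prime] (hqr : q ≠ r)
    {X : Subgroup Γ} (hX : IsPGroup r X) : ¬ q ∣ Nat.card X := by
  obtain ⟨n, hn⟩ := IsPGroup.iff_card.mp hX
  rw [hn]
  intro h
  exact hqr ((Nat.prime_dvd_prime_iff_eq Fact.out Fact.out).mp ((Fact.out : q.Prime).dvd_of_dvd_pow h))

theorem not_dvd_card_of_le [Finite Γ] {p : ℕ} {X Y : Subgroup Γ} (h : X ≤ Y)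
    (hY : ¬ p ∣ Nat.card Y) : ¬ p ∣ Nat.card X :=
  fun h1 => hY (h1.trans (Subgroup.card_dvd_of_le h))

theorem isPGroup_of_le {q : ℕ} {X Y : Subgroup Γ} (h : X ≤ Y) (hY : IsPGroup q Y) :
    IsPGroup q X := hY.to_le h

theorem ne_bot_iff_exists {X : Subgroup Γ} : X ≠ ⊥ ↔ ∃ x ∈ X, x ≠ 1 := by
  rw [Ne, Subgroup.eq_bot_iff_forall]
  push_neg
  rfl

theorem card_lt_of_lt' [Finite Γ] {X Y : Subgroup Γ} (h : X ≤ Y) (hne : X ≠ Y) :
    Nat.card X < Nat.card Y := by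
  by_contra hcon
  exact hne (Subgroup.eq_of_le_of_card_ge h (not_lt.mp hcon))

/-- a minimal subgroup with a given property, below a given one -/
theorem exists_min [Finite Γ] (P : Subgroup Γ → Prop) (X : Subgroup Γ) (hX : P X) :
    ∃ V : Subgroup Γ, V ≤ X ∧ P V ∧ ∀ W : Subgroup Γ, W ≤ V → P W → W = V := by
  suffices h : ∀ n : ℕ, ∀ X : Subgroup Γ, Nat.card X ≤ n → P X →
      ∃ V : Subgroup Γ, V ≤ X ∧ P V ∧ ∀ W : Subgroup Γ, W ≤ V → P W → W = V from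
    h _ X le_rfl hX
  intro n
  induction n with
  | zero =>
    intro X hc _
    exact absurd hc (by have := Nat.card_pos (α := ↥X); omega)
  | succ n ih =>
    intro X hc hX
    by_cases hm : ∀ W : Subgroup Γ, W ≤ X → P W → W = X
    · exact ⟨X, le_rfl, hX, hm⟩
    · push_neg at hm
      obtain ⟨W, hWX, hPW, hne⟩ := hm
      have hlt := card_lt_of_lt' hWX hne
      obtain ⟨V, hV, hPV, hmin⟩ := ih W (by omega) hPW
      exact ⟨V, hV.trans hWX, hPV, hmin⟩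

/-- a maximal subgroup with a given property, above a given one -/
theorem exists_max [Finite Γ] (P : Subgroup Γ → Prop) (X : Subgroup Γ) (hX : P X) :
    ∃ V : Subgroup Γ, X ≤ V ∧ P V ∧ ∀ W : Subgroup Γ, V ≤ W → P W → W = V := by
  suffices h : ∀ n : ℕ, ∀ X : Subgroup Γ, Nat.card Γ - Nat.card X ≤ n → P X →
      ∃ V : Subgroup Γ, X ≤ V ∧ P V ∧ ∀ W : Subgroup Γ, V ≤ W → P W → W = V from
    h _ X le_rfl hX
  intro n
  induction n with
  | zero =>
    intro X hc hX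
    refine ⟨X, le_rfl, hX, ?_⟩
    intro W hW _
    have h1 : Nat.card W ≤ Nat.card Γ := Subgroup.card_le_card_group W
    exact (Subgroup.eq_of_le_of_card_ge hW (by omega)).symm
  | succ n ih =>
    intro X hc hX
    by_cases hm : ∀ W : Subgroup Γ, X ≤ W → P W → W = X
    · exact ⟨X, le_rfl, hX, hm⟩
    · push_neg at hm
      obtain ⟨W, hWX, hPW, hne⟩ := hm
      have hlt := card_lt_of_lt' hWX (Ne.symm hne)
      have h1 : Nat.card W ≤ Nat.card Γ := Subgroup.card_le_card_group W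
      obtain ⟨V, hV, hPV, hmax⟩ := ih W (by omega) hPW
      exact ⟨V, hWX.trans hV, hPV, hmax⟩

end Cfsg.Agent.Lib.Helper97.WardBasic
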