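import Mathlib
import Cfsg.Agent.Lib.Helper74.WinStmt

/-!
# S4467, piece BR
-/

set_option autoImplicit false

namespace Cfsg.Agent.Lib.Helper97.WinBR

open Cfsg.Agent.Lib.Helper74.WinStmt

universe u

theorem main : Cfsg.Agent.Lib.Helper74.WinStmt.Br.{u} := by
  intro G _ _ p hp P N hN hnot
  haveI : Fact p.Prime := ⟨hp⟩
  by_contra hcon
  push Not at hcon
  obtain ⟨Q⟩ : Nonempty (Sylow p ↥N) := inferInstance
  haveI hQn : (Q : Subgroup ↥N).Normal := hcon Q
  haveI hQc : (Q : Subgroup ↥N).Characteristic := Sylow.characteristic_of_normal Q hQn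
  haveI hQ'n : ((Q : Subgroup ↥N).map N.subtype).Normal :=
    ConjAct.normal_of_characteristic_of_normal
  have hQ'p : IsPGroup p ((Q : Subgroup ↥N).map N.subtype) := Q.isPGroup'.map N.subtype
  have hQ'P : (Q : Subgroup ↥N).map N.subtype ≤ P := IsPGroup.le_sylow_of_normal hQ'p P
  have hpg : IsPGroup p (((P : Subgroup G) ⊓ N).subgroupOf N) := by
    have h1 : IsPGroup p ((P : Subgroup G) ⊓ N : Subgroup G) := P.isPGroup'.to_le inf_le_left
    exact h1.comap_of_injective N.subtype N.subtype_injective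
  have hle : (Q : Subgroup ↥N) ≤ ((P : Subgroup G) ⊓ N).subgroupOf N := by
    intro x hx
    rw [Subgroup.mem_subgroupOf]
    exact ⟨hQ'P (Subgroup.mem_map_of_mem _ hx), x.2⟩
  have heq : ((P : Subgroup G) ⊓ N).subgroupOf N = Q := Q.is_maximal' hpg hle
  have h2 : (P : Subgroup G) ⊓ N = (Q : Subgroup ↥N).map N.subtype := by
    rw [← heq, Subgroup.map_subgroupOf_eq_of_le inf_le_right]
  exact hnot (h2 ▸ hQ'n)

end Cfsg.Agent.Lib.Helper97.WinBR
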