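import Mathlib
import Cfsg.Agent.Lib.Helper74.WinStmt

/-!
# S4467, piece R2
-/

set_option autoImplicit false

namespace Cfsg.Agent.Lib.Helper97.WinR2

open Cfsg.Agent.Lib.Helper74.WinStmt

universe u

theorem main : Cfsg.Agent.Lib.Helper74.WinStmt.R2.{u} := by
  intro G _ _ _hsol p hp P hPn hyp
  classical
  have hbot : (⊥ : Subgroup G) ≠ ⊤ := by
    intro h
    apply hPn
    have h1 : (P : Subgroup G) = ⊥ := le_bot_iff.mp (h ▸ le_top)
    rw [h1]
    infer_instance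
  obtain ⟨M, ⟨hMn, hMtop⟩, hMmax⟩ := Set.exists_max_image {N : Subgroup G | N.Normal ∧ N ≠ ⊤}
    (fun N => Nat.card N) (Set.toFinite _) ⟨⊥, Subgroup.normal_bot, hbot⟩
  have hPM : ¬ (P : Subgroup G) ≤ M := by
    intro hle
    have h1 := hyp M hMn hMtop
    rw [inf_eq_left.mpr hle] at h1
    exact hPn h1
  obtain ⟨x, hxP, hxM⟩ := SetLike.not_le_iff_exists.mp hPM
  refine ⟨x, hxP, ?_⟩
  intro N hN hxN
  by_contra hNtop
  have h1 : ((P : Subgroup G) ⊓ N).Normal := hyp N hN hNtop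
  have h2 : ((P : Subgroup G) ⊓ M).Normal := hyp M hMn hMtop
  obtain ⟨K, hK⟩ : ∃ K : Subgroup G, K = ((P : Subgroup G) ⊓ N) ⊔ ((P : Subgroup G) ⊓ M) :=
    ⟨_, rfl⟩
  have hKn : K.Normal := by
    rw [hK]
    infer_instance
  have hKP : K ≤ P := by
    rw [hK]
    exact sup_le inf_le_left inf_le_left
  have hxK : x ∈ K := by
    rw [hK]
    exact Subgroup.mem_sup_left ⟨hxP, hxN⟩
  have hPMK : (P : Subgroup G) ⊓ M ≤ K := by
    rw [hK]
    exact le_sup_right
  have hKMn : (K ⊔ M).Normal := inferInstance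
  have hKM : K ⊔ M = ⊤ := by
    by_contra hne
    have hc : Nat.card ↥(K ⊔ M) ≤ Nat.card ↥M := hMmax (K ⊔ M) ⟨hKMn, hne⟩
    have heq : M = K ⊔ M := Subgroup.eq_of_le_of_card_ge le_sup_right hc
    apply hxM
    rw [heq]
    exact Subgroup.mem_sup_left hxK
  have hPK : (P : Subgroup G) ≤ K := by
    intro g hg
    have hg' : g ∈ K ⊔ M := by
      rw [hKM]
      exact Subgroup.mem_top g
    obtain ⟨k, hk, m, hm, rfl⟩ := Subgroup.mem_sup_of_normal_right.mp hg'
    have hmP : m ∈ (P : Subgroup G) := by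
      have h3 : m = k⁻¹ * (k * m) := by group
      rw [h3]
      exact Subgroup.mul_mem _ (Subgroup.inv_mem _ (hKP hk)) hg
    exact Subgroup.mul_mem _ hk (hPMK ⟨hmP, hm⟩)
  have hPeq : (P : Subgroup G) = K := le_antisymm hPK hKP
  apply hPn
  rw [hPeq]
  exact hKn

end Cfsg.Agent.Lib.Helper97.WinR2
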